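import Mathlib
import Cfsg.Agent.Helper8.SUBasic
import Cfsg.Agent.S2670
import Cfsg.Agent.S0783

/-!
# Counting vectors of given norm for a (possibly degenerate) Hermitian form

Elementary double counting gives the number of vectors of norm one of a Hermitian form
over a field with `q ^ 2` elements; as a consequence an isometry of prime order `s` fixing
only vectors of norm zero forces `(-q) ^ (rank) = 1` modulo `s`.
-/

set_option autoImplicit false

namespace Cfsg.Agent.Helper14.HermCount

open Cfsg.Agent.Helper8.SULag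

theorem q_two_le {K : Type*} [Field K] [Fintype K] {q : ℕ} (hK : Fintype.card K = q ^ 2) :
    2 ≤ q := by
  have h1 : 1 < q ^ 2 := hK ▸ Fintype.one_lt_card
  by_contra h
  have h2 : q ≤ 1 := by omega
  interval_cases q <;> simp at h1

theorem fiber_eq {α β : Type*} [DecidableEq β] (D : Finset α) (S : Finset β) (f : α → β)
    (d e : ℕ) (hf : ∀ x ∈ D, f x ∈ S)
    (hd : ∀ t ∈ S, (D.filter (fun x => f x = t)).card ≤ d)
    (hS : S.card ≤ e) (hD : D.card = d * e) (hd0 : 0 < d) :
    S.card = e ∧ ∀ t ∈ S, (D.filter (fun x => f x = t)).card = d := by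
  classical
  have h1 : D.card = ∑ t ∈ S, (D.filter (fun x => f x = t)).card :=
    Finset.card_eq_sum_card_fiberwise hf
  have h2 : ∑ t ∈ S, (D.filter (fun x => f x = t)).card ≤ ∑ t ∈ S, d := Finset.sum_le_sum hd
  rw [Finset.sum_const, smul_eq_mul] at h2
  have h3 : S.card = e := by
    have h4 : d * e ≤ S.card * d := by rw [← hD, h1]; exact h2
    have h5 : e ≤ S.card := by
      have : d * e ≤ d * S.card := by rw [mul_comm d S.card]; exact h4
      exact Nat.le_of_mul_le_mul_left this hd0
    omega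
  refine ⟨h3, ?_⟩
  have h4 : ∑ t ∈ S, (D.filter (fun x => f x = t)).card = ∑ t ∈ S, d := by
    rw [Finset.sum_const, smul_eq_mul, ← h1, hD, h3, mul_comm]
  exact (Finset.sum_eq_sum_iff_of_le hd).mp h4

theorem card_roots_le {K : Type*} [Field K] [Fintype K] [DecidableEq K] (P : Polynomial K)
    (hP : P ≠ 0) : (Finset.univ.filter (fun x : K => P.eval x = 0)).card ≤ P.natDegree := by
  apply Polynomial.card_le_degree_of_subset_roots
  intro x hx
  rw [Finset.mem_val, Finset.mem_filter] at hx
  rw [Polynomial.mem_roots hP]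
  exact hx.2

theorem field_counts {K : Type*} [Field K] [Fintype K] [DecidableEq K] {q : ℕ}
    (hK : Fintype.card K = q ^ 2) :
    (Finset.univ.filter (fun t : K => t ^ q = t)).card = q ∧
    (∀ c : K, c ^ q = c → (Finset.univ.filter (fun x : K => x + x ^ q = c)).card = q) := by
  have hqf := qf_of_card hK
  have hq2 : 2 ≤ q := q_two_le hK
  have hS : (Finset.univ.filter (fun t : K => t ^ q = t)).card ≤ q := by
    have h1 := card_roots_le (Polynomial.X ^ q - Polynomial.X : Polynomial K)
      (FiniteField.X_pow_card_sub_X_ne_zero K (by omega))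
    rw [FiniteField.X_pow_card_sub_X_natDegree_eq K (by omega)] at h1
    refine le_trans (Finset.card_le_card ?_) h1
    intro x hx
    rw [Finset.mem_filter] at hx ⊢
    refine ⟨Finset.mem_univ _, ?_⟩
    simp only [Polynomial.eval_sub, Polynomial.eval_pow, Polynomial.eval_X]
    rw [hx.2, sub_self]
  have hT : ∀ c : K, (Finset.univ.filter (fun x : K => x + x ^ q = c)).card ≤ q := by
    intro c
    have hdeg : (Polynomial.X ^ q + (Polynomial.X - Polynomial.C c) : Polynomial K).natDegree
        = q := by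
      rw [Polynomial.natDegree_add_eq_left_of_natDegree_lt, Polynomial.natDegree_X_pow]
      rw [Polynomial.natDegree_X_sub_C, Polynomial.natDegree_X_pow]
      omega
    have hP : (Polynomial.X ^ q + (Polynomial.X - Polynomial.C c) : Polynomial K) ≠ 0 := by
      intro h
      rw [h, Polynomial.natDegree_zero] at hdeg
      omega
    have h1 := card_roots_le _ hP
    rw [hdeg] at h1
    refine le_trans (Finset.card_le_card ?_) h1
    intro x hx
    rw [Finset.mem_filter] at hx ⊢
    refine ⟨Finset.mem_univ _, ?_⟩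
    simp only [Polynomial.eval_add, Polynomial.eval_pow, Polynomial.eval_X, Polynomial.eval_sub,
      Polynomial.eval_C]
    rw [← hx.2]
    ring
  have key := fiber_eq (Finset.univ : Finset K) (Finset.univ.filter (fun t : K => t ^ q = t))
    (fun x => x + x ^ q) q q
    (fun x _ => by
      rw [Finset.mem_filter]
      refine ⟨Finset.mem_univ _, ?_⟩
      rw [hqf.add, hqf.inv, add_comm])
    (fun t _ => hT t) hS (by rw [Finset.card_univ, hK, sq]) (by omega)
  exact ⟨key.1, fun c hc => key.2 c (Finset.mem_filter.mpr ⟨Finset.mem_univ _, hc⟩)⟩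

theorem norm_surj {K : Type*} [Field K] [Fintype K] {q : ℕ} (hK : Fintype.card K = q ^ 2)
    (t : K) (ht : t ^ q = t) (ht0 : t ≠ 0) : ∃ c : K, c ^ (q + 1) = t := by
  have hq2 : 2 ≤ q := q_two_le hK
  have hq1 : 1 ≤ q := by omega
  obtain ⟨γ, hγ0, hγord, hγgen⟩ := Cfsg.Agent.S2670.exists_gen K
  rw [hK, Cfsg.Agent.S0783.sq_sub_one hq1] at hγord
  obtain ⟨k, hk⟩ := hγgen t ht0
  have h1 : γ ^ (k * (q - 1)) = 1 := by
    rw [pow_mul, hk]
    have h2 : t * t ^ (q - 1) = t * 1 := by
      rw [← pow_succ', Nat.sub_add_cancel hq1, ht, mul_one]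
    exact mul_left_cancel₀ ht0 h2
  have h2 := orderOf_dvd_of_pow_eq_one h1
  rw [hγord, mul_comm (q + 1), mul_comm k] at h2
  have h3 : (q + 1) ∣ k := Nat.dvd_of_mul_dvd_mul_left (by omega : 0 < q - 1) h2
  obtain ⟨j, hj⟩ := h3
  exact ⟨γ ^ j, by rw [← pow_mul, mul_comm j, ← hj, hk]⟩

theorem free_dvd {G V : Type*} [Group G] [Fintype G] [MulAction G V] (Ω : Finset V)
    (hinv : ∀ (g : G), ∀ v ∈ Ω, g • v ∈ Ω)
    (hfree : ∀ (g : G), ∀ v ∈ Ω, g • v = v → g = 1) :
    Fintype.card G ∣ Ω.card := by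
  classical
  letI act : MulAction G Ω :=
    { smul := fun g v => ⟨g • v.1, hinv g v.1 v.2⟩
      one_smul := fun v => Subtype.ext (one_smul G v.1)
      mul_smul := fun g h v => Subtype.ext (mul_smul g h v.1) }
  have e := MulAction.selfEquivOrbitsQuotientProd (G := G) (X := Ω) (fun b => by
    rw [Subgroup.eq_bot_iff_forall]
    intro g hg
    exact hfree g b.1 b.2 (congrArg Subtype.val (MulAction.mem_stabilizer_iff.mp hg)))
  have h1 := Nat.card_congr e
  rw [Nat.card_prod, Nat.card_eq_fintype_card (α := Ω), Fintype.card_coe,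
    Nat.card_eq_fintype_card (α := G)] at h1
  rw [h1]
  exact dvd_mul_left _ _

theorem herm_count {K V : Type*} [Field K] [Fintype K] [AddCommGroup V] [Module K V] [Fintype V]
    {q : ℕ} (hK : Fintype.card K = q ^ 2) (s : ℕ) [Fact s.Prime] (hsq : ¬ s ∣ q)
    (m ρ : ℕ) (hV : Fintype.card V = q ^ (2 * m))
    (B : V → V → K)
    (hadd : ∀ u v w, B (u + v) w = B u w + B v w)
    (hsmul : ∀ (c : K) u w, B (c • u) w = c * B u w)
    (hherm : ∀ u v, B v u = (B u v) ^ q)
    (hRad : Nat.card {z : V // ∀ w, B z w = 0} = q ^ (2 * ρ))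
    (X : V → V) (hXs : X^[s] = id) (hXB : ∀ u v, B (X u) (X v) = B u v)
    (hfix : ∀ v, X v = v → B v v = 0) :
    ρ ≤ m ∧ (-(q : ZMod s)) ^ (m - ρ) = 1 := by
  classical
  have hqf := qf_of_card hK
  have hq2 : 2 ≤ q := q_two_le hK
  have hq1 : 1 ≤ q := by omega
  obtain ⟨hF0, hTr⟩ := field_counts hK
  have hB0l : ∀ w, B 0 w = 0 := fun w => by
    have := hsmul 0 0 w
    rwa [zero_smul, zero_mul] at this
  have haddr : ∀ u v w, B u (v + w) = B u v + B u w := fun u v w => by
    rw [hherm (v + w) u, hadd, hqf.add, ← hherm, ← hherm]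
  have hsmulr : ∀ (c : K) u w, B u (c • w) = c ^ q * B u w := fun c u w => by
    rw [hherm (c • w) u, hsmul, mul_pow, ← hherm]
  have hNq : ∀ v, (B v v) ^ q = B v v := fun v => (hherm v v).symm
  have hNsmul : ∀ (c : K) v, B (c • v) (c • v) = c ^ (q + 1) * B v v := fun c v => by
    rw [hsmul, hsmulr, ← mul_assoc, pow_succ']
  have hNadd : ∀ w z, B (w + z) (w + z) = B w w + (B w z + (B w z) ^ q) + B z z := fun w z => by
    rw [hadd, haddr, haddr, hherm w z]
    ring
  obtain ⟨a, ha⟩ : ∃ a : K → ℕ,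
      a = fun t => (Finset.univ.filter (fun v : V => B v v = t)).card := ⟨_, rfl⟩
  have ha' : ∀ t, a t = (Finset.univ.filter (fun v : V => B v v = t)).card := fun t => by rw [ha]
  have ha0 : ∀ t : K, t ^ q ≠ t → a t = 0 := by
    intro t ht
    rw [ha', Finset.card_eq_zero, Finset.filter_eq_empty_iff]
    intro v _ hv
    exact ht (by rw [← hv]; exact hNq v)
  have ha1 : ∀ t : K, t ^ q = t → t ≠ 0 → a t = a 1 := by
    intro t ht ht0
    obtain ⟨c, hc⟩ := norm_surj hK t ht ht0
    have hc0 : c ≠ 0 := by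
      rintro rfl
      rw [zero_pow (Nat.succ_ne_zero q)] at hc
      exact ht0 hc.symm
    rw [ha', ha']
    symm
    apply Finset.card_bij (fun v _ => c • v)
    · intro v hv
      rw [Finset.mem_filter] at hv ⊢
      exact ⟨Finset.mem_univ _, by rw [hNsmul, hv.2, mul_one, hc]⟩
    · intro v _ w _ h
      exact smul_right_injective V hc0 h
    · intro w hw
      rw [Finset.mem_filter] at hw
      refine ⟨c⁻¹ • w, ?_, by rw [smul_smul, mul_inv_cancel₀ hc0, one_smul]⟩
      rw [Finset.mem_filter]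
      refine ⟨Finset.mem_univ _, ?_⟩
      rw [hNsmul, hw.2, inv_pow, hc, inv_mul_cancel₀ ht0]
  have h0mem : (0 : K) ∈ Finset.univ.filter (fun t : K => t ^ q = t) :=
    Finset.mem_filter.mpr ⟨Finset.mem_univ _, zero_pow hqf.q0⟩
  have hsum : ∀ g : ℕ → ℕ, g 0 = 0 → ∑ t : K, g (a t) = g (a 0) + (q - 1) * g (a 1) := by
    intro g hg
    have h1 : ∑ t : K, g (a t) = ∑ t ∈ Finset.univ.filter (fun t : K => t ^ q = t), g (a t) := by
      symm
      apply Finset.sum_subset (Finset.filter_subset _ _)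
      intro t _ ht
      rw [Finset.mem_filter] at ht
      have : t ^ q ≠ t := fun h => ht ⟨Finset.mem_univ _, h⟩
      rw [ha0 t this, hg]
    rw [h1, ← Finset.add_sum_erase _ _ h0mem]
    congr 1
    have h2 : ∀ t ∈ (Finset.univ.filter (fun t : K => t ^ q = t)).erase 0, g (a t) = g (a 1) := by
      intro t ht
      rw [Finset.mem_erase, Finset.mem_filter] at ht
      rw [ha1 t ht.2.2 ht.1]
    rw [Finset.sum_congr rfl h2, Finset.sum_const, Finset.card_erase_of_mem h0mem, hF0,
      smul_eq_mul]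
  have hpart : ∑ t : K, a t = Fintype.card V := by
    have := Finset.card_eq_sum_card_fiberwise (s := (Finset.univ : Finset V))
      (t := (Finset.univ : Finset K)) (f := fun v => B v v) (fun v _ => Finset.mem_coe.mpr (Finset.mem_univ _))
    rw [Finset.card_univ] at this
    rw [this]
    exact Finset.sum_congr rfl (fun t _ => ha' t)
  have hE1 : a 0 + (q - 1) * a 1 = q ^ (2 * m) := by
    have h : ∑ t : K, a t = a 0 + (q - 1) * a 1 := hsum (fun x => x) rfl
    rw [← h, hpart, hV]
  have h2 : ∑ t : K, a t ^ 2 = a 0 ^ 2 + (q - 1) * a 1 ^ 2 := hsum (fun x => x ^ 2) (by norm_num)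
  have hP1 : ∑ t : K, a t ^ 2 = ∑ w : V, a (B w w) := by
    rw [← Finset.sum_fiberwise_of_maps_to (s := (Finset.univ : Finset V))
      (t := (Finset.univ : Finset K)) (g := fun w => B w w) (fun w _ => Finset.mem_univ _)
      (fun w => a (B w w))]
    refine Finset.sum_congr rfl (fun t _ => ?_)
    have h3 : ∀ w ∈ Finset.univ.filter (fun w : V => B w w = t), a (B w w) = a t := by
      intro w hw
      rw [(Finset.mem_filter.mp hw).2]
    rw [Finset.sum_congr rfl h3, Finset.sum_const, smul_eq_mul, ← ha' t, sq]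
  have hP2 : ∀ w : V, a (B w w)
      = (Finset.univ.filter (fun z : V => B (w + z) (w + z) = B w w)).card := by
    intro w
    rw [ha']
    symm
    apply Finset.card_bij (fun z _ => w + z)
    · intro z hz
      rw [Finset.mem_filter] at hz ⊢
      exact ⟨Finset.mem_univ _, hz.2⟩
    · intro z _ z' _ h
      exact add_left_cancel h
    · intro v hv
      rw [Finset.mem_filter] at hv
      exact ⟨v - w, Finset.mem_filter.mpr ⟨Finset.mem_univ _, by rw [add_sub_cancel]; exact hv.2⟩,
        add_sub_cancel w v⟩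
  have hswap : ∑ w : V, (Finset.univ.filter (fun z : V => B (w + z) (w + z) = B w w)).card
      = ∑ z : V, (Finset.univ.filter (fun w : V => B (w + z) (w + z) = B w w)).card := by
    simp only [Finset.card_filter]
    exact Finset.sum_comm
  have hcz1 : ∀ z : V, (∀ w, B z w = 0) →
      (Finset.univ.filter (fun w : V => B (w + z) (w + z) = B w w)).card = Fintype.card V := by
    intro z hz
    rw [Finset.filter_true_of_mem, Finset.card_univ]
    intro w _
    rw [hNadd, hherm z w, hz w, hz z]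
    simp [zero_pow hqf.q0]
  have hnegq : ∀ x : K, x ^ q = x → (-x) ^ q = -x := by
    intro x hx
    have h := map_neg (frob hqf) x
    rw [frob_apply, frob_apply, hx] at h
    exact h
  have hcz2 : ∀ z : V, (¬ ∀ w, B z w = 0) →
      q * (Finset.univ.filter (fun w : V => B (w + z) (w + z) = B w w)).card
        = Fintype.card V := by
    intro z hz
    push_neg at hz
    obtain ⟨w₁, hw₁⟩ := hz
    have hw₁' : B w₁ z ≠ 0 := by
      rw [hherm z w₁]
      exact pow_ne_zero _ hw₁
    obtain ⟨w₀, hw₀⟩ : ∃ w₀, B w₀ z = 1 :=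
      ⟨(B w₁ z)⁻¹ • w₁, by rw [hsmul, inv_mul_cancel₀ hw₁']⟩
    obtain ⟨n₀, hn₀⟩ : ∃ n₀, n₀ = (Finset.univ.filter (fun w : V => B w z = 0)).card :=
      ⟨_, rfl⟩
    have hfib : ∀ x : K, (Finset.univ.filter (fun w : V => B w z = x)).card = n₀ := by
      intro x
      rw [hn₀]
      apply Finset.card_bij (fun w _ => w - x • w₀)
      · intro w hw
        rw [Finset.mem_filter] at hw ⊢
        refine ⟨Finset.mem_univ _, ?_⟩
        rw [sub_eq_add_neg, hadd, ← neg_smul, hsmul, hw₀, hw.2]
        ring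
      · intro w _ w' _ h
        exact sub_left_injective h
      · intro w hw
        rw [Finset.mem_filter] at hw
        refine ⟨w + x • w₀, Finset.mem_filter.mpr ⟨Finset.mem_univ _, ?_⟩,
          add_sub_cancel_right _ _⟩
        rw [hadd, hsmul, hw₀, hw.2]
        ring
    have hVn : Fintype.card V = q ^ 2 * n₀ := by
      have := Finset.card_eq_sum_card_fiberwise (s := (Finset.univ : Finset V))
        (t := (Finset.univ : Finset K)) (f := fun w => B w z)
        (fun v _ => Finset.mem_coe.mpr (Finset.mem_univ _))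
      rw [Finset.card_univ] at this
      rw [this, Finset.sum_congr rfl (fun x _ => hfib x), Finset.sum_const, Finset.card_univ, hK,
        smul_eq_mul]
    have hcnt : (Finset.univ.filter (fun w : V => B (w + z) (w + z) = B w w)).card
        = q * n₀ := by
      have hset : Finset.univ.filter (fun w : V => B (w + z) (w + z) = B w w)
          = Finset.univ.filter (fun w : V => B w z + (B w z) ^ q = - B z z) := by
        apply Finset.filter_congr
        intro w _
        rw [hNadd]
        constructor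
        · intro h
          linear_combination h
        · intro h
          linear_combination h
      rw [hset]
      have h3 := Finset.card_eq_sum_card_fiberwise
        (s := Finset.univ.filter (fun w : V => B w z + (B w z) ^ q = - B z z))
        (t := Finset.univ.filter (fun x : K => x + x ^ q = - B z z)) (f := fun w => B w z)
        (fun w hw => by
          rw [Finset.mem_coe, Finset.mem_filter] at hw ⊢
          exact ⟨Finset.mem_univ _, hw.2⟩)
      rw [h3]
      have hterm : ∀ x ∈ Finset.univ.filter (fun x : K => x + x ^ q = - B z z),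
          ((Finset.univ.filter (fun w : V => B w z + (B w z) ^ q = - B z z)).filter
            (fun w => B w z = x)).card = n₀ := by
        intro x hx
        rw [Finset.mem_filter] at hx
        rw [← hfib x, Finset.filter_filter]
        congr 1
        apply Finset.filter_congr
        intro w _
        constructor
        · intro h
          exact h.2
        · intro h
          exact ⟨by rw [h]; exact hx.2, h⟩
      rw [Finset.sum_congr rfl hterm, Finset.sum_const, smul_eq_mul,
        hTr (- B z z) (hnegq _ (hNq z))]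
    rw [hcnt, hVn]
    ring
  have hR : (Finset.univ.filter (fun z : V => ∀ w, B z w = 0)).card = q ^ (2 * ρ) := by
    rw [← hRad, Nat.card_eq_fintype_card, Fintype.card_subtype]
  have hρm : ρ ≤ m := by
    have h1 : q ^ (2 * ρ) ≤ q ^ (2 * m) := by
      rw [← hR, ← hV, ← Finset.card_univ]
      exact Finset.card_le_card (Finset.filter_subset _ _)
    have := (Nat.pow_le_pow_iff_right (by omega : 1 < q)).mp h1
    omega
  have hRV : q ^ (2 * ρ) ≤ q ^ (2 * m) := Nat.pow_le_pow_right (by omega) (by omega)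
  have hE2 : q * (a 0 ^ 2 + (q - 1) * a 1 ^ 2)
      = q * q ^ (2 * ρ) * q ^ (2 * m) + (q ^ (2 * m) - q ^ (2 * ρ)) * q ^ (2 * m) := by
    rw [← h2, hP1, Finset.sum_congr rfl (fun w _ => hP2 w), hswap, Finset.mul_sum]
    rw [← Finset.sum_filter_add_sum_filter_not Finset.univ (fun z : V => ∀ w, B z w = 0)]
    have h3 : ∀ z ∈ Finset.univ.filter (fun z : V => ∀ w, B z w = 0),
        q * (Finset.univ.filter (fun w : V => B (w + z) (w + z) = B w w)).card
          = q * Fintype.card V := by
      intro z hz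
      rw [hcz1 z (Finset.mem_filter.mp hz).2]
    have h4 : ∀ z ∈ Finset.univ.filter (fun z : V => ¬ ∀ w, B z w = 0),
        q * (Finset.univ.filter (fun w : V => B (w + z) (w + z) = B w w)).card
          = Fintype.card V := by
      intro z hz
      exact hcz2 z (Finset.mem_filter.mp hz).2
    rw [Finset.sum_congr rfl h3, Finset.sum_congr rfl h4, Finset.sum_const, Finset.sum_const,
      smul_eq_mul, smul_eq_mul, hR]
    have hnot : (Finset.univ.filter (fun z : V => ¬ ∀ w, B z w = 0)).card
        = q ^ (2 * m) - q ^ (2 * ρ) := by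
      have := Finset.card_filter_add_card_filter_not (s := (Finset.univ : Finset V))
        (fun z : V => ∀ w, B z w = 0)
      rw [hR, Finset.card_univ, hV] at this
      omega
    rw [hnot, hV]
    ring
  have hF2 : (q ^ 2 - 1) ∣ a 0 - 1 := by
    have h := free_dvd (G := Kˣ) ((Finset.univ.filter (fun v : V => B v v = 0)).erase 0)
      (fun g v hv => by
        rw [Finset.mem_erase, Finset.mem_filter] at hv ⊢
        refine ⟨?_, Finset.mem_univ _, ?_⟩
        · intro h0
          rw [Units.smul_def] at h0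
          rcases smul_eq_zero.mp h0 with h1 | h1
          · exact g.ne_zero h1
          · exact hv.1 h1
        · rw [Units.smul_def, hNsmul, hv.2.2, mul_zero])
      (fun g v hv h => by
        rw [Finset.mem_erase] at hv
        rw [Units.smul_def] at h
        have h1 : ((g : K) - 1) • v = 0 := by rw [sub_smul, one_smul, h, sub_self]
        rcases smul_eq_zero.mp h1 with h2 | h2
        · exact Units.ext (sub_eq_zero.mp h2)
        · exact absurd h2 hv.1)
    have hmem0 : (0 : V) ∈ Finset.univ.filter (fun v : V => B v v = 0) :=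
      Finset.mem_filter.mpr ⟨Finset.mem_univ _, hB0l 0⟩
    rw [Fintype.card_units, hK, Finset.card_erase_of_mem hmem0] at h
    rw [ha']
    exact h
  have hF3 : s ∣ a 1 := by
    let f : Function.End {v : V // B v v = 1} := fun v => ⟨X v.1, by rw [hXB]; exact v.2⟩
    have hfk : ∀ (k : ℕ) (v : {v : V // B v v = 1}),
        (((f ^ k) v : {v : V // B v v = 1}) : V) = X^[k] v.1 := by
      intro k
      induction k with
      | zero => intro v; rfl
      | succ k ih =>
        intro v
        have : (f ^ (k + 1)) v = (f ^ k) (f v) := by rw [pow_succ]; rfl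
        rw [this, ih, Function.iterate_succ_apply]
    have hf : f ^ s ^ 1 = 1 := by
      rw [pow_one]
      funext v
      apply Subtype.ext
      rw [hfk, hXs]
      rfl
    have h1 := Equiv.Perm.card_fixedPoints_modEq (f := f) (p := s) (n := 1) hf
    have h3 : Fintype.card (Function.fixedPoints f) = 0 := by
      rw [Fintype.card_eq_zero_iff]
      refine ⟨fun ⟨v, hv⟩ => ?_⟩
      have h4 : X v.1 = v.1 := congrArg Subtype.val hv
      have h5 := hfix v.1 h4
      rw [v.2] at h5
      exact one_ne_zero h5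
    rw [h3, Fintype.card_subtype] at h1
    rw [ha']
    exact (Nat.modEq_zero_iff_dvd).mp h1
  -- the algebra
  have hpos0 : 1 ≤ a 0 := by
    rw [ha']
    exact Finset.card_pos.mpr ⟨0, Finset.mem_filter.mpr ⟨Finset.mem_univ _, hB0l 0⟩⟩
  obtain ⟨A, hA⟩ : ∃ A : ℤ, A = (a 1 : ℤ) := ⟨_, rfl⟩
  obtain ⟨A0, hA0⟩ : ∃ A0 : ℤ, A0 = (a 0 : ℤ) := ⟨_, rfl⟩
  have hQ2 : (2 : ℤ) ≤ (q : ℤ) := by exact_mod_cast hq2
  have E1 : A0 + ((q : ℤ) - 1) * A = (q : ℤ) ^ (2 * m) := by
    have := congrArg (fun x : ℕ => (x : ℤ)) hE1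
    simp only [Nat.cast_add, Nat.cast_mul, Nat.cast_pow, Nat.cast_sub hq1, Nat.cast_one] at this
    rw [hA0, hA]
    exact this
  have E2 : (q : ℤ) * (A0 ^ 2 + ((q : ℤ) - 1) * A ^ 2) = (q : ℤ) * (q : ℤ) ^ (2 * ρ) * (q : ℤ) ^ (2 * m)
      + ((q : ℤ) ^ (2 * m) - (q : ℤ) ^ (2 * ρ)) * (q : ℤ) ^ (2 * m) := by
    have := congrArg (fun x : ℕ => (x : ℤ)) hE2
    simp only [Nat.cast_add, Nat.cast_mul, Nat.cast_pow, Nat.cast_sub hq1, Nat.cast_sub hRV,
      Nat.cast_one] at this
    rw [hA0, hA]
    exact this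
  have hA0' : A0 = (q : ℤ) ^ (2 * m) - ((q : ℤ) - 1) * A := by linarith
  have h3 : ((q : ℤ) - 1) * (((q : ℤ) * A - (q : ℤ) ^ (2 * m)) ^ 2 - ((q : ℤ) ^ (m + ρ)) ^ 2) = 0 := by
    rw [hA0'] at E2
    have e1 : ((q : ℤ) ^ (m + ρ)) ^ 2 = (q : ℤ) ^ (2 * ρ) * (q : ℤ) ^ (2 * m) := by ring
    rw [e1]
    linear_combination E2
  have h4 : ((q : ℤ) * A - (q : ℤ) ^ (2 * m)) ^ 2 = ((q : ℤ) ^ (m + ρ)) ^ 2 := by
    rcases mul_eq_zero.mp h3 with h | h
    · omega
    · linarith
  have D1 : ((q : ℤ) ^ 2 - 1) ∣ (A0 - 1) := by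
    have h := Int.natCast_dvd_natCast.mpr hF2
    rw [Nat.cast_sub hpos0, Nat.cast_sub (Nat.one_le_pow _ _ (by omega)), Nat.cast_pow] at h
    rw [hA0]
    exact_mod_cast h
  have D2 : ((q : ℤ) ^ 2 - 1) ∣ ((q : ℤ) ^ (2 * m) - 1) := by
    have := sub_dvd_pow_sub_pow ((q : ℤ) ^ 2) 1 m
    rw [one_pow, ← pow_mul] at this
    exact this
  have D3 : ((q : ℤ) + 1) ∣ ((q : ℤ) ^ (m + ρ) - (-1) ^ (m + ρ)) := by
    have := sub_dvd_pow_sub_pow (q : ℤ) (-1) (m + ρ)
    rwa [sub_neg_eq_add] at this
  have D4 : (s : ℤ) ∣ A := by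
    rw [hA]
    exact Int.natCast_dvd_natCast.mpr hF3
  have key : ∀ ε : ℤ, (ε = 1 ∨ ε = -1) →
      (q : ℤ) * A - (q : ℤ) ^ (2 * m) = ε * (q : ℤ) ^ (m + ρ) → ε * (-1) ^ (m + ρ) = -1 := by
    intro ε hε h
    have h5 : ((q : ℤ) ^ 2 - 1) ∣ ((q : ℤ) - 1) * (1 + ε * (q : ℤ) ^ (m + ρ)) := by
      have h6 : ((q : ℤ) - 1) * (1 + ε * (q : ℤ) ^ (m + ρ))
          = ((q : ℤ) ^ (2 * m) - 1) - (q : ℤ) * (A0 - 1) := by
        rw [hA0']
        linear_combination (-((q : ℤ) - 1)) * h
      rw [h6]
      exact dvd_sub D2 (Dvd.dvd.mul_left D1 _)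
    have h7 : ((q : ℤ) + 1) ∣ (1 + ε * (q : ℤ) ^ (m + ρ)) := by
      have h8 : (q : ℤ) ^ 2 - 1 = ((q : ℤ) - 1) * ((q : ℤ) + 1) := by ring
      rw [h8] at h5
      exact (mul_dvd_mul_iff_left (by omega : (q : ℤ) - 1 ≠ 0)).mp h5
    have h9 : ((q : ℤ) + 1) ∣ (1 + ε * (-1) ^ (m + ρ)) := by
      have : 1 + ε * (-1) ^ (m + ρ) = (1 + ε * (q : ℤ) ^ (m + ρ))
          - ε * ((q : ℤ) ^ (m + ρ) - (-1) ^ (m + ρ)) := by ring
      rw [this]
      exact dvd_sub h7 (Dvd.dvd.mul_left D3 ε)
    rcases neg_one_pow_eq_or ℤ (m + ρ) with hs | hs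
    · rcases hε with rfl | rfl
      · exfalso
        rw [hs] at h9
        have := Int.le_of_dvd (by norm_num) h9
        omega
      · rw [hs]
        norm_num
    · rcases hε with rfl | rfl
      · rw [hs]
        norm_num
      · exfalso
        rw [hs] at h9
        have := Int.le_of_dvd (by norm_num) h9
        omega
  have hfin : ((q : ZMod s)) ^ (2 * m) = (-1) ^ (m + ρ) * (q : ZMod s) ^ (m + ρ) := by
    have h5 := sq_eq_sq_iff_eq_or_eq_neg.mp h4
    obtain ⟨c, hc⟩ := D4
    have h6 : (q : ℤ) ^ (2 * m) = (-1) ^ (m + ρ) * (q : ℤ) ^ (m + ρ) + (s : ℤ) * ((q : ℤ) * c) := by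
      rcases h5 with h5 | h5
      · have hk := key 1 (Or.inl rfl) (by rw [one_mul]; exact h5)
        rw [one_mul] at hk
        rw [hk]
        rw [hc] at h5
        linear_combination -h5
      · have hk := key (-1) (Or.inr rfl) (by rw [neg_one_mul]; exact h5)
        have hk' : (-1 : ℤ) ^ (m + ρ) = 1 := by linarith
        rw [hk']
        rw [hc] at h5
        linear_combination -h5
    have h7 := congrArg (fun x : ℤ => (x : ZMod s)) h6
    simp only [Int.cast_add, Int.cast_mul, Int.cast_pow, Int.cast_neg, Int.cast_one,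
      Int.cast_natCast, ZMod.natCast_self, zero_mul, add_zero] at h7
    exact h7
  refine ⟨hρm, ?_⟩
  have hq0 : (q : ZMod s) ≠ 0 := by
    rw [Ne, ZMod.natCast_eq_zero_iff]
    exact hsq
  have h8 : (q : ZMod s) ^ (m + ρ) * (q : ZMod s) ^ (m - ρ)
      = (q : ZMod s) ^ (m + ρ) * (-1) ^ (m + ρ) := by
    rw [← pow_add, show m + ρ + (m - ρ) = 2 * m by omega, hfin, mul_comm]
  have h9 : (q : ZMod s) ^ (m - ρ) = (-1) ^ (m + ρ) := mul_left_cancel₀ (pow_ne_zero _ hq0) h8
  rw [neg_pow, h9, ← pow_add, show m - ρ + (m + ρ) = 2 * m by omega]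
  exact Even.neg_one_pow (even_two_mul m)

end Cfsg.Agent.Helper14.HermCount
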