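import Mathlib
import Cfsg.Agent.S2571

/-!
Centraliser of a regular unipotent element of `Sp_2m(q)`, `q` odd.
-/

set_option autoImplicit false
open Polynomial
open scoped Matrix

namespace Cfsg.Agent.Helper14.RegUniSp

section Poly

variable {F : Type*} [Field F]

theorem coeff_comp_neg (p : F[X]) (k : ℕ) : (p.comp (-X)).coeff k = (-1) ^ k * p.coeff k := by
  induction p using Polynomial.induction_on' with
  | add p q hp hq => rw [add_comp, coeff_add, coeff_add, hp, hq, mul_add]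
  | monomial n a =>
    rw [← C_mul_X_pow_eq_monomial, mul_comp, C_comp, pow_comp, X_comp]
    have h1 : (C a * (-X) ^ n : F[X]) = C ((-1) ^ n * a) * X ^ n := by
      rw [neg_pow, C_mul, C_pow, C_neg, C_1]; ring
    rw [h1, coeff_C_mul_X_pow, coeff_C_mul_X_pow]
    by_cases h : k = n
    · rw [if_pos h, if_pos h, h]
    · rw [if_neg h, if_neg h, mul_zero]

theorem coeff_zero_sq {m : ℕ} (hm : 1 ≤ m) (f : F[X])
    (hfU : X ^ (2 * m) ∣ f * f.comp (-X) - 1) : f.coeff 0 = 1 ∨ f.coeff 0 = -1 := by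
  have h3 := eval_dvd (x := (0 : F)) ((dvd_pow_self X (by omega : 2 * m ≠ 0)).trans hfU)
  rw [eval_X, zero_dvd_iff, eval_sub, eval_mul, eval_comp, eval_neg, eval_X, neg_zero, eval_one,
    ← coeff_zero_eq_eval_zero, sub_eq_zero] at h3
  exact mul_self_eq_one_iff.mp h3

theorem poly_inj {m : ℕ} (h2 : (2 : F) ≠ 0) (hm : 1 ≤ m) (f g : F[X])
    (hf : f.natDegree < 2 * m) (hg : g.natDegree < 2 * m)
    (hfU : X ^ (2 * m) ∣ f * f.comp (-X) - 1) (hgU : X ^ (2 * m) ∣ g * g.comp (-X) - 1)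
    (h0 : f.coeff 0 = g.coeff 0) (hodd : ∀ j < m, f.coeff (2 * j + 1) = g.coeff (2 * j + 1)) :
    f = g := by
  obtain ⟨d, hd⟩ : ∃ d, d = f - g := ⟨_, rfl⟩
  have hdd : d.natDegree < 2 * m := by
    rw [hd]; exact lt_of_le_of_lt (natDegree_sub_le f g) (max_lt hf hg)
  have hdc : ∀ k, Odd k → d.coeff k = 0 := by
    intro k hk
    obtain ⟨j, hj⟩ := hk
    rw [hd, coeff_sub, sub_eq_zero]
    by_cases hjm : j < m
    · rw [hj]; exact hodd j hjm
    · rw [coeff_eq_zero_of_natDegree_lt (by omega), coeff_eq_zero_of_natDegree_lt (by omega)]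
  have hdn : d.comp (-X) = d := by
    ext k
    rw [coeff_comp_neg]
    rcases Nat.even_or_odd k with hk | hk
    · rw [hk.neg_one_pow, one_mul]
    · rw [hdc k hk, mul_zero]
  have hfg : f = g + d := by rw [hd]; ring
  have h1 : X ^ (2 * m) ∣ d * (g.comp (-X) + f) := by
    have h3 : d * (g.comp (-X) + f) = (f * f.comp (-X) - 1) - (g * g.comp (-X) - 1) := by
      have h4 : f.comp (-X) = g.comp (-X) + d := by rw [hfg, add_comp, hdn]
      rw [h4, hfg]; ring
    rw [h3]; exact dvd_sub hfU hgU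
  have hf0 : f.coeff 0 ≠ 0 := by
    rcases coeff_zero_sq hm f hfU with h | h
    · rw [h]; exact one_ne_zero
    · rw [h]; exact neg_ne_zero.mpr one_ne_zero
  have h5 : IsCoprime (X ^ (2 * m) : F[X]) (g.comp (-X) + f) := by
    apply IsCoprime.pow_left
    rw [Irreducible.coprime_iff_not_dvd irreducible_X]
    intro h
    have h3 := eval_dvd (x := (0 : F)) h
    rw [eval_X, zero_dvd_iff, eval_add, eval_comp, eval_neg, eval_X, neg_zero,
      ← coeff_zero_eq_eval_zero, ← coeff_zero_eq_eval_zero, ← h0] at h3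
    have h6 : (2 : F) * f.coeff 0 = 0 := by rw [two_mul]; exact h3
    rcases mul_eq_zero.mp h6 with h7 | h7
    · exact h2 h7
    · exact hf0 h7
  have h6 : X ^ (2 * m) ∣ d := h5.dvd_of_dvd_mul_right h1
  have h7 : d = 0 := eq_zero_of_dvd_of_natDegree_lt h6 (by rw [natDegree_X_pow]; exact hdd)
  rw [hfg, h7, add_zero]

theorem sum_comp' {κ : Type*} (s : Finset κ) (f : κ → F[X]) (q : F[X]) :
    (∑ i ∈ s, f i).comp q = ∑ i ∈ s, (f i).comp q := by
  have h := map_sum (Polynomial.compRingHom q) f s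
  simpa using h

/-- an odd polynomial with prescribed coefficients -/
noncomputable def bpoly {m : ℕ} (c : Fin m → F) : F[X] :=
  ∑ j : Fin m, C (c j) * X ^ (2 * (j : ℕ) + 1)

theorem bpoly_coeff {m : ℕ} (c : Fin m → F) (j : Fin m) :
    (bpoly c).coeff (2 * (j : ℕ) + 1) = c j := by
  unfold bpoly
  rw [finsetSum_coeff, Finset.sum_eq_single j]
  · rw [coeff_C_mul_X_pow, if_pos rfl]
  · intro i _ hi
    rw [coeff_C_mul_X_pow, if_neg]
    intro h
    exact hi (Fin.ext (by omega))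
  · intro h; exact absurd (Finset.mem_univ _) h

theorem bpoly_natDegree {m : ℕ} (c : Fin m → F) (hm : 1 ≤ m) : (bpoly c).natDegree < 2 * m := by
  unfold bpoly
  apply lt_of_le_of_lt (natDegree_sum_le_of_forall_le _ _ (n := 2 * m - 1) ?_) (by omega)
  intro j _
  exact le_trans (natDegree_C_mul_X_pow_le _ _) (by omega)

theorem bpoly_neg {m : ℕ} (c : Fin m → F) : (bpoly c).comp (-X) = -bpoly c := by
  unfold bpoly
  rw [sum_comp', ← Finset.sum_neg_distrib]
  apply Finset.sum_congr rfl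
  intro j _
  rw [mul_comp, C_comp, pow_comp, X_comp, Odd.neg_pow ⟨j, rfl⟩, mul_neg]

theorem X_dvd_bpoly {m : ℕ} (c : Fin m → F) : X ∣ bpoly c := by
  unfold bpoly
  apply Finset.dvd_sum
  intro j _
  exact dvd_mul_of_dvd_right (dvd_pow_self X (by omega)) _

theorem eval_bpoly {m : ℕ} (c : Fin m → F) : eval 0 (bpoly c) = 0 := by
  obtain ⟨g, hg⟩ := X_dvd_bpoly c
  rw [hg, eval_mul, eval_X, zero_mul]

/-- the Cayley transform of an odd polynomial, up to sign -/
noncomputable def cay {m : ℕ} (ε : F) (c : Fin m → F) : F[X] :=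
  C ε * (1 + bpoly c) * ∑ k ∈ Finset.range (2 * m), bpoly c ^ k

theorem cay_one_sub {m : ℕ} (ε : F) (c : Fin m → F) :
    (1 - bpoly c) * cay ε c = C ε * (1 + bpoly c) * (1 - bpoly c ^ (2 * m)) := by
  unfold cay
  rw [← mul_neg_geom_sum (bpoly c) (2 * m)]
  ring

theorem cay_neg {m : ℕ} (ε : F) (c : Fin m → F) :
    (1 + bpoly c) * (cay ε c).comp (-X) = C ε * (1 - bpoly c) * (1 - bpoly c ^ (2 * m)) := by
  unfold cay
  rw [mul_comp, mul_comp, C_comp, add_comp, one_comp, bpoly_neg, sum_comp']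
  have h1 : ∑ k ∈ Finset.range (2 * m), (bpoly c ^ k).comp (-X) =
      ∑ k ∈ Finset.range (2 * m), (-bpoly c) ^ k := by
    apply Finset.sum_congr rfl
    intro k _
    rw [pow_comp, bpoly_neg]
  rw [h1]
  have h2 := mul_neg_geom_sum (-bpoly c) (2 * m)
  rw [sub_neg_eq_add, Even.neg_pow (even_two_mul m)] at h2
  rw [← h2]; ring

theorem one_sub_bpoly_ne {m : ℕ} (c : Fin m → F) : (1 - bpoly c) * (1 + bpoly c) ≠ 0 := by
  intro h
  have h1 := congrArg (eval 0) h
  rw [eval_mul, eval_sub, eval_add, eval_one, eval_bpoly, eval_zero] at h1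
  simp at h1

theorem cay_unit {m : ℕ} (ε : F) (hε : ε * ε = 1) (c : Fin m → F) :
    X ^ (2 * m) ∣ cay ε c * (cay ε c).comp (-X) - 1 := by
  have h1 : (1 - bpoly c) * (1 + bpoly c) * (cay ε c * (cay ε c).comp (-X)) =
      (1 - bpoly c) * (1 + bpoly c) * ((1 - bpoly c ^ (2 * m)) ^ 2) := by
    have h2 : (1 - bpoly c) * (1 + bpoly c) * (cay ε c * (cay ε c).comp (-X)) =
        ((1 - bpoly c) * cay ε c) * ((1 + bpoly c) * (cay ε c).comp (-X)) := by ring
    rw [h2, cay_one_sub, cay_neg]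
    have h3 : C ε * C ε = (1 : F[X]) := by rw [← C_mul, hε, C_1]
    linear_combination ((1 + bpoly c) * (1 - bpoly c) * (1 - bpoly c ^ (2 * m)) ^ 2) * h3
  have h4 := mul_left_cancel₀ (one_sub_bpoly_ne c) h1
  rw [h4]
  have h5 : (1 - bpoly c ^ (2 * m)) ^ 2 - 1 = bpoly c ^ (2 * m) * (bpoly c ^ (2 * m) - 2) := by
    ring
  rw [h5]
  exact dvd_mul_of_dvd_left (pow_dvd_pow_of_dvd (X_dvd_bpoly c) _) _

theorem eval_cay {m : ℕ} (hm : 1 ≤ m) (ε : F) (c : Fin m → F) : eval 0 (cay ε c) = ε := by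
  unfold cay
  rw [eval_mul, eval_mul, eval_C, eval_add, eval_one, eval_bpoly, add_zero, mul_one,
    eval_finsetSum]
  rw [Finset.sum_eq_single 0]
  · rw [pow_zero, eval_one, mul_one]
  · intro k _ hk
    rw [eval_pow, eval_bpoly, zero_pow hk]
  · intro h0
    exact absurd (Finset.mem_range.mpr (by omega)) h0

theorem cay_inj {m : ℕ} (h2 : (2 : F) ≠ 0) (hm : 1 ≤ m) (ε ε' : F) (hε : ε * ε = 1)
    (c c' : Fin m → F) (h : X ^ (2 * m) ∣ cay ε c - cay ε' c') : ε = ε' ∧ c = c' := by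
  have hεε : ε = ε' := by
    have h3 := eval_dvd (x := (0 : F)) ((dvd_pow_self X (by omega : 2 * m ≠ 0)).trans h)
    rw [eval_X, zero_dvd_iff, eval_sub, eval_cay hm, eval_cay hm, sub_eq_zero] at h3
    exact h3
  refine ⟨hεε, ?_⟩
  subst hεε
  have hC2 : (C (2 : F) : F[X]) = 2 := map_ofNat C 2
  have h3 : X ^ (2 * m) ∣ (1 - bpoly c) * (1 - bpoly c') * (cay ε c - cay ε c') :=
    dvd_mul_of_dvd_right h _
  have h4 : (1 - bpoly c) * (1 - bpoly c') * (cay ε c - cay ε c') =
      C (ε * 2) * (bpoly c - bpoly c')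
        - bpoly c ^ (2 * m) * (C ε * (1 + bpoly c) * (1 - bpoly c'))
        + bpoly c' ^ (2 * m) * (C ε * (1 + bpoly c') * (1 - bpoly c)) := by
    have h5 : (1 - bpoly c) * (1 - bpoly c') * (cay ε c - cay ε c') =
        (1 - bpoly c') * ((1 - bpoly c) * cay ε c)
          - (1 - bpoly c) * ((1 - bpoly c') * cay ε c') := by ring
    rw [h5, cay_one_sub, cay_one_sub, C_mul, hC2]; ring
  rw [h4] at h3
  have h6 : X ^ (2 * m) ∣ C (ε * 2) * (bpoly c - bpoly c') := by
    have h7 : X ^ (2 * m) ∣ bpoly c ^ (2 * m) * (C ε * (1 + bpoly c) * (1 - bpoly c')) :=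
      dvd_mul_of_dvd_left (pow_dvd_pow_of_dvd (X_dvd_bpoly c) _) _
    have h8 : X ^ (2 * m) ∣ bpoly c' ^ (2 * m) * (C ε * (1 + bpoly c') * (1 - bpoly c)) :=
      dvd_mul_of_dvd_left (pow_dvd_pow_of_dvd (X_dvd_bpoly c') _) _
    have h9 := dvd_sub (dvd_add h3 h7) h8
    have h10 : C (ε * 2) * (bpoly c - bpoly c')
        - bpoly c ^ (2 * m) * (C ε * (1 + bpoly c) * (1 - bpoly c'))
        + bpoly c' ^ (2 * m) * (C ε * (1 + bpoly c') * (1 - bpoly c))
        + bpoly c ^ (2 * m) * (C ε * (1 + bpoly c) * (1 - bpoly c'))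
        - bpoly c' ^ (2 * m) * (C ε * (1 + bpoly c') * (1 - bpoly c)) =
        C (ε * 2) * (bpoly c - bpoly c') := by ring
    rw [h10] at h9
    exact h9
  have hε0 : ε ≠ 0 := by
    intro h0; rw [h0, mul_zero] at hε; exact zero_ne_one hε
  have h8 : X ^ (2 * m) ∣ bpoly c - bpoly c' := by
    have hu : IsUnit (C (ε * 2) : F[X]) := isUnit_C.mpr (mul_ne_zero hε0 h2).isUnit
    exact (IsUnit.dvd_mul_left hu).mp h6
  have h9 : bpoly c - bpoly c' = 0 := eq_zero_of_dvd_of_natDegree_lt h8 (by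
    rw [natDegree_X_pow]
    exact lt_of_le_of_lt (natDegree_sub_le _ _)
      (max_lt (bpoly_natDegree c hm) (bpoly_natDegree c' hm)))
  funext j
  rw [← bpoly_coeff c j, ← bpoly_coeff c' j, sub_eq_zero.mp h9]

end Poly

section Krylov

variable {F V : Type*} [Field F] [AddCommGroup V] [Module F V] [FiniteDimensional F V]

theorem poly_zero (L : Module.End F V) (n : ℕ) (hL : L ^ n = 0) (e : V)
    (he : (L ^ (n - 1)) e ≠ 0) (r : F[X]) (hr : r.natDegree < n) (h : aeval L r = 0) : r = 0 := by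
  rw [Polynomial.aeval_eq_sum_range' hr] at h
  have h1 := congrArg (fun D : Module.End F V => D e) h
  simp only [LinearMap.sum_apply, LinearMap.smul_apply, LinearMap.zero_apply] at h1
  rw [Finset.sum_range (fun i => r.coeff i • (L ^ i) e)] at h1
  have h2 := Cfsg.Agent.S2571.krylov_inj L n hL e he (fun i : Fin n => r.coeff i) h1
  ext k
  rw [coeff_zero]
  by_cases hk : k < n
  · exact congrFun h2 ⟨k, hk⟩
  · exact coeff_eq_zero_of_natDegree_lt (by omega)

theorem exists_poly (L : Module.End F V) (n : ℕ) (hn : Module.finrank F V = n) (hn1 : 1 ≤ n)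
    (hL : L ^ n = 0) (e : V) (he : (L ^ (n - 1)) e ≠ 0) (D : Module.End F V)
    (hD : D * L = L * D) : ∃ f : F[X], f.natDegree < n ∧ D = aeval L f := by
  have hPinj : Function.Injective
      (Fintype.linearCombination F (fun i : Fin n => (L ^ (i : ℕ)) e)) := by
    rw [← LinearMap.ker_eq_bot, LinearMap.ker_eq_bot']
    intro a ha
    rw [Fintype.linearCombination_apply] at ha
    exact Cfsg.Agent.S2571.krylov_inj L n hL e he a ha
  have hdim : Module.finrank F (Fin n → F) = Module.finrank F V := by rw [hn]; simp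
  obtain ⟨a, ha⟩ :=
    (LinearMap.injective_iff_surjective_of_finrank_eq_finrank hdim).mp hPinj (D e)
  rw [Fintype.linearCombination_apply] at ha
  refine ⟨∑ i : Fin n, C (a i) * X ^ (i : ℕ), ?_, ?_⟩
  · apply lt_of_le_of_lt (natDegree_sum_le_of_forall_le _ _ (n := n - 1) ?_) (by omega)
    intro i _
    exact le_trans (natDegree_C_mul_X_pow_le _ _) (by omega)
  · have hev : aeval L (∑ i : Fin n, C (a i) * X ^ (i : ℕ)) = ∑ i : Fin n, a i • L ^ (i : ℕ) := by
      rw [map_sum]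
      apply Finset.sum_congr rfl
      intro i _
      rw [map_mul, aeval_C, map_pow, aeval_X, Algebra.algebraMap_eq_smul_one, smul_mul_assoc,
        one_mul]
    rw [hev]
    have hcomm : (D - ∑ i : Fin n, a i • L ^ (i : ℕ)) * L =
        L * (D - ∑ i : Fin n, a i • L ^ (i : ℕ)) := by
      rw [sub_mul, mul_sub, hD, Finset.sum_mul, Finset.mul_sum]
      congr 1
      apply Finset.sum_congr rfl
      intro i _
      rw [smul_mul_assoc, mul_smul_comm, ← pow_succ, ← pow_succ']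
    have hz := Cfsg.Agent.S2571.eq_zero_of_comm L n hn hL _ hcomm e (by
      rw [LinearMap.sub_apply, LinearMap.sum_apply, ← ha, sub_eq_zero]
      apply Finset.sum_congr rfl
      intro i _
      rw [LinearMap.smul_apply]) he
    exact sub_eq_zero.mp hz

end Krylov

section Mat

open Matrix

variable {F : Type*} [Field F] {m : ℕ}

/-- the symplectic adjoint -/
noncomputable def sig (X : Matrix (Fin m ⊕ Fin m) (Fin m ⊕ Fin m) F) :
    Matrix (Fin m ⊕ Fin m) (Fin m ⊕ Fin m) F :=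
  (-J (Fin m) F) * Xᵀ * J (Fin m) F

theorem J_mul_neg_J : J (Fin m) F * (-J (Fin m) F) = 1 := by
  rw [mul_neg, J_squared, neg_neg]

theorem neg_J_mul_J : (-J (Fin m) F) * J (Fin m) F = 1 := by
  rw [neg_mul, J_squared, neg_neg]

theorem sig_mul (X Y : Matrix (Fin m ⊕ Fin m) (Fin m ⊕ Fin m) F) :
    sig (X * Y) = sig Y * sig X := by
  unfold sig
  rw [Matrix.transpose_mul]
  calc (-J (Fin m) F) * (Yᵀ * Xᵀ) * J (Fin m) F
      = (-J (Fin m) F) * Yᵀ * 1 * Xᵀ * J (Fin m) F := by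
        simp only [Matrix.mul_one, Matrix.mul_assoc]
    _ = (-J (Fin m) F) * Yᵀ * (J (Fin m) F * (-J (Fin m) F)) * Xᵀ * J (Fin m) F := by
        rw [J_mul_neg_J]
    _ = (-J (Fin m) F) * Yᵀ * J (Fin m) F * ((-J (Fin m) F) * Xᵀ * J (Fin m) F) := by
        simp only [Matrix.mul_assoc]

theorem sig_add (X Y : Matrix (Fin m ⊕ Fin m) (Fin m ⊕ Fin m) F) :
    sig (X + Y) = sig X + sig Y := by
  unfold sig; rw [Matrix.transpose_add, Matrix.mul_add, Matrix.add_mul]

theorem sig_sub (X Y : Matrix (Fin m ⊕ Fin m) (Fin m ⊕ Fin m) F) :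
    sig (X - Y) = sig X - sig Y := by
  unfold sig; rw [Matrix.transpose_sub, Matrix.mul_sub, Matrix.sub_mul]

theorem sig_smul (c : F) (X : Matrix (Fin m ⊕ Fin m) (Fin m ⊕ Fin m) F) :
    sig (c • X) = c • sig X := by
  unfold sig; rw [Matrix.transpose_smul, Matrix.mul_smul, Matrix.smul_mul]

theorem sig_zero : sig (0 : Matrix (Fin m ⊕ Fin m) (Fin m ⊕ Fin m) F) = 0 := by
  unfold sig; rw [Matrix.transpose_zero, Matrix.mul_zero, Matrix.zero_mul]

theorem sig_one : sig (1 : Matrix (Fin m ⊕ Fin m) (Fin m ⊕ Fin m) F) = 1 := by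
  unfold sig; rw [Matrix.transpose_one, Matrix.mul_one, neg_J_mul_J]

theorem sig_pow (X : Matrix (Fin m ⊕ Fin m) (Fin m ⊕ Fin m) F) (k : ℕ) :
    sig (X ^ k) = sig X ^ k := by
  induction k with
  | zero => rw [pow_zero, pow_zero, sig_one]
  | succ k ih => rw [pow_succ, sig_mul, ih, ← pow_succ']

theorem sig_sum {κ : Type*} (s : Finset κ)
    (f : κ → Matrix (Fin m ⊕ Fin m) (Fin m ⊕ Fin m) F) :
    sig (∑ i ∈ s, f i) = ∑ i ∈ s, sig (f i) := by
  classical
  induction s using Finset.induction_on with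
  | empty => rw [Finset.sum_empty, Finset.sum_empty, sig_zero]
  | insert a s ha ih => rw [Finset.sum_insert ha, Finset.sum_insert ha, sig_add, ih]

theorem sig_aeval (X : Matrix (Fin m ⊕ Fin m) (Fin m ⊕ Fin m) F) (f : F[X]) :
    sig (aeval X f) = aeval (sig X) f := by
  rw [aeval_eq_sum_range, aeval_eq_sum_range, sig_sum]
  apply Finset.sum_congr rfl
  intro i _
  rw [sig_smul, sig_pow]

theorem sig_sig (X : Matrix (Fin m ⊕ Fin m) (Fin m ⊕ Fin m) F) : sig (sig X) = X := by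
  unfold sig
  rw [Matrix.transpose_mul, Matrix.transpose_mul, Matrix.transpose_transpose,
    Matrix.transpose_neg, J_transpose, neg_neg]
  have h1 : -J (Fin m) F * (-J (Fin m) F * (X * J (Fin m) F)) * J (Fin m) F =
      (J (Fin m) F * J (Fin m) F) * X * (J (Fin m) F * J (Fin m) F) := by
    simp only [Matrix.neg_mul, Matrix.mul_neg, neg_neg, Matrix.mul_assoc]
  rw [h1, J_squared]
  simp

theorem mem_sp_iff (X : Matrix (Fin m ⊕ Fin m) (Fin m ⊕ Fin m) F) :
    X ∈ Matrix.symplecticGroup (Fin m) F ↔ X * sig X = 1 := by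
  rw [SymplecticGroup.mem_iff]
  have key : X * sig X = -(X * J (Fin m) F * Xᵀ * J (Fin m) F) := by
    unfold sig
    simp only [Matrix.neg_mul, Matrix.mul_neg, Matrix.mul_assoc]
  rw [key]
  constructor
  · intro h
    rw [h, J_squared, neg_neg]
  · intro h
    have h1 : X * J (Fin m) F * Xᵀ * J (Fin m) F = -1 := by rw [← h, neg_neg]
    have h2 : X * J (Fin m) F * Xᵀ = X * J (Fin m) F * Xᵀ * J (Fin m) F * (-J (Fin m) F) := by
      rw [Matrix.mul_assoc _ (J (Fin m) F) (-J (Fin m) F), J_mul_neg_J, Matrix.mul_one]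
    rw [h2, h1, neg_mul, one_mul, neg_neg]

theorem finrank_fun : Module.finrank F (Fin m ⊕ Fin m → F) = 2 * m := by
  rw [Module.finrank_fintype_fun_eq_card, Fintype.card_sum, Fintype.card_fin]; ring

theorem pow_ne_zero_of_rank (N : Matrix (Fin m ⊕ Fin m) (Fin m ⊕ Fin m) F) (hm : 1 ≤ m)
    (hreg : N.rank = 2 * m - 1) : N ^ (2 * m - 1) ≠ 0 := by
  intro h0
  obtain ⟨L, hL⟩ : ∃ L : Module.End F (Fin m ⊕ Fin m → F), L = Matrix.toLinAlgEquiv' N :=
    ⟨_, rfl⟩
  have hker : Module.finrank F (LinearMap.ker L) = 1 := by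
    have h1 := LinearMap.finrank_range_add_finrank_ker L
    have h2 : Module.finrank F (LinearMap.range L) = 2 * m - 1 := by rw [hL]; exact hreg
    rw [h2, finrank_fun] at h1
    omega
  have h3 := Cfsg.Agent.S2573.finrank_ker_pow_le L (2 * m - 1)
  rw [hker, mul_one] at h3
  have h4 : L ^ (2 * m - 1) = 0 := by rw [hL, ← map_pow, h0, map_zero]
  rw [h4] at h3
  have h5 : LinearMap.ker (0 : Module.End F (Fin m ⊕ Fin m → F)) = ⊤ := LinearMap.ker_zero
  rw [h5, finrank_top, finrank_fun] at h3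
  omega

theorem card_centralizer [Fintype F] (h2 : (2 : F) ≠ 0) (hm : 1 ≤ m)
    (u : ↥(Matrix.symplecticGroup (Fin m) F))
    (hnil : ((u : Matrix (Fin m ⊕ Fin m) (Fin m ⊕ Fin m) F) - 1) ^ (2 * m) = 0)
    (hreg : ((u : Matrix (Fin m ⊕ Fin m) (Fin m ⊕ Fin m) F) - 1).rank = 2 * m - 1) :
    Nat.card ↥(Subgroup.centralizer ({u} : Set ↥(Matrix.symplecticGroup (Fin m) F))) =
      2 * Fintype.card F ^ m := by
  classical
  obtain ⟨U, hU⟩ : ∃ U : Matrix (Fin m ⊕ Fin m) (Fin m ⊕ Fin m) F,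
      U = (u : Matrix (Fin m ⊕ Fin m) (Fin m ⊕ Fin m) F) := ⟨_, rfl⟩
  rw [← hU] at hnil hreg
  have hUsp : U * sig U = 1 := by rw [hU]; exact (mem_sp_iff _).mp u.2
  have hUiU : sig U * U = 1 := mul_eq_one_comm.mp hUsp
  obtain ⟨N, hN⟩ : ∃ N : Matrix (Fin m ⊕ Fin m) (Fin m ⊕ Fin m) F, N = U - 1 := ⟨_, rfl⟩
  rw [← hN] at hnil hreg
  obtain ⟨T, hT⟩ : ∃ T : Matrix (Fin m ⊕ Fin m) (Fin m ⊕ Fin m) F, T = U - sig U := ⟨_, rfl⟩
  have hsT : sig T = -T := by rw [hT, sig_sub, sig_sig]; abel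
  have cUUi : Commute U (sig U) := by
    show U * sig U = sig U * U
    rw [hUsp, hUiU]
  have cTU : Commute T U := by
    rw [hT]; exact (Commute.refl U).sub_left cUUi.symm
  have cUN : Commute U N := by
    rw [hN]; exact (Commute.refl U).sub_right (Commute.one_right U)
  have cUiN : Commute (sig U) N := by
    rw [hN]; exact cUUi.symm.sub_right (Commute.one_right _)
  have hTW : T = sig U * (U + 1) * N := by
    rw [hT, hN, Matrix.mul_assoc]
    have h3 : (U + 1) * (U - 1) = U * U - 1 := by noncomm_ring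
    rw [h3, Matrix.mul_sub, ← Matrix.mul_assoc, hUiU, Matrix.one_mul, Matrix.mul_one]
  have cWN : Commute (sig U * (U + 1)) N :=
    Commute.mul_left cUiN (Commute.add_left cUN (Commute.one_left N))
  have hNnil : IsNilpotent N := ⟨2 * m, hnil⟩
  have hU1 : IsUnit (U + 1) := by
    have e1 : U + 1 = N + 2 := by rw [hN, ← one_add_one_eq_two]; abel
    rw [e1]
    have hu2 : IsUnit (2 : Matrix (Fin m ⊕ Fin m) (Fin m ⊕ Fin m) F) := by
      have h3 := (h2.isUnit).map (algebraMap F (Matrix (Fin m ⊕ Fin m) (Fin m ⊕ Fin m) F))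
      rwa [map_ofNat] at h3
    exact hNnil.isUnit_add_right_of_commute hu2 (Commute.ofNat_right N 2)
  have hUi : IsUnit (sig U) := ⟨⟨sig U, U, hUiU, hUsp⟩, rfl⟩
  have hW : IsUnit (sig U * (U + 1)) := hUi.mul hU1
  have hTn : T ^ (2 * m) = 0 := by rw [hTW, cWN.mul_pow, hnil, mul_zero]
  have hTn1 : T ^ (2 * m - 1) ≠ 0 := by
    rw [hTW, cWN.mul_pow]
    intro h
    exact pow_ne_zero_of_rank N hm hreg ((hW.pow _).mul_right_eq_zero.mp h)
  obtain ⟨L, hL⟩ : ∃ L : Module.End F (Fin m ⊕ Fin m → F), L = Matrix.toLinAlgEquiv' T :=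
    ⟨_, rfl⟩
  have hLn : L ^ (2 * m) = 0 := by rw [hL, ← map_pow, hTn, map_zero]
  obtain ⟨e, he⟩ : ∃ e, (L ^ (2 * m - 1)) e ≠ 0 := by
    by_contra hall
    push_neg at hall
    apply hTn1
    have h1 : L ^ (2 * m - 1) = 0 := LinearMap.ext hall
    rw [hL, ← map_pow] at h1
    exact (Matrix.toLinAlgEquiv' (R := F) (n := Fin m ⊕ Fin m)).injective
      (h1.trans (map_zero _).symm)
  have hΛ : ∀ f : F[X], Matrix.toLinAlgEquiv' (aeval T f) = aeval L f := by
    intro f
    rw [hL]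
    exact (Polynomial.aeval_algHom_apply
      (Matrix.toLinAlgEquiv' (R := F) (n := Fin m ⊕ Fin m)) T f).symm
  have hP1 : ∀ f : F[X], aeval T f = 0 → X ^ (2 * m) ∣ f := by
    intro f hf
    have hmon : (X ^ (2 * m) : F[X]).Monic := monic_X_pow _
    rw [← Polynomial.modByMonic_eq_zero_iff_dvd hmon]
    apply poly_zero L (2 * m) hLn e he _ (by
      have h3 := natDegree_modByMonic_lt f hmon (by
        intro h1
        have h4 := congrArg natDegree h1
        rw [natDegree_X_pow, natDegree_one] at h4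
        omega)
      rwa [natDegree_X_pow] at h3)
    rw [← hΛ]
    have h1 : aeval T (f %ₘ X ^ (2 * m)) = 0 := by
      have h3 := congrArg (aeval T) (modByMonic_add_div f (X ^ (2 * m)))
      rw [map_add, map_mul, map_pow, aeval_X, hTn, zero_mul, add_zero, hf] at h3
      exact h3
    rw [h1, map_zero]
  have hP2 : ∀ G : Matrix (Fin m ⊕ Fin m) (Fin m ⊕ Fin m) F, G * U = U * G →
      ∃ f : F[X], f.natDegree < 2 * m ∧ G = aeval T f := by
    intro G hG
    have hGT : G * T = T * G := by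
      have c1 : Commute G U := hG
      have c2 : Commute G (sig U) := by
        have h3 : sig U * G = G * sig U := by
          have e1 : sig U * G = sig U * G * (U * sig U) := by rw [hUsp, Matrix.mul_one]
          have e2 : sig U * G * (U * sig U) = sig U * (G * U) * sig U := by
            simp only [Matrix.mul_assoc]
          have e3 : sig U * (U * G) * sig U = (sig U * U) * G * sig U := by
            simp only [Matrix.mul_assoc]
          rw [e1, e2, hG, e3, hUiU, Matrix.one_mul]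
        exact h3.symm
      rw [hT]
      exact (c1.sub_right c2).eq
    have hD : Matrix.toLinAlgEquiv' G * L = L * Matrix.toLinAlgEquiv' G := by
      rw [hL, ← map_mul, ← map_mul, hGT]
    obtain ⟨f, hf1, hf2⟩ := exists_poly L (2 * m) finrank_fun (by omega) hLn e he _ hD
    refine ⟨f, hf1, ?_⟩
    rw [← hΛ] at hf2
    exact (Matrix.toLinAlgEquiv' (R := F) (n := Fin m ⊕ Fin m)).injective hf2
  have hσ : ∀ f : F[X], sig (aeval T f) = aeval T (f.comp (-X)) := by
    intro f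
    rw [sig_aeval, hsT, Polynomial.aeval_comp, map_neg, aeval_X]
  have hcomm : ∀ f : F[X], aeval T f * U = U * aeval T f := by
    intro f
    rw [Polynomial.aeval_eq_sum_range, Finset.sum_mul, Finset.mul_sum]
    apply Finset.sum_congr rfl
    intro i _
    rw [smul_mul_assoc, mul_smul_comm, (cTU.pow_left i).eq]
  have hC : ∀ g : ↥(Matrix.symplecticGroup (Fin m) F),
      g ∈ Subgroup.centralizer ({u} : Set ↥(Matrix.symplecticGroup (Fin m) F)) ↔
      (g : Matrix (Fin m ⊕ Fin m) (Fin m ⊕ Fin m) F) * U =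
        U * (g : Matrix (Fin m ⊕ Fin m) (Fin m ⊕ Fin m) F) := by
    intro g
    rw [Subgroup.mem_centralizer_iff]
    constructor
    · intro h
      have h1 := congrArg Subtype.val (h u (Set.mem_singleton u))
      rw [hU]; exact h1.symm
    · intro h x hx
      rw [Set.mem_singleton_iff] at hx
      rw [hx]
      apply Subtype.ext
      rw [hU] at h
      exact h.symm
  have hex : ∀ g : ↥(Subgroup.centralizer ({u} : Set ↥(Matrix.symplecticGroup (Fin m) F))),
      ∃ f : F[X], f.natDegree < 2 * m ∧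
        ((g : ↥(Matrix.symplecticGroup (Fin m) F)) :
          Matrix (Fin m ⊕ Fin m) (Fin m ⊕ Fin m) F) = aeval T f ∧
        X ^ (2 * m) ∣ f * f.comp (-X) - 1 := by
    intro g
    obtain ⟨f, hf1, hf2⟩ := hP2 _ ((hC g.1).mp g.2)
    refine ⟨f, hf1, hf2, ?_⟩
    apply hP1
    rw [map_sub, map_mul, map_one, ← hσ, ← hf2]
    exact sub_eq_zero.mpr ((mem_sp_iff _).mp g.1.2)
  choose fg hfg1 hfg2 hfg3 using hex
  have h1ne : (1 : F) ≠ -1 := by
    intro h
    apply h2
    have h3 : (1 : F) + 1 = 0 := by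
      nth_rewrite 2 [h]
      exact add_neg_cancel 1
    rw [← one_add_one_eq_two]; exact h3
  have hcardT : Nat.card (↥({1, -1} : Set F) × (Fin m → F)) = 2 * Fintype.card F ^ m := by
    rw [Nat.card_prod, Nat.card_coe_set_eq, Set.ncard_pair h1ne, Nat.card_eq_fintype_card,
      Fintype.card_fun, Fintype.card_fin]
  have hεε : ∀ x : ↥({1, -1} : Set F), (x : F) * (x : F) = 1 := by
    intro x
    rcases (show ((x : F) = 1 ∨ (x : F) = -1) from x.2) with h | h
    · rw [h, one_mul]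
    · rw [h]; ring
  apply le_antisymm
  · rw [← hcardT]
    apply Nat.card_le_card_of_injective (fun g =>
      ((⟨(fg g).coeff 0, coeff_zero_sq hm _ (hfg3 g)⟩ : ↥({1, -1} : Set F)),
        fun j : Fin m => (fg g).coeff (2 * (j : ℕ) + 1)))
    intro g g' h
    have h1 : (fg g).coeff 0 = (fg g').coeff 0 := congrArg (fun x => (x.1 : F)) h
    have h3 : ∀ j < m, (fg g).coeff (2 * j + 1) = (fg g').coeff (2 * j + 1) := by
      intro j hj
      exact congrFun (congrArg Prod.snd h) ⟨j, hj⟩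
    have h4 := poly_inj h2 hm (fg g) (fg g') (hfg1 g) (hfg1 g') (hfg3 g) (hfg3 g') h1 h3
    apply Subtype.ext; apply Subtype.ext
    rw [hfg2 g, hfg2 g', h4]
  · rw [← hcardT]
    have hΨ : ∀ x : ↥({1, -1} : Set F) × (Fin m → F),
        ∃ g : ↥(Subgroup.centralizer ({u} : Set ↥(Matrix.symplecticGroup (Fin m) F))),
        ((g : ↥(Matrix.symplecticGroup (Fin m) F)) :
          Matrix (Fin m ⊕ Fin m) (Fin m ⊕ Fin m) F) = aeval T (cay (x.1 : F) x.2) := by
      intro x
      have hsp : aeval T (cay (x.1 : F) x.2) * sig (aeval T (cay (x.1 : F) x.2)) = 1 := by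
        rw [hσ, ← map_mul]
        obtain ⟨w, hw⟩ := cay_unit (x.1 : F) (hεε x.1) x.2
        have h3 : cay (x.1 : F) x.2 * (cay (x.1 : F) x.2).comp (-X) = 1 + X ^ (2 * m) * w := by
          rw [← hw]; ring
        rw [h3, map_add, map_one, map_mul, map_pow, aeval_X, hTn, zero_mul, add_zero]
      exact ⟨⟨⟨_, (mem_sp_iff _).mpr hsp⟩, (hC _).mpr (hcomm _)⟩, rfl⟩
    choose Ψ hΨ using hΨ
    apply Nat.card_le_card_of_injective Ψ
    intro x y hxy
    have h1 : aeval T (cay (x.1 : F) x.2) = aeval T (cay (y.1 : F) y.2) := by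
      rw [← hΨ x, ← hΨ y, hxy]
    have h3 : X ^ (2 * m) ∣ cay (x.1 : F) x.2 - cay (y.1 : F) y.2 := by
      apply hP1; rw [map_sub, h1, sub_self]
    obtain ⟨h4, h5⟩ := cay_inj h2 hm _ _ (hεε x.1) _ _ h3
    exact Prod.ext (Subtype.ext h4) h5

end Mat

end Cfsg.Agent.Helper14.RegUniSp
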