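import Mathlib
import Cfsg.Agent.Helper14.SpPal
import Cfsg.Agent.Helper14.PrimeOrd
import Cfsg.Agent.Helper14.SemiConj
import Cfsg.Agent.Helper14.RegUniSp
import Cfsg.Agent.Helper2.SpEmbed
import Cfsg.Agent.S0277

/-!
The centraliser in `Sp_2m(q)`, `q ≡ 2 mod 3`, of a fixed-point-free element of order `3` is a
unitary group `GU_m(q)`.
-/

set_option autoImplicit false
open Polynomial
open scoped Matrix

namespace Cfsg.Agent.Helper14.CentGU

universe u

section Charpoly

variable {F : Type*} [Field F]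

/-- an endomorphism killed by an irreducible polynomial has a power of it as characteristic
polynomial -/
theorem charpoly_of_irr {V : Type*} [AddCommGroup V] [Module F V] [FiniteDimensional F V]
    (f : F[X]) (hf : Irreducible f) (hfm : f.Monic) (d : ℕ) (hfd : f.natDegree = d) (hd : 0 < d)
    (T : Module.End F V) (hT : aeval T f = 0) (m : ℕ) (hV : Module.finrank F V = d * m) :
    T.charpoly = f ^ m := by
  classical
  obtain ⟨e, he⟩ := PrimeOrd.exists_exp {f} T.charpoly (LinearMap.charpoly_monic T) (by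
    intro ψ hψ
    have hirrψ := UniqueFactorizationMonoid.irreducible_of_normalized_factor ψ hψ
    have hmonψ : ψ.Monic := by
      rw [← UniqueFactorizationMonoid.normalize_normalized_factor ψ hψ]
      exact Polynomial.monic_normalize hirrψ.ne_zero
    have hdvd : ψ ∣ T.charpoly := UniqueFactorizationMonoid.dvd_of_mem_normalizedFactors hψ
    rw [Finset.mem_singleton]
    have hψf : ψ ∣ f := by
      by_contra hnd
      have hcop : IsCoprime ψ f := (Irreducible.coprime_iff_not_dvd hirrψ).mpr hnd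
      obtain ⟨a, b, hab⟩ := hcop
      obtain ⟨w, hw0, hw⟩ := SemiConj.exists_ker_of_dvd_charpoly T ψ hirrψ hdvd
      apply hw0
      have h2 := congrArg (fun P : F[X] => aeval T P w) hab
      simp only [map_add, map_mul, map_one, hT, mul_zero, add_zero, Module.End.mul_apply,
        Module.End.one_apply] at h2
      rw [hw, map_zero] at h2
      exact h2.symm
    exact Polynomial.eq_of_monic_of_associated hmonψ hfm (hirrψ.associated_of_dvd hf hψf))
  rw [Finset.prod_singleton] at he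
  have hdeg : T.charpoly.natDegree = d * m := by rw [LinearMap.charpoly_natDegree, hV]
  rw [he, hfm.natDegree_pow, hfd] at hdeg
  have hem : e f = m := Nat.eq_of_mul_eq_mul_right hd (by rw [hdeg, mul_comm])
  rw [he, hem]

theorem irr_of_mod [Fintype F] {q : ℕ} (hF : Fintype.card F = q) (hq : q % 3 = 2) :
    Irreducible (X ^ 2 + X + 1 : F[X]) := by
  have hfd : (X ^ 2 + X + 1 : F[X]).natDegree = 2 := by compute_degree!
  apply Polynomial.irreducible_of_degree_le_three_of_not_isRoot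
  · rw [hfd]; decide
  · intro a ha
    have ha' : a ^ 2 + a + 1 = 0 := by
      have h := ha
      simpa [Polynomial.IsRoot] using h
    have ha3 : a ^ 3 = 1 := by linear_combination (a - 1) * ha'
    have h3F : (3 : F) ≠ 0 := by
      intro h
      haveI : Fact (Nat.Prime 3) := ⟨Nat.prime_three⟩
      have h1 : addOrderOf (1 : F) = 3 := addOrderOf_eq_prime (by
        rw [nsmul_eq_mul, Nat.cast_ofNat, mul_one]; exact h) one_ne_zero
      have h3 : addOrderOf (1 : F) ∣ Fintype.card F := addOrderOf_dvd_card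
      rw [h1, hF] at h3
      omega
    have ha1 : a ≠ 1 := by
      rintro rfl
      apply h3F
      linear_combination ha'
    have ha0 : a ≠ 0 := by
      rintro rfl
      rw [zero_pow (by norm_num)] at ha3
      exact zero_ne_one ha3
    haveI : Fact (Nat.Prime 3) := ⟨Nat.prime_three⟩
    have ho : orderOf a = 3 := orderOf_eq_prime ha3 ha1
    have h1 : a ^ (q - 1) = 1 := by
      rw [← hF]; exact FiniteField.pow_card_sub_one_eq_one a ha0
    have h2 : 3 ∣ q - 1 := by rw [← ho]; exact orderOf_dvd_of_pow_eq_one h1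
    omega

end Charpoly

section Main

variable {F K : Type u} [Field F] [Fintype F] [Field K] [Fintype K] [Algebra F K]

theorem card_centralizer_gu {q : ℕ} (hF : Fintype.card F = q) (hK : Fintype.card K = q ^ 2)
    (h3 : q % 3 = 2) (hirr : Irreducible (X ^ 2 + X + 1 : F[X]))
    (ω : K) (hω : ω ^ 2 + ω + 1 = 0)
    (hgen : ∀ k : K, ∃ a b : F, k = algebraMap F K a + algebraMap F K b * ω)
    {m : ℕ} (x : Matrix.symplecticGroup (Fin m) F)
    (hx : (x : Matrix (Fin m ⊕ Fin m) (Fin m ⊕ Fin m) F) ^ 2 + (x : Matrix (Fin m ⊕ Fin m) (Fin m ⊕ Fin m) F) + 1 = 0) :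
    Nat.card ↥(Subgroup.centralizer ({x} : Set ↥(Matrix.symplecticGroup (Fin m) F))) =
      Nat.card ↥(Cfsg.GU m K q) := by
  classical
  have hq : 1 < q := Helper2.SpEmbed.one_lt_q hF
  have hfm : (X ^ 2 + X + 1 : F[X]).Monic := by monicity!
  have hfd : (X ^ 2 + X + 1 : F[X]).natDegree = 2 := by compute_degree!
  haveI : Module.Finite F K := Module.Finite.of_finite
  have hfr : Module.finrank F K = 2 := Helper2.SpEmbed.finrank_two hK hF
  have hpowK : ∀ y : K, (y ^ q) ^ q = y := by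
    intro y
    rw [← pow_mul, ← sq, ← hK]
    exact FiniteField.pow_card y
  have hpowF : ∀ c : F, c ^ q = c := by
    intro c
    rw [← hF]
    exact FiniteField.pow_card c
  have hadd : ∀ y z : K, (y + z) ^ q = y ^ q + z ^ q := by
    obtain ⟨p, hp⟩ := CharP.exists K
    obtain ⟨n, hpr, hn⟩ := FiniteField.card K p
    haveI : Fact p.Prime := ⟨hpr⟩
    have h1 : q ∣ p ^ (n : ℕ) := by
      rw [← hn, hK]
      exact dvd_pow_self q two_ne_zero
    obtain ⟨k, -, hk⟩ := (Nat.dvd_prime_pow hpr).1 h1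
    intro y z
    rw [hk]
    exact add_pow_char_pow y z p k
  let frob : K →+ K :=
    { toFun := fun y => y ^ q
      map_zero' := zero_pow (by omega)
      map_add' := hadd }
  have hfix : ∀ u : Fin m → K, (∑ i, u i * u i ^ q) ^ q = ∑ i, u i * u i ^ q := by
    intro u
    have h1 := map_sum frob (fun i => u i * u i ^ q) Finset.univ
    show frob (∑ i, u i * u i ^ q) = _
    rw [h1]
    apply Finset.sum_congr rfl
    intro i _
    show (u i * u i ^ q) ^ q = u i * u i ^ q
    rw [mul_pow, hpowK, mul_comm]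
  let E : Submodule F K :=
    { carrier := {y | y ^ q = y}
      add_mem' := fun {y z} hy hz => by
        show (y + z) ^ q = y + z
        rw [hadd, show y ^ q = y from hy, show z ^ q = z from hz]
      zero_mem' := zero_pow (by omega)
      smul_mem' := fun c y hy => by
        show (c • y) ^ q = c • y
        rw [Algebra.smul_def c y, mul_pow, ← map_pow, hpowF, show y ^ q = y from hy] }
  obtain ⟨x₀, hx₀⟩ := Helper2.SpEmbed.exists_not_fixed hq hK
  have hx₀E : x₀ ∉ E := hx₀
  obtain ⟨lam, hlam, hmap⟩ := Submodule.exists_dual_map_eq_bot_of_notMem hx₀E inferInstance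
  have hE : ∀ y : K, y ^ q = y → lam y = 0 := by
    intro y hy
    have h1 : lam y ∈ E.map lam := Submodule.mem_map_of_mem (show y ∈ E from hy)
    rw [hmap] at h1
    exact (Submodule.mem_bot F).1 h1
  let B : LinearMap.BilinForm F (Fin m → K) :=
    LinearMap.mk₂ F (fun u v => lam (∑ i, u i * v i ^ q))
      (fun u u' v => by
        show lam (∑ i, (u + u') i * v i ^ q) = lam (∑ i, u i * v i ^ q) + lam (∑ i, u' i * v i ^ q)
        rw [← map_add, ← Finset.sum_add_distrib]
        congr 1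
        apply Finset.sum_congr rfl
        intro i _
        rw [Pi.add_apply, add_mul])
      (fun c u v => by
        show lam (∑ i, (c • u) i * v i ^ q) = c • lam (∑ i, u i * v i ^ q)
        rw [← map_smul, Finset.smul_sum]
        congr 1
        apply Finset.sum_congr rfl
        intro i _
        rw [Pi.smul_apply, smul_mul_assoc])
      (fun u v v' => by
        show lam (∑ i, u i * (v + v') i ^ q) = lam (∑ i, u i * v i ^ q) + lam (∑ i, u i * v' i ^ q)
        rw [← map_add, ← Finset.sum_add_distrib]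
        congr 1
        apply Finset.sum_congr rfl
        intro i _
        rw [Pi.add_apply, hadd, mul_add])
      (fun c u v => by
        show lam (∑ i, u i * (c • v) i ^ q) = c • lam (∑ i, u i * v i ^ q)
        rw [← map_smul, Finset.smul_sum]
        congr 1
        apply Finset.sum_congr rfl
        intro i _
        have e : (c • v i) ^ q = c • v i ^ q := by
          rw [Algebra.smul_def c (v i), mul_pow, ← map_pow, hpowF, ← Algebra.smul_def]
        rw [Pi.smul_apply, e, mul_smul_comm])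
  have hBapp : ∀ u v, B u v = lam (∑ i, u i * v i ^ q) := fun u v => rfl
  have hAlt : ∀ u, B u u = 0 := fun u => by
    rw [hBapp]
    exact hE _ (hfix u)
  have hnd : ∀ y : Fin m → K, y ≠ 0 → ∃ w, B y w ≠ 0 := by
    intro y hy
    obtain ⟨i, hi⟩ := Function.ne_iff.1 hy
    have hi' : y i ≠ 0 := hi
    refine ⟨Pi.single i ((x₀ / y i) ^ q), ?_⟩
    have e : ∑ j, y j * (Pi.single i ((x₀ / y i) ^ q) : Fin m → K) j ^ q = x₀ := by
      rw [Finset.sum_eq_single i (fun j _ hj => by
        rw [Pi.single_eq_of_ne hj, zero_pow (by omega), mul_zero])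
        (fun h => absurd (Finset.mem_univ i) h), Pi.single_eq_same, hpowK]
      field_simp
    rw [hBapp, e]
    exact hlam
  have hdim : Module.finrank F (Fin m → K) = m + m := by
    rw [Module.finrank_pi_fintype, Finset.sum_const, Finset.card_univ, hfr, Fintype.card_fin,
      smul_eq_mul]
    ring
  -- the hermitian form
  have hhe : ∀ u v : Fin m → K, Cfsg.hermForm m K q u v = ∑ i, u i * v i ^ q := fun u v => rfl
  have hBh : ∀ u v : Fin m → K, B u v = lam (Cfsg.hermForm m K q u v) := fun u v => rfl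
  have hhsmul : ∀ (k : K) (u v : Fin m → K),
      Cfsg.hermForm m K q (k • u) v = k * Cfsg.hermForm m K q u v := by
    intro k u v
    rw [hhe, hhe, Finset.mul_sum]
    apply Finset.sum_congr rfl
    intro i _
    rw [Pi.smul_apply, smul_eq_mul, mul_assoc]
  have hsep : ∀ a b : K, (∀ k : K, lam (k * a) = lam (k * b)) → a = b := by
    intro a b h
    by_contra hne
    have hd : a - b ≠ 0 := sub_ne_zero.mpr hne
    have e1 : lam (x₀ / (a - b) * a) - lam (x₀ / (a - b) * b) = lam x₀ := by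
      rw [← map_sub, ← mul_sub, div_mul_cancel₀ x₀ hd]
    rw [h, sub_self] at e1
    exact hlam e1.symm
  -- the element ω
  have hω3 : ω ^ 3 = 1 := by linear_combination (ω - 1) * hω
  have hωq : ω * ω ^ q = 1 := by
    obtain ⟨k, hk⟩ : 3 ∣ q + 1 := by omega
    rw [← pow_succ', hk, pow_mul, hω3, one_pow]
  obtain ⟨T, hT⟩ : ∃ T : Module.End F (Fin m → K), ∀ u, T u = ω • u :=
    ⟨{ toFun := fun u => ω • u
       map_add' := fun u v => smul_add ω u v
       map_smul' := fun c u => smul_comm ω c u }, fun u => rfl⟩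
  have hG1 : SpConj.Good B T := by
    refine ⟨hAlt, ?_, ?_⟩
    · intro y hy
      by_contra hy0
      obtain ⟨w, hw⟩ := hnd y hy0
      exact hw (hy w)
    · intro u v
      rw [hT, hT, hBapp, hBapp]
      congr 1
      apply Finset.sum_congr rfl
      intro i _
      rw [Pi.smul_apply, Pi.smul_apply, smul_eq_mul, smul_eq_mul, mul_pow]
      linear_combination (u i * v i ^ q) * hωq
  obtain ⟨T', hT'⟩ : ∃ T' : Module.End F (Fin m ⊕ Fin m → F), T' = Matrix.toLin' (x : Matrix (Fin m ⊕ Fin m) (Fin m ⊕ Fin m) F) :=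
    ⟨_, rfl⟩
  have hT'u : ∀ u, T' u = (x : Matrix (Fin m ⊕ Fin m) (Fin m ⊕ Fin m) F) *ᵥ u := by
    intro u; rw [hT', Matrix.toLin'_apply]
  have hG2 : SpConj.Good (Cfsg.Agent.S0766.sB m F) T' :=
    ⟨fun u => (Cfsg.Agent.S0766.sB_alt m F).self_eq_zero u, (Cfsg.Agent.S0766.sB_nondeg m F).1,
      fun u v => by
        rw [hT'u, hT'u]
        exact Helper2.SpEmbed.sB_symp m (x : Matrix (Fin m ⊕ Fin m) (Fin m ⊕ Fin m) F) x.2 u v⟩
  have hTf : aeval T (X ^ 2 + X + 1 : F[X]) = 0 := by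
    apply LinearMap.ext
    intro u
    rw [map_add, map_add, map_pow, aeval_X, map_one, LinearMap.add_apply, LinearMap.add_apply,
      pow_two, Module.End.mul_apply, Module.End.one_apply, hT, hT, LinearMap.zero_apply, smul_smul]
    have h1 : (ω * ω + ω + 1) • u = 0 := by
      have h2 : ω * ω + ω + 1 = 0 := by rw [← pow_two]; exact hω
      rw [h2, zero_smul]
    rw [add_smul, add_smul, one_smul] at h1
    exact h1
  have hT'f : aeval T' (X ^ 2 + X + 1 : F[X]) = 0 := by
    apply LinearMap.ext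
    intro u
    rw [map_add, map_add, map_pow, aeval_X, map_one, LinearMap.add_apply, LinearMap.add_apply,
      pow_two, Module.End.mul_apply, Module.End.one_apply, hT'u, hT'u, LinearMap.zero_apply,
      Matrix.mulVec_mulVec]
    have h1 : ((x : Matrix (Fin m ⊕ Fin m) (Fin m ⊕ Fin m) F) * (x : Matrix (Fin m ⊕ Fin m) (Fin m ⊕ Fin m) F) + (x : Matrix (Fin m ⊕ Fin m) (Fin m ⊕ Fin m) F) + 1) *ᵥ u = 0 := by
      rw [← pow_two, hx, Matrix.zero_mulVec]
    rw [Matrix.add_mulVec, Matrix.add_mulVec, Matrix.one_mulVec] at h1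
    exact h1
  have hss : T.IsSemisimple :=
    Module.End.isSemisimple_of_squarefree_aeval_eq_zero hirr.squarefree hTf
  have hss' : T'.IsSemisimple :=
    Module.End.isSemisimple_of_squarefree_aeval_eq_zero hirr.squarefree hT'f
  have hcp : T.charpoly = T'.charpoly := by
    rw [charpoly_of_irr _ hirr hfm 2 hfd (by norm_num) T hTf m (by rw [hdim]; ring),
      charpoly_of_irr _ hirr hfm 2 hfd (by norm_num) T' hT'f m RegUniSp.finrank_fun]
  obtain ⟨ψ, hψB, hψT⟩ := SpConj.sp_conj (F := F) (m + m) (Fin m → K) (Fin m ⊕ Fin m → F) B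
    (Cfsg.Agent.S0766.sB m F) T T' hdim hG1 hG2 hss hss' hcp
  have hinj : Function.Injective ψ := by
    rw [injective_iff_map_eq_zero]
    intro a ha
    apply hG1.2.1
    intro b
    rw [← hψB, ha, map_zero, LinearMap.zero_apply]
  have hfr' : Module.finrank F (Fin m ⊕ Fin m → F) = m + m := by simp
  obtain ⟨e, he⟩ : ∃ e : (Fin m → K) ≃ₗ[F] (Fin m ⊕ Fin m → F), ∀ a, e a = ψ a :=
    ⟨LinearMap.linearEquivOfInjective ψ hinj (by rw [hdim, hfr']),
      fun a => LinearMap.linearEquivOfInjective_apply hinj _ a⟩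
  have heB : ∀ a b, Cfsg.Agent.S0766.sB m F (e a) (e b) = B a b := by
    intro a b; rw [he, he]; exact hψB a b
  have heT : ∀ a, e (ω • a) = (x : Matrix (Fin m ⊕ Fin m) (Fin m ⊕ Fin m) F) *ᵥ (e a) := by
    intro a; rw [he, he, ← hT, hψT, hT'u]
  have hesT : ∀ b, e.symm ((x : Matrix (Fin m ⊕ Fin m) (Fin m ⊕ Fin m) F) *ᵥ b) = ω • e.symm b := by
    intro b
    apply e.injective
    rw [e.apply_symm_apply, heT, e.apply_symm_apply]
  obtain ⟨Lf, hLf⟩ : ∃ Lf : Matrix (Fin m) (Fin m) K → Module.End F (Fin m ⊕ Fin m → F),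
      ∀ M b, Lf M b = e (M *ᵥ e.symm b) :=
    ⟨fun M => e.toLinearMap ∘ₗ ((Matrix.toLin' M).restrictScalars F) ∘ₗ e.symm.toLinearMap,
      fun M b => rfl⟩
  have hN : ∀ (M : Matrix (Fin m) (Fin m) K) (b : Fin m ⊕ Fin m → F),
      (LinearMap.toMatrix' (Lf M)) *ᵥ b = e (M *ᵥ e.symm b) := by
    intro M b
    rw [← Matrix.toLin'_apply, Matrix.toLin'_toMatrix', hLf]
  have hiso : ∀ g : Matrix.GeneralLinearGroup (Fin m) K, g ∈ Cfsg.GU m K q → ∀ u v,
      Cfsg.Agent.S0766.sB m F (Lf (g : Matrix (Fin m) (Fin m) K) u)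
        (Lf (g : Matrix (Fin m) (Fin m) K) v) = Cfsg.Agent.S0766.sB m F u v := by
    intro g hg u v
    have h1 : Cfsg.hermForm m K q ((g : Matrix (Fin m) (Fin m) K) *ᵥ e.symm u)
        ((g : Matrix (Fin m) (Fin m) K) *ᵥ e.symm v)
        = Cfsg.hermForm m K q (e.symm u) (e.symm v) := hg (e.symm u) (e.symm v)
    rw [hLf, hLf, heB, hBh, h1, ← hBh, ← heB, e.apply_symm_apply, e.apply_symm_apply]
  have hNsp : ∀ g : Matrix.GeneralLinearGroup (Fin m) K, g ∈ Cfsg.GU m K q →
      LinearMap.toMatrix' (Lf (g : Matrix (Fin m) (Fin m) K)) ∈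
        Matrix.symplecticGroup (Fin m) F := by
    intro g hg
    rw [SymplecticGroup.mem_iff']
    apply Matrix.toBilin'.injective
    rw [← Matrix.toBilin'_comp, Matrix.toLin'_toMatrix']
    apply LinearMap.ext₂
    intro u v
    exact hiso g hg u v
  have hNcomm : ∀ M : Matrix (Fin m) (Fin m) K,
      (x : Matrix (Fin m ⊕ Fin m) (Fin m ⊕ Fin m) F) * LinearMap.toMatrix' (Lf M) = LinearMap.toMatrix' (Lf M) * (x : Matrix (Fin m ⊕ Fin m) (Fin m ⊕ Fin m) F) := by
    intro M
    apply Matrix.toLin'.injective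
    apply LinearMap.ext
    intro b
    rw [Matrix.toLin'_apply, Matrix.toLin'_apply, ← Matrix.mulVec_mulVec, ← Matrix.mulVec_mulVec,
      hN, hN, ← heT, hesT, Matrix.mulVec_smul]
  have hmemC : ∀ (g : Matrix.GeneralLinearGroup (Fin m) K) (hg : g ∈ Cfsg.GU m K q),
      (⟨LinearMap.toMatrix' (Lf (g : Matrix (Fin m) (Fin m) K)), hNsp g hg⟩ :
        ↥(Matrix.symplecticGroup (Fin m) F)) ∈
        Subgroup.centralizer ({x} : Set ↥(Matrix.symplecticGroup (Fin m) F)) := by
    intro g hg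
    rw [Subgroup.mem_centralizer_iff]
    intro y hy
    rw [Set.mem_singleton_iff] at hy
    rw [hy]
    exact Subtype.ext (hNcomm _)
  have hks : ∀ k : K, ∃ r s : F, ∀ a : Fin m → K, k • a = r • a + s • (ω • a) := by
    intro k
    obtain ⟨r, s, hk⟩ := hgen k
    refine ⟨r, s, fun a => ?_⟩
    rw [hk, add_smul, mul_smul, algebraMap_smul, algebraMap_smul]
  have key : ∀ c : ↥(Subgroup.centralizer ({x} : Set ↥(Matrix.symplecticGroup (Fin m) F))),
      ∃ M : Matrix (Fin m) (Fin m) K,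
        (∀ a, M *ᵥ a = e.symm (((c : ↥(Matrix.symplecticGroup (Fin m) F)) : Matrix (Fin m ⊕ Fin m) (Fin m ⊕ Fin m) F) *ᵥ e a)) ∧
        (∀ u v, Cfsg.hermForm m K q (M *ᵥ u) (M *ᵥ v) = Cfsg.hermForm m K q u v) := by
    intro c
    obtain ⟨C, hC⟩ : ∃ C : Matrix (Fin m ⊕ Fin m) (Fin m ⊕ Fin m) F, C = ((c : ↥(Matrix.symplecticGroup (Fin m) F)) : Matrix (Fin m ⊕ Fin m) (Fin m ⊕ Fin m) F) := ⟨_, rfl⟩
    rw [← hC]
    have hCsp : C ∈ Matrix.symplecticGroup (Fin m) F := by rw [hC]; exact c.1.2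
    have hCx : C * (x : Matrix (Fin m ⊕ Fin m) (Fin m ⊕ Fin m) F) = (x : Matrix (Fin m ⊕ Fin m) (Fin m ⊕ Fin m) F) * C := by
      have h1 := Subgroup.mem_centralizer_iff.mp c.2 x (Set.mem_singleton x)
      rw [hC]
      exact (congrArg Subtype.val h1).symm
    obtain ⟨G₀, hG₀⟩ : ∃ G₀ : (Fin m → K) → (Fin m → K), ∀ a, G₀ a = e.symm (C *ᵥ e a) :=
      ⟨_, fun a => rfl⟩
    have hGadd : ∀ a b, G₀ (a + b) = G₀ a + G₀ b := by
      intro a b
      rw [hG₀, hG₀, hG₀, e.map_add, Matrix.mulVec_add, e.symm.map_add]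
    have hGF : ∀ (r : F) a, G₀ (r • a) = r • G₀ a := by
      intro r a
      rw [hG₀, hG₀, e.map_smul, Matrix.mulVec_smul, e.symm.map_smul]
    have hGω : ∀ a, G₀ (ω • a) = ω • G₀ a := by
      intro a
      rw [hG₀, hG₀, heT, Matrix.mulVec_mulVec, hCx, ← Matrix.mulVec_mulVec, hesT]
    have hGK : ∀ (k : K) a, G₀ (k • a) = k • G₀ a := by
      intro k a
      obtain ⟨r, s, hrs⟩ := hks k
      rw [hrs a, hrs (G₀ a), hGadd, hGF, hGF, hGω]
    obtain ⟨GK, hGKa⟩ : ∃ GK : (Fin m → K) →ₗ[K] (Fin m → K), ∀ a, GK a = G₀ a :=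
      ⟨{ toFun := G₀
         map_add' := hGadd
         map_smul' := fun k a => by rw [RingHom.id_apply]; exact hGK k a }, fun a => rfl⟩
    have hMa : ∀ a, LinearMap.toMatrix' GK *ᵥ a = G₀ a := by
      intro a
      rw [← Matrix.toLin'_apply, Matrix.toLin'_toMatrix', hGKa]
    have hGB : ∀ u v, B (G₀ u) (G₀ v) = B u v := by
      intro u v
      rw [← heB, hG₀, hG₀, e.apply_symm_apply, e.apply_symm_apply,
        Helper2.SpEmbed.sB_symp m C hCsp, heB]
    have hGh : ∀ u v, Cfsg.hermForm m K q (G₀ u) (G₀ v) = Cfsg.hermForm m K q u v := by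
      intro u v
      apply hsep
      intro k
      rw [← hhsmul, ← hhsmul, ← hGK, ← hBh, ← hBh, hGB]
    exact ⟨LinearMap.toMatrix' GK, fun a => by rw [hMa, hG₀],
      fun u v => by rw [hMa, hMa]; exact hGh u v⟩
  have hbij : Function.Bijective (fun g : ↥(Cfsg.GU m K q) =>
      (⟨⟨LinearMap.toMatrix' (Lf ((g : Matrix.GeneralLinearGroup (Fin m) K) :
        Matrix (Fin m) (Fin m) K)), hNsp g.1 g.2⟩, hmemC g.1 g.2⟩ :
        ↥(Subgroup.centralizer ({x} : Set ↥(Matrix.symplecticGroup (Fin m) F))))) := by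
    constructor
    · intro g g' hgg
      have h1 : LinearMap.toMatrix' (Lf ((g : Matrix.GeneralLinearGroup (Fin m) K) :
          Matrix (Fin m) (Fin m) K)) = LinearMap.toMatrix' (Lf ((g' :
          Matrix.GeneralLinearGroup (Fin m) K) : Matrix (Fin m) (Fin m) K)) :=
        congrArg (fun c : ↥(Subgroup.centralizer ({x} : Set ↥(Matrix.symplecticGroup (Fin m) F)))
          => ((c : ↥(Matrix.symplecticGroup (Fin m) F)) : Matrix (Fin m ⊕ Fin m) (Fin m ⊕ Fin m) F)) hgg
      apply Subtype.ext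
      apply Units.ext
      apply Matrix.toLin'.injective
      apply LinearMap.ext
      intro a
      rw [Matrix.toLin'_apply, Matrix.toLin'_apply]
      have h2 : LinearMap.toMatrix' (Lf ((g : Matrix.GeneralLinearGroup (Fin m) K) :
          Matrix (Fin m) (Fin m) K)) *ᵥ e a = LinearMap.toMatrix' (Lf ((g' :
          Matrix.GeneralLinearGroup (Fin m) K) : Matrix (Fin m) (Fin m) K)) *ᵥ e a := by rw [h1]
      rw [hN, hN, e.symm_apply_apply] at h2
      exact e.injective h2
    · intro c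
      obtain ⟨M, hM, hMh⟩ := key c
      obtain ⟨M', hM', -⟩ := key c⁻¹
      have hCC' : ((c : ↥(Matrix.symplecticGroup (Fin m) F)) : Matrix (Fin m ⊕ Fin m) (Fin m ⊕ Fin m) F) *
          (((c⁻¹ : ↥(Subgroup.centralizer ({x} : Set ↥(Matrix.symplecticGroup (Fin m) F)))) :
            ↥(Matrix.symplecticGroup (Fin m) F)) : Matrix (Fin m ⊕ Fin m) (Fin m ⊕ Fin m) F) = 1 :=
        congrArg (fun d : ↥(Subgroup.centralizer ({x} : Set ↥(Matrix.symplecticGroup (Fin m) F)))
          => ((d : ↥(Matrix.symplecticGroup (Fin m) F)) : Matrix (Fin m ⊕ Fin m) (Fin m ⊕ Fin m) F)) (mul_inv_cancel c)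
      have hMinvA : ∀ a, M *ᵥ (M' *ᵥ a) = a := by
        intro a
        rw [hM, hM', e.apply_symm_apply, Matrix.mulVec_mulVec, hCC', Matrix.one_mulVec,
          e.symm_apply_apply]
      have hMmul : M * M' = 1 := by
        apply Matrix.toLin'.injective
        apply LinearMap.ext
        intro a
        rw [Matrix.toLin'_apply, ← Matrix.mulVec_mulVec, hMinvA, Matrix.toLin'_one,
          LinearMap.id_apply]
      have hM'M : M' * M = 1 := mul_eq_one_comm.mp hMmul
      have hg : (⟨M, M', hMmul, hM'M⟩ : Matrix.GeneralLinearGroup (Fin m) K) ∈ Cfsg.GU m K q :=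
        fun u v => hMh u v
      refine ⟨⟨⟨M, M', hMmul, hM'M⟩, hg⟩, ?_⟩
      apply Subtype.ext
      apply Subtype.ext
      show LinearMap.toMatrix' (Lf M) = ((c : ↥(Matrix.symplecticGroup (Fin m) F)) : Matrix (Fin m ⊕ Fin m) (Fin m ⊕ Fin m) F)
      apply Matrix.toLin'.injective
      apply LinearMap.ext
      intro b
      rw [Matrix.toLin'_apply, Matrix.toLin'_apply, hN, hM, e.apply_symm_apply,
        e.apply_symm_apply]
  exact (Nat.card_eq_of_bijective _ hbij).symm

end Main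

section Final

variable {F : Type u} [Field F] [Fintype F]

theorem card_centralizer_order3 {q : ℕ} (hF : Fintype.card F = q)
    (hq : q % 3 = 2) {m : ℕ} (x : Matrix.symplecticGroup (Fin m) F) (hx3 : x ^ 3 = 1)
    (hfpf : IsUnit ((x : Matrix (Fin m ⊕ Fin m) (Fin m ⊕ Fin m) F) - 1)) :
    Nat.card ↥(Subgroup.centralizer ({x} : Set ↥(Matrix.symplecticGroup (Fin m) F))) =
      q ^ (m * (m - 1) / 2) * ∏ i ∈ Finset.range m,
        (if Even i then q ^ (i + 1) + 1 else q ^ (i + 1) - 1) := by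
  classical
  have hirr : Irreducible (X ^ 2 + X + 1 : F[X]) := irr_of_mod hF hq
  have hfm : (X ^ 2 + X + 1 : F[X]).Monic := by monicity!
  have hfd : (X ^ 2 + X + 1 : F[X]).natDegree = 2 := by compute_degree!
  haveI : Fact (Irreducible (X ^ 2 + X + 1 : F[X])) := ⟨hirr⟩
  haveI : Module.Finite F (AdjoinRoot (X ^ 2 + X + 1 : F[X])) := hfm.finite_adjoinRoot
  haveI : Finite (AdjoinRoot (X ^ 2 + X + 1 : F[X])) := Module.finite_of_finite F
  letI : Fintype (AdjoinRoot (X ^ 2 + X + 1 : F[X])) := Fintype.ofFinite _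
  have hK : Fintype.card (AdjoinRoot (X ^ 2 + X + 1 : F[X])) = q ^ 2 := by
    have h1 : Fintype.card (AdjoinRoot (X ^ 2 + X + 1 : F[X])) =
        Fintype.card F ^ Module.finrank F (AdjoinRoot (X ^ 2 + X + 1 : F[X])) :=
      Module.card_eq_pow_finrank
    rw [h1, hF, (AdjoinRoot.powerBasis hfm.ne_zero).finrank, AdjoinRoot.powerBasis_dim, hfd]
  have hroot : (AdjoinRoot.root (X ^ 2 + X + 1 : F[X])) ^ 2 +
      AdjoinRoot.root (X ^ 2 + X + 1 : F[X]) + 1 = 0 := by
    have h1 := AdjoinRoot.mk_self (f := (X ^ 2 + X + 1 : F[X]))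
    rw [map_add, map_add, map_pow, AdjoinRoot.mk_X, map_one] at h1
    exact h1
  have hgen : ∀ k : AdjoinRoot (X ^ 2 + X + 1 : F[X]), ∃ a b : F,
      k = algebraMap F (AdjoinRoot (X ^ 2 + X + 1 : F[X])) a +
        algebraMap F (AdjoinRoot (X ^ 2 + X + 1 : F[X])) b *
          AdjoinRoot.root (X ^ 2 + X + 1 : F[X]) := by
    intro k
    obtain ⟨p, rfl⟩ := AdjoinRoot.mk_surjective k
    have h1 : AdjoinRoot.mk (X ^ 2 + X + 1 : F[X]) p =
        AdjoinRoot.mk (X ^ 2 + X + 1 : F[X]) (p %ₘ (X ^ 2 + X + 1)) := by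
      rw [AdjoinRoot.mk_eq_mk]
      refine ⟨p /ₘ (X ^ 2 + X + 1), ?_⟩
      have h2 := Polynomial.modByMonic_add_div p (X ^ 2 + X + 1 : F[X])
      linear_combination -h2
    have h3 : (p %ₘ (X ^ 2 + X + 1 : F[X])).natDegree ≤ 1 := by
      have h4 := Polynomial.natDegree_modByMonic_lt p hfm (by
        intro h; rw [h, natDegree_one] at hfd; omega)
      rw [hfd] at h4
      omega
    have h5 := Polynomial.eq_X_add_C_of_natDegree_le_one h3
    refine ⟨(p %ₘ (X ^ 2 + X + 1 : F[X])).coeff 0, (p %ₘ (X ^ 2 + X + 1 : F[X])).coeff 1, ?_⟩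
    rw [h1]
    conv_lhs => rw [h5]
    rw [map_add, map_mul, AdjoinRoot.mk_C, AdjoinRoot.mk_C, AdjoinRoot.mk_X,
      AdjoinRoot.algebraMap_eq]
    exact add_comm _ _
  have hX3 : (x : Matrix (Fin m ⊕ Fin m) (Fin m ⊕ Fin m) F) ^ 3 = 1 := by
    rw [← SubmonoidClass.coe_pow, hx3]; rfl
  have hx : (x : Matrix (Fin m ⊕ Fin m) (Fin m ⊕ Fin m) F) ^ 2 + (x : Matrix (Fin m ⊕ Fin m) (Fin m ⊕ Fin m) F) + 1 = 0 := by
    have h1 : ((x : Matrix (Fin m ⊕ Fin m) (Fin m ⊕ Fin m) F) - 1) * ((x : Matrix (Fin m ⊕ Fin m) (Fin m ⊕ Fin m) F) ^ 2 + (x : Matrix (Fin m ⊕ Fin m) (Fin m ⊕ Fin m) F) + 1) = 0 := by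
      have h2 : ((x : Matrix (Fin m ⊕ Fin m) (Fin m ⊕ Fin m) F) - 1) * ((x : Matrix (Fin m ⊕ Fin m) (Fin m ⊕ Fin m) F) ^ 2 + (x : Matrix (Fin m ⊕ Fin m) (Fin m ⊕ Fin m) F) + 1) = (x : Matrix (Fin m ⊕ Fin m) (Fin m ⊕ Fin m) F) ^ 3 - 1 := by
        noncomm_ring
      rw [h2, hX3, sub_self]
    exact (hfpf.mul_right_eq_zero).mp h1
  rw [card_centralizer_gu hF hK hq hirr (AdjoinRoot.root _) hroot hgen x hx]
  exact Cfsg.Agent.S0277.result hK m

end Final

end Cfsg.Agent.Helper14.CentGU
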