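import Mathlib
import Cfsg.Agent.Helper14.RegUniSp
import Cfsg.Agent.Helper14.SpPal
import Cfsg.Agent.Helper14.PrimeOrdSp

/-!
Regular unipotent elements of `Sp_2m(q)`, `q` odd, form exactly two conjugacy classes.
-/

set_option autoImplicit false
open Polynomial
open scoped Matrix

namespace Cfsg.Agent.Helper14.RegUniSp2

open Cfsg.Agent.Helper14.RegUniSp

section Poly

variable {F : Type*} [Field F]

theorem dvd_comp_neg {m : ℕ} (p : F[X]) (h : X ^ (2 * m) ∣ p) : X ^ (2 * m) ∣ p.comp (-X) := by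
  obtain ⟨w, hw⟩ := h
  refine ⟨w.comp (-X), ?_⟩
  rw [hw, mul_comp, pow_comp, X_comp, Even.neg_pow (even_two_mul m)]

theorem exists_sqrt (h2 : (2 : F) ≠ 0) (h : F[X]) (s : F) (hs : s ≠ 0) (h0 : h.coeff 0 = s * s)
    (n : ℕ) : ∃ a : F[X], a.coeff 0 = s ∧ X ^ n ∣ a * a - h := by
  induction n with
  | zero => exact ⟨C s, coeff_C_zero, by rw [pow_zero]; exact one_dvd _⟩
  | succ k ih =>
    obtain ⟨a, ha0, w, hw⟩ := ih
    rcases Nat.eq_zero_or_pos k with rfl | hk
    · refine ⟨a, ha0, ?_⟩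
      rw [zero_add, pow_one, X_dvd_iff, coeff_sub, mul_coeff_zero, ha0, h0, sub_self]
    · have hC2 : (C (2 : F) : F[X]) = 2 := map_ofNat C 2
      obtain ⟨c₀, hc₀⟩ : ∃ c₀ : F, c₀ = w.coeff 0 / (2 * s) := ⟨_, rfl⟩
      have hc₀' : (2 : F) * s * c₀ = w.coeff 0 := by rw [hc₀]; field_simp
      refine ⟨a - C c₀ * X ^ k, ?_, ?_⟩
      · rw [coeff_sub, coeff_C_mul, coeff_X_pow, if_neg (by omega), mul_zero, sub_zero, ha0]
      · have e1 : (a - C c₀ * X ^ k) * (a - C c₀ * X ^ k) - h =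
            X ^ k * (w - C 2 * a * C c₀) + (C c₀ * C c₀ * X ^ k) * X ^ k := by
          linear_combination hw + (a * C c₀ * X ^ k) * hC2
        rw [e1, pow_succ]
        apply dvd_add
        · apply mul_dvd_mul_left
          rw [X_dvd_iff, coeff_sub, mul_coeff_zero, mul_coeff_zero, coeff_C_zero, coeff_C_zero, ha0,
            hc₀', sub_self]
        · exact mul_dvd_mul (Dvd.intro_left _ rfl) (dvd_pow_self X hk.ne')

theorem exists_inv_mod (h : F[X]) (h0 : h.coeff 0 ≠ 0) (n : ℕ) :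
    ∃ k : F[X], X ^ n ∣ k * h - 1 := by
  have hc : IsCoprime h (X ^ n : F[X]) := by
    apply IsCoprime.pow_right
    apply IsCoprime.symm
    rw [Irreducible.coprime_iff_not_dvd irreducible_X, X_dvd_iff]
    exact h0
  obtain ⟨k, c, hkc⟩ := hc
  refine ⟨k, -c, ?_⟩
  linear_combination hkc

theorem ratio_square [Fintype F] (x y k : F) (hx : x ≠ 0) (hy : y ≠ 0) (hk : k * x = 1)
    (hiff : IsSquare x ↔ IsSquare y) : ∃ s : F, s ≠ 0 ∧ k * y = s * s := by
  classical
  have hk0 : k ≠ 0 := by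
    intro h; rw [h, zero_mul] at hk; exact zero_ne_one hk
  have hsq : IsSquare (k * y) := by
    by_cases hsx : IsSquare x
    · obtain ⟨t, ht⟩ := hsx
      obtain ⟨t', ht'⟩ := hiff.mp ⟨t, ht⟩
      have ht0 : t ≠ 0 := by
        intro h; rw [h, mul_zero] at ht; exact hx ht
      refine ⟨t' / t, ?_⟩
      have e : k * (t * t) = 1 := by rw [← ht]; exact hk
      rw [ht']
      field_simp
      linear_combination (t' * t') * e
    · have hsy : ¬ IsSquare y := fun h => hsx (hiff.mpr h)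
      have h1 : quadraticChar F x = -1 := quadraticChar_neg_one_iff_not_isSquare.mpr hsx
      have h2 : quadraticChar F y = -1 := quadraticChar_neg_one_iff_not_isSquare.mpr hsy
      have h3 : quadraticChar F k * quadraticChar F x = 1 := by
        rw [← map_mul, hk, map_one]
      rw [h1] at h3
      have h4 : quadraticChar F k = -1 := by linarith
      apply (quadraticChar_one_iff_isSquare (mul_ne_zero hk0 hy)).mp
      rw [map_mul, h4, h2]; norm_num
  obtain ⟨s, hs⟩ := hsq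
  refine ⟨s, ?_, hs⟩
  intro h
  rw [h, mul_zero] at hs
  exact (mul_ne_zero hk0 hy) hs

end Poly

section Krylov

variable {F V : Type*} [Field F] [AddCommGroup V] [Module F V] [FiniteDimensional F V]

theorem krylov_li (L : Module.End F V) (n : ℕ) (hL : L ^ n = 0) (e : V)
    (he : (L ^ (n - 1)) e ≠ 0) : LinearIndependent F (fun i : Fin n => (L ^ (i : ℕ)) e) := by
  rw [Fintype.linearIndependent_iff]
  intro a ha i
  exact congrFun (Cfsg.Agent.S2571.krylov_inj L n hL e he a ha) i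

theorem exists_intertwiner (L L' : Module.End F V) (n : ℕ) (hn1 : 1 ≤ n)
    (hn : Module.finrank F V = n) (hL : L ^ n = 0) (hL' : L' ^ n = 0) (e e' : V)
    (he : (L ^ (n - 1)) e ≠ 0) (he' : (L' ^ (n - 1)) e' ≠ 0) :
    ∃ P : V ≃ₗ[F] V, ∀ x, P (L x) = L' (P x) := by
  haveI : Nonempty (Fin n) := ⟨⟨0, hn1⟩⟩
  have hli := krylov_li L n hL e he
  have hli' := krylov_li L' n hL' e' he'
  obtain ⟨b, hb⟩ : ∃ b : Module.Basis (Fin n) F V, ∀ i : Fin n, b i = (L ^ (i : ℕ)) e :=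
    ⟨basisOfLinearIndependentOfCardEqFinrank hli (by rw [Fintype.card_fin, hn]),
      fun i => by rw [coe_basisOfLinearIndependentOfCardEqFinrank]⟩
  obtain ⟨b', hb'⟩ : ∃ b' : Module.Basis (Fin n) F V, ∀ i : Fin n, b' i = (L' ^ (i : ℕ)) e' :=
    ⟨basisOfLinearIndependentOfCardEqFinrank hli' (by rw [Fintype.card_fin, hn]),
      fun i => by rw [coe_basisOfLinearIndependentOfCardEqFinrank]⟩
  obtain ⟨P, hP⟩ : ∃ P : V ≃ₗ[F] V, ∀ i : Fin n, P (b i) = b' i :=
    ⟨b.equiv b' (Equiv.refl _), fun i => by rw [Module.Basis.equiv_apply]; rfl⟩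
  refine ⟨P, ?_⟩
  have key : (P : V →ₗ[F] V) ∘ₗ L = L' ∘ₗ (P : V →ₗ[F] V) := by
    apply b.ext
    intro i
    rw [LinearMap.comp_apply, LinearMap.comp_apply, LinearEquiv.coe_coe, hP, hb, hb']
    rw [← Module.End.mul_apply, ← pow_succ', ← Module.End.mul_apply, ← pow_succ']
    by_cases hi : (i : ℕ) + 1 < n
    · have h1 := hP ⟨(i : ℕ) + 1, hi⟩
      rw [hb, hb'] at h1
      exact h1
    · have h2 : (i : ℕ) + 1 = n := by have := i.2; omega
      rw [h2, hL, hL', LinearMap.zero_apply, LinearMap.zero_apply, map_zero]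
  intro x
  exact congrArg (fun f : V →ₗ[F] V => f x) key

theorem finrank_range_of_cyclic (L : Module.End F V) (n : ℕ) (hn1 : 1 ≤ n)
    (hn : Module.finrank F V = n) (hL : L ^ n = 0) (e : V) (he : (L ^ (n - 1)) e ≠ 0) :
    Module.finrank F (LinearMap.range L) = n - 1 := by
  have hli := krylov_li L n hL e he
  apply le_antisymm
  · have h1 := LinearMap.finrank_range_add_finrank_ker L
    have h2 : Module.finrank F (LinearMap.ker L) ≠ 0 := by
      intro h0
      rw [Submodule.finrank_eq_zero] at h0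
      apply he
      have h3 : (L ^ (n - 1)) e ∈ LinearMap.ker L := by
        rw [LinearMap.mem_ker, ← Module.End.mul_apply, ← pow_succ', show n - 1 + 1 = n by omega,
          hL]
        rfl
      rw [h0] at h3
      exact (Submodule.mem_bot F).mp h3
    rw [hn] at h1
    omega
  · obtain ⟨φ, hφ⟩ : ∃ φ : Fin (n - 1) → Fin n, ∀ j, ((φ j : Fin n) : ℕ) = (j : ℕ) + 1 :=
      ⟨fun j => ⟨(j : ℕ) + 1, by have := j.2; omega⟩, fun j => rfl⟩
    have hinj : Function.Injective φ := by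
      intro j j' h
      have h1 := congrArg Fin.val h
      rw [hφ, hφ] at h1
      exact Fin.ext (by omega)
    have hli2 := hli.comp φ hinj
    have hsp : Submodule.span F (Set.range ((fun i : Fin n => (L ^ (i : ℕ)) e) ∘ φ)) ≤
        LinearMap.range L := by
      rw [Submodule.span_le]
      rintro _ ⟨j, rfl⟩
      refine ⟨(L ^ (j : ℕ)) e, ?_⟩
      show L ((L ^ (j : ℕ)) e) = (L ^ ((φ j : Fin n) : ℕ)) e
      rw [hφ, ← Module.End.mul_apply, ← pow_succ']
    have h4 := Submodule.finrank_mono hsp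
    rw [finrank_span_eq_card hli2, Fintype.card_fin] at h4
    exact h4

end Krylov

section Mat

open Matrix

variable {F : Type*} [Field F] {m : ℕ}

/-- the facts about a regular unipotent symplectic matrix `U` and `T = U - sig U` -/
structure RegData (U T : Matrix (Fin m ⊕ Fin m) (Fin m ⊕ Fin m) F) : Prop where
  sp : U * sig U = 1
  sp' : sig U * U = 1
  hT : T = U - sig U
  sT : sig T = -T
  nil : T ^ (2 * m) = 0
  ker : ∀ f : F[X], aeval T f = 0 → X ^ (2 * m) ∣ f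
  comm : ∀ G : Matrix (Fin m ⊕ Fin m) (Fin m ⊕ Fin m) F, G * U = U * G → ∃ f : F[X], f.natDegree < 2 * m ∧ G = aeval T f
  sig_aeval : ∀ f : F[X], sig (aeval T f) = aeval T (f.comp (-X))
  aeval_comm : ∀ f : F[X], aeval T f * U = U * aeval T f

theorem RegData.aeval_dvd {U T : Matrix (Fin m ⊕ Fin m) (Fin m ⊕ Fin m) F} (d : RegData U T) (f : F[X]) (h : X ^ (2 * m) ∣ f) :
    aeval T f = 0 := by
  obtain ⟨w, hw⟩ := h
  rw [hw, map_mul, map_pow, aeval_X, d.nil, zero_mul]

theorem RegData.aeval_congr {U T : Matrix (Fin m ⊕ Fin m) (Fin m ⊕ Fin m) F} (d : RegData U T) (f g : F[X])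
    (h : X ^ (2 * m) ∣ f - g) : aeval T f = aeval T g := by
  have h1 := d.aeval_dvd _ h
  rw [map_sub, sub_eq_zero] at h1
  exact h1

theorem regData (h2 : (2 : F) ≠ 0) (hm : 1 ≤ m) (U : Matrix (Fin m ⊕ Fin m) (Fin m ⊕ Fin m) F) (hUsp : U * sig U = 1)
    (hnil : (U - 1) ^ (2 * m) = 0) (hreg : (U - 1).rank = 2 * m - 1) :
    RegData U (U - sig U) := by
  classical
  have hUiU : sig U * U = 1 := mul_eq_one_comm.mp hUsp
  obtain ⟨N, hN⟩ : ∃ N : Matrix (Fin m ⊕ Fin m) (Fin m ⊕ Fin m) F, N = U - 1 := ⟨_, rfl⟩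
  rw [← hN] at hnil hreg
  obtain ⟨T, hT⟩ : ∃ T : Matrix (Fin m ⊕ Fin m) (Fin m ⊕ Fin m) F, T = U - sig U := ⟨_, rfl⟩
  rw [← hT]
  have hsT : sig T = -T := by rw [hT, sig_sub, sig_sig]; abel
  have cUUi : Commute U (sig U) := by
    show U * sig U = sig U * U
    rw [hUsp, hUiU]
  have cTU : Commute T U := by
    rw [hT]; exact (Commute.refl U).sub_left cUUi.symm
  have cUN : Commute U N := by
    rw [hN]; exact (Commute.refl U).sub_right (Commute.one_right U)
  have cUiN : Commute (sig U) N := by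
    rw [hN]; exact cUUi.symm.sub_right (Commute.one_right _)
  have hTW : T = sig U * (U + 1) * N := by
    rw [hT, hN, Matrix.mul_assoc]
    have h3 : (U + 1) * (U - 1) = U * U - 1 := by noncomm_ring
    rw [h3, Matrix.mul_sub, ← Matrix.mul_assoc, hUiU, Matrix.one_mul, Matrix.mul_one]
  have cWN : Commute (sig U * (U + 1)) N :=
    Commute.mul_left cUiN (Commute.add_left cUN (Commute.one_left N))
  have hNnil : IsNilpotent N := ⟨2 * m, hnil⟩
  have hU1 : IsUnit (U + 1) := by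
    have e1 : U + 1 = N + 2 := by rw [hN, ← one_add_one_eq_two]; abel
    rw [e1]
    have hu2 : IsUnit (2 : Matrix (Fin m ⊕ Fin m) (Fin m ⊕ Fin m) F) := by
      have h3 := (h2.isUnit).map (algebraMap F (Matrix (Fin m ⊕ Fin m) (Fin m ⊕ Fin m) F))
      rwa [map_ofNat] at h3
    exact hNnil.isUnit_add_right_of_commute hu2 (Commute.ofNat_right N 2)
  have hUi : IsUnit (sig U) := ⟨⟨sig U, U, hUiU, hUsp⟩, rfl⟩
  have hW : IsUnit (sig U * (U + 1)) := hUi.mul hU1
  have hTn : T ^ (2 * m) = 0 := by rw [hTW, cWN.mul_pow, hnil, mul_zero]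
  have hTn1 : T ^ (2 * m - 1) ≠ 0 := by
    rw [hTW, cWN.mul_pow]
    intro h
    exact pow_ne_zero_of_rank N hm hreg ((hW.pow _).mul_right_eq_zero.mp h)
  obtain ⟨L, hL⟩ : ∃ L : Module.End F (Fin m ⊕ Fin m → F), L = Matrix.toLinAlgEquiv' T :=
    ⟨_, rfl⟩
  have hLn : L ^ (2 * m) = 0 := by rw [hL, ← map_pow, hTn, map_zero]
  obtain ⟨e, he⟩ : ∃ e, (L ^ (2 * m - 1)) e ≠ 0 := by
    by_contra hall
    push_neg at hall
    apply hTn1
    have h1 : L ^ (2 * m - 1) = 0 := LinearMap.ext hall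
    rw [hL, ← map_pow] at h1
    exact (Matrix.toLinAlgEquiv' (R := F) (n := Fin m ⊕ Fin m)).injective
      (h1.trans (map_zero _).symm)
  have hΛ : ∀ f : F[X], Matrix.toLinAlgEquiv' (aeval T f) = aeval L f := by
    intro f
    rw [hL]
    exact (Polynomial.aeval_algHom_apply
      (Matrix.toLinAlgEquiv' (R := F) (n := Fin m ⊕ Fin m)) T f).symm
  have hP1 : ∀ f : F[X], aeval T f = 0 → X ^ (2 * m) ∣ f := by
    intro f hf
    have hmon : (X ^ (2 * m) : F[X]).Monic := monic_X_pow _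
    rw [← Polynomial.modByMonic_eq_zero_iff_dvd hmon]
    apply poly_zero L (2 * m) hLn e he _ (by
      have h3 := natDegree_modByMonic_lt f hmon (by
        intro h1
        have h4 := congrArg natDegree h1
        rw [natDegree_X_pow, natDegree_one] at h4
        omega)
      rwa [natDegree_X_pow] at h3)
    rw [← hΛ]
    have h1 : aeval T (f %ₘ X ^ (2 * m)) = 0 := by
      have h3 := congrArg (aeval T) (modByMonic_add_div f (X ^ (2 * m)))
      rw [map_add, map_mul, map_pow, aeval_X, hTn, zero_mul, add_zero, hf] at h3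
      exact h3
    rw [h1, map_zero]
  have hP2 : ∀ G : Matrix (Fin m ⊕ Fin m) (Fin m ⊕ Fin m) F, G * U = U * G →
      ∃ f : F[X], f.natDegree < 2 * m ∧ G = aeval T f := by
    intro G hG
    have hGT : G * T = T * G := by
      have c1 : Commute G U := hG
      have c2 : Commute G (sig U) := by
        have h3 : sig U * G = G * sig U := by
          have e1 : sig U * G = sig U * G * (U * sig U) := by rw [hUsp, Matrix.mul_one]
          have e2 : sig U * G * (U * sig U) = sig U * (G * U) * sig U := by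
            simp only [Matrix.mul_assoc]
          have e3 : sig U * (U * G) * sig U = (sig U * U) * G * sig U := by
            simp only [Matrix.mul_assoc]
          rw [e1, e2, hG, e3, hUiU, Matrix.one_mul]
        exact h3.symm
      rw [hT]
      exact (c1.sub_right c2).eq
    have hD : Matrix.toLinAlgEquiv' G * L = L * Matrix.toLinAlgEquiv' G := by
      rw [hL, ← map_mul, ← map_mul, hGT]
    obtain ⟨f, hf1, hf2⟩ := exists_poly L (2 * m) finrank_fun (by omega) hLn e he _ hD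
    refine ⟨f, hf1, ?_⟩
    rw [← hΛ] at hf2
    exact (Matrix.toLinAlgEquiv' (R := F) (n := Fin m ⊕ Fin m)).injective hf2
  have hσ : ∀ f : F[X], sig (aeval T f) = aeval T (f.comp (-X)) := by
    intro f
    rw [sig_aeval, hsT, Polynomial.aeval_comp, map_neg, aeval_X]
  have hcomm : ∀ f : F[X], aeval T f * U = U * aeval T f := by
    intro f
    rw [Polynomial.aeval_eq_sum_range, Finset.sum_mul, Finset.mul_sum]
    apply Finset.sum_congr rfl
    intro i _
    rw [smul_mul_assoc, mul_smul_comm, (cTU.pow_left i).eq]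
  exact ⟨hUsp, hUiU, hT, hsT, hTn, hP1, hP2, hσ, hcomm⟩

theorem exists_intertwiner_mat (hm : 1 ≤ m) (N N' : Matrix (Fin m ⊕ Fin m) (Fin m ⊕ Fin m) F) (hN : N ^ (2 * m) = 0)
    (hN' : N' ^ (2 * m) = 0) (hr : N.rank = 2 * m - 1) (hr' : N'.rank = 2 * m - 1) :
    ∃ P Pi : Matrix (Fin m ⊕ Fin m) (Fin m ⊕ Fin m) F, P * Pi = 1 ∧ Pi * P = 1 ∧ P * N = N' * P := by
  classical
  have hcyc : ∀ N : Matrix (Fin m ⊕ Fin m) (Fin m ⊕ Fin m) F, N.rank = 2 * m - 1 →
      ∃ e : Fin m ⊕ Fin m → F,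
        ((Matrix.toLinAlgEquiv' N : Module.End F (Fin m ⊕ Fin m → F)) ^ (2 * m - 1)) e ≠ 0 := by
    intro N hr
    by_contra hall
    push_neg at hall
    apply pow_ne_zero_of_rank N hm hr
    have h1 : (Matrix.toLinAlgEquiv' N : Module.End F (Fin m ⊕ Fin m → F)) ^ (2 * m - 1) = 0 :=
      LinearMap.ext hall
    rw [← map_pow] at h1
    exact (Matrix.toLinAlgEquiv' (R := F) (n := Fin m ⊕ Fin m)).injective
      (h1.trans (map_zero _).symm)
  obtain ⟨e, he⟩ := hcyc N hr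
  obtain ⟨e', he'⟩ := hcyc N' hr'
  obtain ⟨Pl, hPl⟩ := exists_intertwiner (Matrix.toLinAlgEquiv' N) (Matrix.toLinAlgEquiv' N')
    (2 * m) (by omega) finrank_fun (by rw [← map_pow, hN, map_zero])
    (by rw [← map_pow, hN', map_zero]) e e' he he'
  obtain ⟨P, hP⟩ : ∃ P : Matrix (Fin m ⊕ Fin m) (Fin m ⊕ Fin m) F, Matrix.toLinAlgEquiv' P =
      (Pl : (Fin m ⊕ Fin m → F) →ₗ[F] (Fin m ⊕ Fin m → F)) :=
    ⟨Matrix.toLinAlgEquiv'.symm _, AlgEquiv.apply_symm_apply _ _⟩
  obtain ⟨Pi, hPi⟩ : ∃ Pi : Matrix (Fin m ⊕ Fin m) (Fin m ⊕ Fin m) F, Matrix.toLinAlgEquiv' Pi =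
      (Pl.symm : (Fin m ⊕ Fin m → F) →ₗ[F] (Fin m ⊕ Fin m → F)) :=
    ⟨Matrix.toLinAlgEquiv'.symm _, AlgEquiv.apply_symm_apply _ _⟩
  refine ⟨P, Pi, ?_, ?_, ?_⟩
  · apply (Matrix.toLinAlgEquiv' (R := F) (n := Fin m ⊕ Fin m)).injective
    rw [map_mul, hP, hPi, map_one]
    apply LinearMap.ext
    intro x
    exact Pl.apply_symm_apply x
  · apply (Matrix.toLinAlgEquiv' (R := F) (n := Fin m ⊕ Fin m)).injective
    rw [map_mul, hP, hPi, map_one]
    apply LinearMap.ext
    intro x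
    exact Pl.symm_apply_apply x
  · apply (Matrix.toLinAlgEquiv' (R := F) (n := Fin m ⊕ Fin m)).injective
    rw [map_mul, map_mul, hP]
    apply LinearMap.ext
    intro x
    exact hPl x

theorem intertwine_aeval (P T₀ T : Matrix (Fin m ⊕ Fin m) (Fin m ⊕ Fin m) F) (h : P * T₀ = T * P) (p : F[X]) :
    P * aeval T₀ p = aeval T p * P := by
  have hpow : ∀ i : ℕ, P * T₀ ^ i = T ^ i * P := by
    intro i
    induction i with
    | zero => rw [pow_zero, pow_zero, mul_one, one_mul]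
    | succ i ih => rw [pow_succ, ← mul_assoc, ih, mul_assoc, h, ← mul_assoc, ← pow_succ]
  rw [aeval_eq_sum_range, aeval_eq_sum_range, Finset.mul_sum, Finset.sum_mul]
  apply Finset.sum_congr rfl
  intro i _
  rw [mul_smul_comm, smul_mul_assoc, hpow]

theorem exists_h (hm : 1 ≤ m) {U T U' : Matrix (Fin m ⊕ Fin m) (Fin m ⊕ Fin m) F} (d : RegData U T) (hU' : sig U' * U' = 1)
    (P Pi : Matrix (Fin m ⊕ Fin m) (Fin m ⊕ Fin m) F) (hPPi : P * Pi = 1) (hPiP : Pi * P = 1) (hPU : P * U = U' * P) :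
    ∃ h : F[X], sig P * P = aeval T h ∧ h.coeff 0 ≠ 0 := by
  have hs1 : sig U * sig P = sig P * sig U' := by rw [← sig_mul, ← sig_mul, hPU]
  have hs2 : sig P * U' = U * sig P := by
    have e1 : U * sig P = U * sig P * (sig U' * U') := by rw [hU', Matrix.mul_one]
    have e2 : U * sig P * (sig U' * U') = U * (sig P * sig U') * U' := by
      simp only [Matrix.mul_assoc]
    have e3 : U * (sig U * sig P) * U' = (U * sig U) * sig P * U' := by
      simp only [Matrix.mul_assoc]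
    rw [e1, e2, ← hs1, e3, d.sp, Matrix.one_mul]
  have hHU : sig P * P * U = U * (sig P * P) := by
    rw [Matrix.mul_assoc, hPU, ← Matrix.mul_assoc, hs2, Matrix.mul_assoc]
  obtain ⟨h, -, hh⟩ := d.comm _ hHU
  refine ⟨h, hh, ?_⟩
  intro h0
  haveI : Nonempty (Fin m ⊕ Fin m) := ⟨Sum.inl ⟨0, hm⟩⟩
  have hX : X ∣ h := X_dvd_iff.mpr h0
  have hz : (sig P * P) ^ (2 * m) = 0 := by
    rw [hh, ← map_pow]
    exact d.aeval_dvd _ (pow_dvd_pow_of_dvd hX _)
  have hK : sig P * P * (Pi * sig Pi) = 1 := by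
    have e1 : sig P * P * (Pi * sig Pi) = sig P * (P * Pi) * sig Pi := by
      simp only [Matrix.mul_assoc]
    rw [e1, hPPi, Matrix.mul_one, ← sig_mul, hPiP, sig_one]
  have hu : IsUnit (sig P * P) := ⟨⟨_, _, hK, mul_eq_one_comm.mp hK⟩, rfl⟩
  exact (hu.pow (2 * m)).ne_zero hz

theorem conj_of_square (h2 : (2 : F) ≠ 0) {U T U' : Matrix (Fin m ⊕ Fin m) (Fin m ⊕ Fin m) F} (d : RegData U T) (P : Matrix (Fin m ⊕ Fin m) (Fin m ⊕ Fin m) F)
    (hPU : P * U = U' * P) (h : F[X]) (hH : sig P * P = aeval T h) (s : F) (hs : s ≠ 0)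
    (h0 : h.coeff 0 = s * s) : ∃ g : Matrix (Fin m ⊕ Fin m) (Fin m ⊕ Fin m) F, g * sig g = 1 ∧ g * U = U' * g := by
  have hsymm : X ^ (2 * m) ∣ h.comp (-X) - h := by
    apply d.ker
    rw [map_sub, ← d.sig_aeval, ← hH, sig_mul, sig_sig, sub_self]
  obtain ⟨a, ha0, haa⟩ := exists_sqrt h2 h s hs h0 (2 * m)
  have haeven : X ^ (2 * m) ∣ a.comp (-X) - a := by
    have e1 : X ^ (2 * m) ∣ (a.comp (-X) - a) * (a.comp (-X) + a) := by
      have e2 : (a.comp (-X) - a) * (a.comp (-X) + a) =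
          (a * a - h).comp (-X) - (a * a - h) + (h.comp (-X) - h) := by
        rw [sub_comp, mul_comp]; ring
      rw [e2]
      exact dvd_add (dvd_sub (dvd_comp_neg _ haa) haa) hsymm
    have hc : IsCoprime (X ^ (2 * m) : F[X]) (a.comp (-X) + a) := by
      apply IsCoprime.pow_left
      rw [Irreducible.coprime_iff_not_dvd irreducible_X, X_dvd_iff, coeff_add, coeff_comp_neg,
        pow_zero, one_mul, ha0, ← two_mul]
      exact mul_ne_zero h2 hs
    exact hc.dvd_of_dvd_mul_right e1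
  obtain ⟨b, hb⟩ := exists_inv_mod a (by rw [ha0]; exact hs) (2 * m)
  have key : X ^ (2 * m) ∣ b.comp (-X) * h * b - 1 := by
    have e3 : b.comp (-X) * h * b - 1 = (b * a - 1).comp (-X) * (b * a) + (b * a - 1)
        - b.comp (-X) * b * (a * a - h) - b.comp (-X) * b * a * (a.comp (-X) - a) := by
      rw [sub_comp, mul_comp, one_comp]; ring
    rw [e3]
    exact dvd_sub (dvd_sub (dvd_add (dvd_mul_of_dvd_left (dvd_comp_neg _ hb) _) hb)
      (dvd_mul_of_dvd_right haa _)) (dvd_mul_of_dvd_right haeven _)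
  have hg : sig (P * aeval T b) * (P * aeval T b) = 1 := by
    have e4 : sig (P * aeval T b) * (P * aeval T b) =
        aeval T (b.comp (-X)) * (sig P * P) * aeval T b := by
      rw [sig_mul, d.sig_aeval]; simp only [Matrix.mul_assoc]
    rw [e4, hH, ← map_mul, ← map_mul, d.aeval_congr _ 1 key, map_one]
  refine ⟨P * aeval T b, mul_eq_one_comm.mp hg, ?_⟩
  rw [Matrix.mul_assoc, d.aeval_comm, ← Matrix.mul_assoc, hPU, Matrix.mul_assoc]

theorem square_iff (hm : 1 ≤ m) {U₀ T₀ U U' : Matrix (Fin m ⊕ Fin m) (Fin m ⊕ Fin m) F} (d : RegData U₀ T₀) (P P' P'i g : Matrix (Fin m ⊕ Fin m) (Fin m ⊕ Fin m) F)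
    (hP'i : P'i * P' = 1) (hP'P'i : P' * P'i = 1)
    (hPU : P * U₀ = U * P) (hP'U : P' * U₀ = U' * P') (hg : sig g * g = 1)
    (hgU : g * U = U' * g) (h h' : F[X]) (hH : sig P * P = aeval T₀ h)
    (hH' : sig P' * P' = aeval T₀ h') (h0 : h.coeff 0 ≠ 0) :
    IsSquare (h.coeff 0) ↔ IsSquare (h'.coeff 0) := by
  have hc1 : P'i * U' = U₀ * P'i := by
    have e1 : P'i * U' = P'i * U' * (P' * P'i) := by rw [hP'P'i, Matrix.mul_one]
    have e2 : P'i * U' * (P' * P'i) = P'i * (U' * P') * P'i := by simp only [Matrix.mul_assoc]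
    have e3 : P'i * (P' * U₀) * P'i = (P'i * P') * U₀ * P'i := by simp only [Matrix.mul_assoc]
    rw [e1, e2, ← hP'U, e3, hP'i, Matrix.one_mul]
  have hc : (P'i * g * P) * U₀ = U₀ * (P'i * g * P) := by
    have e1 : P'i * g * P * U₀ = P'i * g * (P * U₀) := by simp only [Matrix.mul_assoc]
    have e2 : P'i * g * (U * P) = P'i * (g * U) * P := by simp only [Matrix.mul_assoc]
    have e3 : P'i * (U' * g) * P = (P'i * U') * g * P := by simp only [Matrix.mul_assoc]
    rw [e1, hPU, e2, hgU, e3, hc1]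
    simp only [Matrix.mul_assoc]
  obtain ⟨f, -, hf⟩ := d.comm _ hc
  have hPc : P' * (P'i * g * P) = g * P := by
    have e1 : P' * (P'i * g * P) = (P' * P'i) * g * P := by simp only [Matrix.mul_assoc]
    rw [e1, hP'P'i, Matrix.one_mul]
  have h1 : sig (P' * (P'i * g * P)) * (P' * (P'i * g * P)) =
      aeval T₀ (f.comp (-X) * h' * f) := by
    have e1 : sig (P' * (P'i * g * P)) * (P' * (P'i * g * P)) =
        sig (P'i * g * P) * (sig P' * P') * (P'i * g * P) := by
      rw [sig_mul]; simp only [Matrix.mul_assoc]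
    rw [e1, hf, d.sig_aeval, hH', ← map_mul, ← map_mul]
  have h2' : sig (g * P) * (g * P) = aeval T₀ h := by
    have e1 : sig (g * P) * (g * P) = sig P * (sig g * g) * P := by
      rw [sig_mul]; simp only [Matrix.mul_assoc]
    rw [e1, hg, Matrix.mul_one, hH]
  rw [hPc, h2'] at h1
  have h3 : X ^ (2 * m) ∣ f.comp (-X) * h' * f - h := by
    apply d.ker
    rw [map_sub, ← h1, sub_self]
  have h4 : (f.comp (-X) * h' * f - h).coeff 0 = 0 :=
    X_dvd_iff.mp ((dvd_pow_self X (by omega : 2 * m ≠ 0)).trans h3)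
  rw [coeff_sub, mul_coeff_zero, mul_coeff_zero, coeff_comp_neg, pow_zero, one_mul,
    sub_eq_zero] at h4
  have hf0 : f.coeff 0 ≠ 0 := by
    intro hz
    rw [hz, zero_mul, zero_mul] at h4
    exact h0 h4.symm
  constructor
  · rintro ⟨t, ht⟩
    refine ⟨t / f.coeff 0, ?_⟩
    have e : f.coeff 0 * h'.coeff 0 * f.coeff 0 = t * t := by rw [h4, ht]
    field_simp
    linear_combination e
  · rintro ⟨t, ht⟩
    exact ⟨f.coeff 0 * t, by rw [← h4, ht]; ring⟩

theorem conj_of_ratio (h2 : (2 : F) ≠ 0) {U₀ T₀ U T U' : Matrix (Fin m ⊕ Fin m) (Fin m ⊕ Fin m) F} (d₀ : RegData U₀ T₀)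
    (d : RegData U T) (P Pi P' : Matrix (Fin m ⊕ Fin m) (Fin m ⊕ Fin m) F) (hPPi : P * Pi = 1) (hPiP : Pi * P = 1)
    (hPU : P * U₀ = U * P) (hP'U : P' * U₀ = U' * P')
    (h h' : F[X]) (hH : sig P * P = aeval T₀ h) (hH' : sig P' * P' = aeval T₀ h')
    (k : F[X]) (hk : X ^ (2 * m) ∣ k * h - 1) (s : F) (hs : s ≠ 0)
    (hsq : (k * h').coeff 0 = s * s) : ∃ g : Matrix (Fin m ⊕ Fin m) (Fin m ⊕ Fin m) F, g * sig g = 1 ∧ g * U = U' * g := by
  have hPiU : Pi * U = U₀ * Pi := by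
    have e1 : Pi * U = Pi * U * (P * Pi) := by rw [hPPi, Matrix.mul_one]
    have e2 : Pi * U * (P * Pi) = Pi * (U * P) * Pi := by simp only [Matrix.mul_assoc]
    have e3 : Pi * (P * U₀) * Pi = (Pi * P) * U₀ * Pi := by simp only [Matrix.mul_assoc]
    rw [e1, e2, ← hPU, e3, hPiP, Matrix.one_mul]
  have hQU : (P' * Pi) * U = U' * (P' * Pi) := by
    rw [Matrix.mul_assoc, hPiU, ← Matrix.mul_assoc, hP'U, Matrix.mul_assoc]
  have hPs : P * sig U₀ = sig U * P := by
    have e1 : sig U * P = sig U * P * (U₀ * sig U₀) := by rw [d₀.sp, Matrix.mul_one]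
    have e2 : sig U * P * (U₀ * sig U₀) = sig U * (P * U₀) * sig U₀ := by
      simp only [Matrix.mul_assoc]
    have e3 : sig U * (U * P) * sig U₀ = (sig U * U) * P * sig U₀ := by
      simp only [Matrix.mul_assoc]
    rw [e1, e2, hPU, e3, d.sp', Matrix.one_mul]
  have hPT : P * T₀ = T * P := by
    rw [d₀.hT, d.hT, Matrix.mul_sub, Matrix.sub_mul, hPU, hPs]
  have e1 : sig Pi * sig P = 1 := by rw [← sig_mul, hPPi, sig_one]
  have e2 : sig P * (P * aeval T₀ k) = 1 := by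
    rw [← Matrix.mul_assoc, hH, ← map_mul, mul_comm h k, d₀.aeval_congr _ 1 hk, map_one]
  have hsPi : sig Pi = P * aeval T₀ k := by
    have e3 : sig Pi = sig Pi * (sig P * (P * aeval T₀ k)) := by rw [e2, Matrix.mul_one]
    rw [e3, ← Matrix.mul_assoc, e1, Matrix.one_mul]
  have hQ : sig (P' * Pi) * (P' * Pi) = aeval T (k * h') := by
    have e4 : sig (P' * Pi) * (P' * Pi) = sig Pi * (sig P' * P') * Pi := by
      rw [sig_mul]; simp only [Matrix.mul_assoc]
    rw [e4, hsPi, hH', Matrix.mul_assoc P, ← map_mul, intertwine_aeval P T₀ T hPT,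
      Matrix.mul_assoc, hPPi, Matrix.mul_one]
  exact conj_of_square h2 d (P' * Pi) hQU (k * h') hQ s hs hsq

end Mat

end Cfsg.Agent.Helper14.RegUniSp2
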