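import Mathlib
import Cfsg.Agent.Helper14.RegUniSp2

/-!
Regular unipotent elements of `Sp_2m(q)`, `q` odd: existence, the twisted element, and the
count of classes.
-/

set_option autoImplicit false
open Polynomial
open scoped Matrix

namespace Cfsg.Agent.Helper14.RegUniSp3

open Cfsg.Agent.Helper14.RegUniSp Cfsg.Agent.Helper14.RegUniSp2

section Mat

open Matrix

variable {F : Type*} [Field F] {m : ℕ}

/-- the block diagonal matrix `diag(a, d)` -/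
noncomputable def dg (a d : F) : Matrix (Fin m ⊕ Fin m) (Fin m ⊕ Fin m) F :=
  Matrix.fromBlocks (a • (1 : Matrix (Fin m) (Fin m) F)) 0 0 (d • (1 : Matrix (Fin m) (Fin m) F))

theorem dg_mul (a d a' d' : F) : (dg a d : Matrix (Fin m ⊕ Fin m) (Fin m ⊕ Fin m) F) * dg a' d' = dg (a * a') (d * d') := by
  unfold dg
  rw [Matrix.fromBlocks_multiply]
  simp [smul_smul, mul_comm]

theorem dg_scalar (a : F) : (dg a a : Matrix (Fin m ⊕ Fin m) (Fin m ⊕ Fin m) F) = a • (1 : Matrix (Fin m ⊕ Fin m) (Fin m ⊕ Fin m) F) := by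
  unfold dg
  rw [← Matrix.fromBlocks_one, Matrix.fromBlocks_smul]
  simp

theorem sig_dg (a d : F) : sig (dg a d : Matrix (Fin m ⊕ Fin m) (Fin m ⊕ Fin m) F) = dg d a := by
  unfold sig dg Matrix.J
  rw [Matrix.fromBlocks_neg, Matrix.fromBlocks_transpose, Matrix.fromBlocks_multiply,
    Matrix.fromBlocks_multiply]
  simp

theorem exists_twist (ν : F) (hν : ν ≠ 0) (U₀ : Matrix (Fin m ⊕ Fin m) (Fin m ⊕ Fin m) F) (hsp : U₀ * sig U₀ = 1)
    (hnil : (U₀ - 1) ^ (2 * m) = 0) (hreg : (U₀ - 1).rank = 2 * m - 1) :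
    ∃ U₁ P Pi : Matrix (Fin m ⊕ Fin m) (Fin m ⊕ Fin m) F, U₁ * sig U₁ = 1 ∧ (U₁ - 1) ^ (2 * m) = 0 ∧ (U₁ - 1).rank = 2 * m - 1 ∧
      P * Pi = 1 ∧ Pi * P = 1 ∧ P * U₀ = U₁ * P ∧ sig P * P = ν • (1 : Matrix (Fin m ⊕ Fin m) (Fin m ⊕ Fin m) F) := by
  classical
  have hPPi : (dg ν 1 : Matrix (Fin m ⊕ Fin m) (Fin m ⊕ Fin m) F) * dg ν⁻¹ 1 = 1 := by
    rw [dg_mul, mul_inv_cancel₀ hν, mul_one, dg_scalar, one_smul]
  have hPiP : (dg ν⁻¹ 1 : Matrix (Fin m ⊕ Fin m) (Fin m ⊕ Fin m) F) * dg ν 1 = 1 := by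
    rw [dg_mul, inv_mul_cancel₀ hν, mul_one, dg_scalar, one_smul]
  have hsP : sig (dg ν 1 : Matrix (Fin m ⊕ Fin m) (Fin m ⊕ Fin m) F) = dg 1 ν := sig_dg ν 1
  have hsPi : sig (dg ν⁻¹ 1 : Matrix (Fin m ⊕ Fin m) (Fin m ⊕ Fin m) F) = dg 1 ν⁻¹ := sig_dg ν⁻¹ 1
  have hsPP : sig (dg ν 1 : Matrix (Fin m ⊕ Fin m) (Fin m ⊕ Fin m) F) * dg ν 1 = ν • (1 : Matrix (Fin m ⊕ Fin m) (Fin m ⊕ Fin m) F) := by
    rw [hsP, dg_mul, one_mul, mul_one, dg_scalar]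
  have hPsP : (dg ν 1 : Matrix (Fin m ⊕ Fin m) (Fin m ⊕ Fin m) F) * sig (dg ν 1 : Matrix (Fin m ⊕ Fin m) (Fin m ⊕ Fin m) F) = ν • (1 : Matrix (Fin m ⊕ Fin m) (Fin m ⊕ Fin m) F) := by
    rw [hsP, dg_mul, one_mul, mul_one, dg_scalar]
  have hPisPi : (dg ν⁻¹ 1 : Matrix (Fin m ⊕ Fin m) (Fin m ⊕ Fin m) F) * sig (dg ν⁻¹ 1 : Matrix (Fin m ⊕ Fin m) (Fin m ⊕ Fin m) F) = ν⁻¹ • (1 : Matrix (Fin m ⊕ Fin m) (Fin m ⊕ Fin m) F) := by
    rw [hsPi, dg_mul, one_mul, mul_one, dg_scalar]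
  have hconj : dg ν 1 * U₀ * dg ν⁻¹ 1 - 1 = dg ν 1 * (U₀ - 1) * dg ν⁻¹ 1 := by
    rw [Matrix.mul_sub, Matrix.sub_mul, Matrix.mul_one, hPPi]
  have hpow : ∀ k : ℕ, (dg ν 1 * (U₀ - 1) * dg ν⁻¹ 1) ^ k
      = dg ν 1 * (U₀ - 1) ^ k * dg ν⁻¹ 1 := by
    intro k
    induction k with
    | zero => rw [pow_zero, pow_zero, Matrix.mul_one, hPPi]
    | succ k ih =>
      rw [pow_succ, ih, pow_succ]
      have e : dg ν 1 * (U₀ - 1) ^ k * dg ν⁻¹ 1 * (dg ν 1 * (U₀ - 1) * dg ν⁻¹ 1)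
          = dg ν 1 * (U₀ - 1) ^ k * (dg ν⁻¹ 1 * dg ν 1) * (U₀ - 1) * dg ν⁻¹ 1 := by
        simp only [Matrix.mul_assoc]
      rw [e, hPiP, Matrix.mul_one]
      simp only [Matrix.mul_assoc]
  refine ⟨dg ν 1 * U₀ * dg ν⁻¹ 1, dg ν 1, dg ν⁻¹ 1, ?_, ?_, ?_, hPPi, hPiP, ?_, hsPP⟩
  · rw [sig_mul, sig_mul]
    have e1 : dg ν 1 * U₀ * dg ν⁻¹ 1 * (sig (dg ν⁻¹ 1 : Matrix (Fin m ⊕ Fin m) (Fin m ⊕ Fin m) F) * (sig U₀ * sig (dg ν 1 : Matrix (Fin m ⊕ Fin m) (Fin m ⊕ Fin m) F)))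
        = dg ν 1 * U₀ * (dg ν⁻¹ 1 * sig (dg ν⁻¹ 1 : Matrix (Fin m ⊕ Fin m) (Fin m ⊕ Fin m) F)) * sig U₀ * sig (dg ν 1 : Matrix (Fin m ⊕ Fin m) (Fin m ⊕ Fin m) F) := by
      simp only [Matrix.mul_assoc]
    rw [e1, hPisPi, Matrix.mul_smul, Matrix.mul_one, Matrix.smul_mul, Matrix.smul_mul,
      Matrix.mul_assoc (dg ν 1) U₀, hsp, Matrix.mul_one, hPsP, smul_smul, inv_mul_cancel₀ hν,
      one_smul]
  · rw [hconj, hpow, hnil, Matrix.mul_zero, Matrix.zero_mul]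
  · rw [hconj, Matrix.rank_mul_eq_left_of_isUnit_det _ _ (Matrix.isUnit_det_of_right_inverse hPiP),
      Matrix.rank_mul_eq_right_of_isUnit_det _ _ (Matrix.isUnit_det_of_right_inverse hPPi), hreg]
  · rw [Matrix.mul_assoc (dg ν 1 * U₀), hPiP, Matrix.mul_one]

end Mat

section Exist

variable {F : Type*} [Field F]

/-- a symplectic matrix acting as multiplication by the root on `F[X]/(f)` -/
theorem exists_sp_root [Finite F] (n : ℕ) (hn : 1 ≤ n) (f : F[X]) (hm : f.Monic)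
    (hd : f.natDegree = 2 * n) (hr : f.reverse = f) :
    ∃ (G : Matrix (Fin n ⊕ Fin n) (Fin n ⊕ Fin n) F)
      (e : AdjoinRoot f ≃ₗ[F] (Fin n ⊕ Fin n → F)),
      G ∈ Matrix.symplecticGroup (Fin n) F ∧
        ∀ u, Matrix.toLin' G u = e (AdjoinRoot.root f * e.symm u) := by
  classical
  haveI : Module.Finite F (AdjoinRoot f) := hm.finite_adjoinRoot
  obtain ⟨B, hB⟩ := SpPal.exists_good n hn f hm hd hr
  have hfr : Module.finrank F (AdjoinRoot f) = n + n := by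
    rw [(AdjoinRoot.powerBasis hm.ne_zero).finrank, AdjoinRoot.powerBasis_dim, hd]; ring
  have hfr' : Module.finrank F (Fin n ⊕ Fin n → F) = n + n := by simp
  have hG1 : SpConj.Good B (LinearMap.id) := ⟨hB.1, hB.2.1, fun a b => rfl⟩
  have hG2 : SpConj.Good (Cfsg.Agent.S0766.sB n F) (LinearMap.id) :=
    ⟨fun x => (Cfsg.Agent.S0766.sB_alt n F).self_eq_zero x, (Cfsg.Agent.S0766.sB_nondeg n F).1,
      fun a b => rfl⟩
  obtain ⟨ψ, hψ, -⟩ := SpConj.sp_conj (F := F) (n + n) (AdjoinRoot f) (Fin n ⊕ Fin n → F) B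
    (Cfsg.Agent.S0766.sB n F) LinearMap.id LinearMap.id hfr hG1 hG2
    Module.End.isSemisimple_id Module.End.isSemisimple_id (by
      have e1 : (LinearMap.id : Module.End F (AdjoinRoot f)) = 1 := rfl
      have e2 : (LinearMap.id : Module.End F (Fin n ⊕ Fin n → F)) = 1 := rfl
      rw [e1, e2, LinearMap.charpoly_one, LinearMap.charpoly_one, hfr, hfr'])
  have hinj : Function.Injective ψ := by
    rw [injective_iff_map_eq_zero]
    intro a ha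
    apply hB.2.1
    intro b
    rw [← hψ, ha, map_zero, LinearMap.zero_apply]
  obtain ⟨e, he⟩ : ∃ e : AdjoinRoot f ≃ₗ[F] (Fin n ⊕ Fin n → F), ∀ a, e a = ψ a :=
    ⟨LinearMap.linearEquivOfInjective ψ hinj (by rw [hfr, hfr']),
      fun a => LinearMap.linearEquivOfInjective_apply hinj _ a⟩
  obtain ⟨T, hT⟩ : ∃ T : Module.End F (Fin n ⊕ Fin n → F),
      T = e.conj (LinearMap.mulLeft F (AdjoinRoot.root f)) := ⟨_, rfl⟩
  have hTu : ∀ u, T u = e (AdjoinRoot.root f * e.symm u) := by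
    intro u; rw [hT]; rfl
  have hTiso : ∀ u v, Cfsg.Agent.S0766.sB n F (T u) (T v) = Cfsg.Agent.S0766.sB n F u v := by
    intro u v
    have h1 := hB.2.2 (e.symm u) (e.symm v)
    rw [LinearMap.mulLeft_apply, LinearMap.mulLeft_apply] at h1
    rw [hTu, hTu, he, he, hψ, h1, ← hψ, ← he, ← he, e.apply_symm_apply, e.apply_symm_apply]
  refine ⟨LinearMap.toMatrix' T, e, ?_, ?_⟩
  · rw [SymplecticGroup.mem_iff']
    apply Matrix.toBilin'.injective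
    rw [← Matrix.toBilin'_comp, Matrix.toLin'_toMatrix']
    apply LinearMap.ext₂
    intro u v
    exact hTiso u v
  · intro u
    rw [Matrix.toLin'_toMatrix']
    exact hTu u

theorem natDegree_X_sub_one' : (X - 1 : F[X]).natDegree = 1 := by
  have h := Polynomial.natDegree_X_sub_C (1 : F)
  rwa [map_one] at h

/-- a regular unipotent symplectic matrix exists -/
theorem exists_reg [Finite F] {m : ℕ} (hm : 1 ≤ m) :
    ∃ G : Matrix (Fin m ⊕ Fin m) (Fin m ⊕ Fin m) F, G ∈ Matrix.symplecticGroup (Fin m) F ∧ (G - 1) ^ (2 * m) = 0 ∧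
      (G - 1).rank = 2 * m - 1 := by
  classical
  obtain ⟨f, hf⟩ : ∃ f : F[X], f = (X - 1) ^ (2 * m) := ⟨_, rfl⟩
  have hX1 : (X - 1 : F[X]).Monic := PrimeOrdSp.X_sub_one_monic
  have hfm : f.Monic := by rw [hf]; exact hX1.pow _
  have hfd : f.natDegree = 2 * m := by
    rw [hf, hX1.natDegree_pow, natDegree_X_sub_one', mul_one]
  have hfr : f.reverse = f := by
    rw [hf, ← PrimeOrdSp.revHom_apply, map_pow, PrimeOrdSp.revHom_apply,
      PrimeOrdSp.reverse_X_sub_one, Even.neg_pow (even_two_mul m)]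
  obtain ⟨G, e, hG, hGe⟩ := exists_sp_root m hm f hfm hfd hfr
  have hρ : ∀ k : ℕ, (AdjoinRoot.root f - 1) ^ k = AdjoinRoot.mk f ((X - 1) ^ k) := by
    intro k; rw [map_pow, map_sub, AdjoinRoot.mk_X, map_one]
  have hρn : (AdjoinRoot.root f - 1) ^ (2 * m) = 0 := by
    rw [hρ, ← hf, AdjoinRoot.mk_self]
  have hρn1 : (AdjoinRoot.root f - 1) ^ (2 * m - 1) ≠ 0 := by
    rw [hρ, Ne, AdjoinRoot.mk_eq_zero]
    intro hdvd
    have h1 := Polynomial.natDegree_le_of_dvd hdvd (pow_ne_zero _ hX1.ne_zero)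
    rw [hfd, hX1.natDegree_pow, natDegree_X_sub_one'] at h1
    omega
  obtain ⟨L, hL⟩ : ∃ L : Module.End F (Fin m ⊕ Fin m → F), L = Matrix.toLinAlgEquiv' (G - 1) :=
    ⟨_, rfl⟩
  have hLx : ∀ x, L x = e ((AdjoinRoot.root f - 1) * e.symm x) := by
    intro x
    have h1 := hGe x
    rw [Matrix.toLin'_apply] at h1
    rw [hL, Matrix.toLinAlgEquiv'_apply, Matrix.sub_mulVec, Matrix.one_mulVec, sub_mul, one_mul,
      map_sub, e.apply_symm_apply, h1]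
  have hLk : ∀ (k : ℕ) (x), (L ^ k) x = e ((AdjoinRoot.root f - 1) ^ k * e.symm x) := by
    intro k
    induction k with
    | zero =>
      intro x
      rw [pow_zero, pow_zero, one_mul, e.apply_symm_apply]
      rfl
    | succ k ih =>
      intro x
      rw [pow_succ, Module.End.mul_apply, ih, hLx, e.symm_apply_apply, pow_succ, mul_assoc]
  have hLn : L ^ (2 * m) = 0 := by
    apply LinearMap.ext
    intro x
    rw [hLk, hρn, zero_mul, map_zero]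
    rfl
  have hLn1 : (L ^ (2 * m - 1)) (e 1) ≠ 0 := by
    rw [hLk, e.symm_apply_apply, mul_one]
    intro h0
    exact hρn1 (e.map_eq_zero_iff.mp h0)
  refine ⟨G, hG, ?_, ?_⟩
  · have h1 : Matrix.toLinAlgEquiv' ((G - 1) ^ (2 * m)) = 0 := by
      rw [map_pow, ← hL, hLn]
    exact (Matrix.toLinAlgEquiv' (R := F) (n := Fin m ⊕ Fin m)).injective
      (h1.trans (map_zero _).symm)
  · have h1 := finrank_range_of_cyclic L (2 * m) (by omega) finrank_fun hLn (e 1) hLn1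
    rw [hL] at h1
    exact h1

end Exist

section Count

open Matrix

variable {F : Type*} [Field F] {m : ℕ}

/-- regular unipotent elements of `Sp_2m(q)`, `q` odd, form exactly two classes -/
theorem card_reg_classes [Fintype F] (h2 : (2 : F) ≠ 0) (hm : 1 ≤ m) :
    Nat.card {C : ConjClasses ↥(Matrix.symplecticGroup (Fin m) F) //
      ∃ u : Matrix.symplecticGroup (Fin m) F, ConjClasses.mk u = C ∧
        ((u : Matrix (Fin m ⊕ Fin m) (Fin m ⊕ Fin m) F) - 1) ^ (2 * m) = 0 ∧ ((u : Matrix (Fin m ⊕ Fin m) (Fin m ⊕ Fin m) F) - 1).rank = 2 * m - 1} = 2 := by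
  classical
  have hchar : ringChar F ≠ 2 := by
    intro h
    apply h2
    have h1 := CharP.cast_eq_zero F (ringChar F)
    rw [h] at h1
    exact_mod_cast h1
  obtain ⟨ν, hν⟩ := FiniteField.exists_nonsquare hchar
  have hν0 : ν ≠ 0 := by
    rintro rfl
    exact hν ⟨0, by rw [mul_zero]⟩
  obtain ⟨U₀, hU₀mem, hU₀nil, hU₀reg⟩ := exists_reg (F := F) hm
  have hU₀sp : U₀ * sig U₀ = 1 := (mem_sp_iff U₀).mp hU₀mem
  have d₀ := regData h2 hm U₀ hU₀sp hU₀nil hU₀reg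
  obtain ⟨U₁, P₀, P₀i, hU₁sp, hU₁nil, hU₁reg, hP₀1, hP₀2, hP₀U, hP₀H⟩ :=
    exists_twist ν hν0 U₀ hU₀sp hU₀nil hU₀reg
  have hU₁mem : U₁ ∈ Matrix.symplecticGroup (Fin m) F := (mem_sp_iff U₁).mpr hU₁sp
  have d₁ := regData h2 hm U₁ hU₁sp hU₁nil hU₁reg
  have hdata : ∀ U : Matrix (Fin m ⊕ Fin m) (Fin m ⊕ Fin m) F, U * sig U = 1 → (U - 1) ^ (2 * m) = 0 → (U - 1).rank = 2 * m - 1 →
      ∃ (P Pi : Matrix (Fin m ⊕ Fin m) (Fin m ⊕ Fin m) F) (h : F[X]), P * Pi = 1 ∧ Pi * P = 1 ∧ P * U₀ = U * P ∧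
        sig P * P = aeval (U₀ - sig U₀) h ∧ h.coeff 0 ≠ 0 := by
    intro U hsp hnil hreg
    obtain ⟨P, Pi, h1, h2', h3⟩ :=
      exists_intertwiner_mat hm (U₀ - 1) (U - 1) hU₀nil hnil hU₀reg hreg
    have hPU : P * U₀ = U * P := by
      have e : P * U₀ - P = U * P - P := by
        rw [Matrix.mul_sub, Matrix.sub_mul, Matrix.mul_one, Matrix.one_mul] at h3
        exact h3
      exact sub_left_inj.mp e
    obtain ⟨h, hH, h0⟩ := exists_h hm d₀ (mul_eq_one_comm.mp hsp) P Pi h1 h2' hPU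
    exact ⟨P, Pi, h, h1, h2', hPU, hH, h0⟩
  obtain ⟨u₀, hu₀⟩ : ∃ u₀ : Matrix.symplecticGroup (Fin m) F, (u₀ : Matrix (Fin m ⊕ Fin m) (Fin m ⊕ Fin m) F) = U₀ :=
    ⟨⟨U₀, hU₀mem⟩, rfl⟩
  obtain ⟨u₁, hu₁⟩ : ∃ u₁ : Matrix.symplecticGroup (Fin m) F, (u₁ : Matrix (Fin m ⊕ Fin m) (Fin m ⊕ Fin m) F) = U₁ :=
    ⟨⟨U₁, hU₁mem⟩, rfl⟩
  have hone : sig (1 : Matrix (Fin m ⊕ Fin m) (Fin m ⊕ Fin m) F) * 1 = aeval (U₀ - sig U₀) (1 : F[X]) := by
    rw [sig_one, Matrix.mul_one, map_one]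
  have hnu : sig P₀ * P₀ = aeval (U₀ - sig U₀) (C ν : F[X]) := by
    rw [hP₀H, aeval_C, Algebra.algebraMap_eq_smul_one]
  have hconj : ∀ (u u' : Matrix.symplecticGroup (Fin m) F) (g : Matrix (Fin m ⊕ Fin m) (Fin m ⊕ Fin m) F), g * sig g = 1 →
      g * (u : Matrix (Fin m ⊕ Fin m) (Fin m ⊕ Fin m) F) = (u' : Matrix (Fin m ⊕ Fin m) (Fin m ⊕ Fin m) F) * g → ConjClasses.mk u = ConjClasses.mk u' := by
    intro u u' g hg hgu
    rw [ConjClasses.mk_eq_mk_iff_isConj, isConj_iff]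
    refine ⟨⟨g, (mem_sp_iff g).mpr hg⟩, ?_⟩
    rw [mul_inv_eq_iff_eq_mul]
    apply Subtype.ext
    exact hgu
  have hmem₀ : ∃ u : Matrix.symplecticGroup (Fin m) F, ConjClasses.mk u = ConjClasses.mk u₀ ∧
      ((u : Matrix (Fin m ⊕ Fin m) (Fin m ⊕ Fin m) F) - 1) ^ (2 * m) = 0 ∧ ((u : Matrix (Fin m ⊕ Fin m) (Fin m ⊕ Fin m) F) - 1).rank = 2 * m - 1 :=
    ⟨u₀, rfl, by rw [hu₀]; exact hU₀nil, by rw [hu₀]; exact hU₀reg⟩
  have hmem₁ : ∃ u : Matrix.symplecticGroup (Fin m) F, ConjClasses.mk u = ConjClasses.mk u₁ ∧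
      ((u : Matrix (Fin m ⊕ Fin m) (Fin m ⊕ Fin m) F) - 1) ^ (2 * m) = 0 ∧ ((u : Matrix (Fin m ⊕ Fin m) (Fin m ⊕ Fin m) F) - 1).rank = 2 * m - 1 :=
    ⟨u₁, rfl, by rw [hu₁]; exact hU₁nil, by rw [hu₁]; exact hU₁reg⟩
  rw [Nat.card_eq_two_iff]
  refine ⟨⟨ConjClasses.mk u₀, hmem₀⟩, ⟨ConjClasses.mk u₁, hmem₁⟩, ?_, ?_⟩
  · intro heq
    have heq' : ConjClasses.mk u₀ = ConjClasses.mk u₁ := congrArg Subtype.val heq
    rw [ConjClasses.mk_eq_mk_iff_isConj, isConj_iff] at heq'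
    obtain ⟨c, hc⟩ := heq'
    rw [mul_inv_eq_iff_eq_mul] at hc
    have hcg : (c : Matrix (Fin m ⊕ Fin m) (Fin m ⊕ Fin m) F) * U₀ = U₁ * (c : Matrix (Fin m ⊕ Fin m) (Fin m ⊕ Fin m) F) := by
      rw [← hu₀, ← hu₁]
      exact congrArg Subtype.val hc
    have hcs : (c : Matrix (Fin m ⊕ Fin m) (Fin m ⊕ Fin m) F) * sig (c : Matrix (Fin m ⊕ Fin m) (Fin m ⊕ Fin m) F) = 1 := (mem_sp_iff _).mp c.2
    have hiff := square_iff hm d₀ 1 P₀ P₀i (c : Matrix (Fin m ⊕ Fin m) (Fin m ⊕ Fin m) F) hP₀2 hP₀1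
      (by rw [Matrix.one_mul, Matrix.mul_one]) hP₀U (mul_eq_one_comm.mp hcs) hcg 1 (C ν) hone hnu
      (by rw [coeff_one_zero]; exact one_ne_zero)
    rw [coeff_one_zero, coeff_C_zero] at hiff
    exact hν (hiff.mp ⟨1, (mul_one 1).symm⟩)
  · apply Set.eq_univ_of_forall
    rintro ⟨C, u, rfl, hnil, hreg⟩
    rw [Set.mem_insert_iff, Set.mem_singleton_iff]
    have husp : (u : Matrix (Fin m ⊕ Fin m) (Fin m ⊕ Fin m) F) * sig (u : Matrix (Fin m ⊕ Fin m) (Fin m ⊕ Fin m) F) = 1 := (mem_sp_iff _).mp u.2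
    obtain ⟨P, Pi, h, hPPi, hPiP, hPU, hH, h0⟩ := hdata (u : Matrix (Fin m ⊕ Fin m) (Fin m ⊕ Fin m) F) husp hnil hreg
    by_cases hsq : IsSquare (h.coeff 0)
    · left
      obtain ⟨s, hs⟩ := hsq
      have hs0 : s ≠ 0 := by
        rintro rfl
        rw [mul_zero] at hs
        exact h0 hs
      obtain ⟨g, hg, hgU⟩ := conj_of_ratio h2 d₀ d₀ 1 1 P (Matrix.one_mul 1) (Matrix.one_mul 1)
        (by rw [Matrix.one_mul, Matrix.mul_one]) hPU 1 h hone hH 1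
        (by rw [one_mul, sub_self]; exact dvd_zero _) s hs0 (by rw [one_mul]; exact hs)
      apply Subtype.ext
      show ConjClasses.mk u = ConjClasses.mk u₀
      exact (hconj u₀ u g hg (by rw [hu₀]; exact hgU)).symm
    · right
      obtain ⟨s, hs0, hs⟩ := ratio_square ν (h.coeff 0) ν⁻¹ hν0 h0 (inv_mul_cancel₀ hν0)
        (iff_of_false hν hsq)
      obtain ⟨g, hg, hgU⟩ := conj_of_ratio h2 d₀ d₁ P₀ P₀i P hP₀1 hP₀2 hP₀U hPU (C ν) h hnu hH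
        (C ν⁻¹) (by rw [← C_mul, inv_mul_cancel₀ hν0, C_1, sub_self]; exact dvd_zero _) s hs0
        (by rw [mul_coeff_zero, coeff_C_zero]; exact hs)
      apply Subtype.ext
      show ConjClasses.mk u = ConjClasses.mk u₁
      exact (hconj u₁ u g hg (by rw [hu₁]; exact hgU)).symm

end Count

end Cfsg.Agent.Helper14.RegUniSp3
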