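import Mathlib
import Cfsg.Prelude.Def_JordanBlocks
import Cfsg.Agent.Helper14.RegUniSp3
import Cfsg.Agent.Helper16.Jordan
import Cfsg.Agent.Helper2.SpDarboux
import Cfsg.Agent.Helper2.SpEmbed

/-!
Jordan types of unipotent elements of symplectic groups: odd parts occur with even multiplicity.
This file: the Jordan matrix and its chain data, ranks, the parity argument, and tools for chain
data of products.
-/

set_option autoImplicit false
open Polynomial
open scoped Matrix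

namespace Cfsg.Agent.Helper14.JordSp

open Cfsg.Agent.Helper16.Jordan Cfsg.Agent.Helper14.RegUniSp

section JordanMatrix

variable {F : Type*} [Field F]

theorem jordan_mulVec_single {t : ℕ} (d : Fin t → ℕ) (k : Fin t) (l : ℕ) (hl : l < d k) :
    (Cfsg.jordanTypeMatrix d F - 1) *ᵥ
        (Pi.single (⟨k, ⟨l, hl⟩⟩ : (k : Fin t) × Fin (d k)) (1 : F)) =
      if h : l + 1 < d k then Pi.single (⟨k, ⟨l + 1, h⟩⟩ : (k : Fin t) × Fin (d k)) (1 : F)
      else 0 := by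
  classical
  funext x
  obtain ⟨k', a⟩ := x
  rw [Matrix.mulVec_single_one, Matrix.col_apply, Matrix.sub_apply, Matrix.one_apply]
  unfold Cfsg.jordanTypeMatrix
  rw [Matrix.blockDiagonal'_apply']
  by_cases hk : k' = k
  · subst hk
    rw [dif_pos rfl]
    have hJ : Cfsg.jordanBlock (d k') F a
        (cast (congr_arg (fun i => Fin (d i)) (rfl : k' = k').symm) ⟨l, hl⟩) =
        if (a : ℕ) = l then 1 else if (a : ℕ) = l + 1 then 1 else 0 := rfl
    rw [hJ]
    have hone : ((⟨k', a⟩ : (k : Fin t) × Fin (d k)) = ⟨k', ⟨l, hl⟩⟩) ↔ (a : ℕ) = l := by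
      constructor
      · intro h
        have h2 := eq_of_heq (Sigma.mk.inj h).2
        rw [h2]
      · intro h
        have h2 : a = ⟨l, hl⟩ := Fin.ext h
        rw [h2]
    by_cases h1 : (a : ℕ) = l
    · rw [if_pos h1, if_pos (hone.mpr h1), sub_self]
      split_ifs with h
      · rw [Pi.single_apply, if_neg]
        intro h3
        have h4 := eq_of_heq (Sigma.mk.inj h3).2
        have h5 : (a : ℕ) = l + 1 := by rw [h4]
        omega
      · rfl
    · rw [if_neg h1, if_neg (fun h => h1 (hone.mp h)), sub_zero]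
      by_cases h2 : (a : ℕ) = l + 1
      · have h3 : l + 1 < d k' := by rw [← h2]; exact a.2
        rw [if_pos h2, dif_pos h3, Pi.single_apply, if_pos]
        have h4 : a = ⟨l + 1, h3⟩ := Fin.ext h2
        rw [h4]
      · rw [if_neg h2]
        split_ifs with h
        · rw [Pi.single_apply, if_neg]
          intro h3
          have h4 := eq_of_heq (Sigma.mk.inj h3).2
          apply h2
          rw [h4]
        · rfl
  · rw [dif_neg hk, if_neg, sub_zero]
    · split_ifs with h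
      · rw [Pi.single_apply, if_neg]
        intro h3
        exact hk (Sigma.mk.inj h3).1
      · rfl
    · intro h3
      exact hk (Sigma.mk.inj h3).1

theorem jordan_JD {t : ℕ} (d : Fin t → ℕ) (hd : ∀ k, 1 ≤ d k) :
    JD (Matrix.toLin' (Cfsg.jordanTypeMatrix d F - 1)) ⊤ d
      (fun k => Pi.single (⟨k, ⟨0, hd k⟩⟩ : (k : Fin t) × Fin (d k)) (1 : F)) := by
  classical
  have hchain : ∀ (k : Fin t) (l : ℕ) (hl : l < d k),
      ((Matrix.toLin' (Cfsg.jordanTypeMatrix d F - 1)) ^ l)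
        (Pi.single (⟨k, ⟨0, hd k⟩⟩ : (k : Fin t) × Fin (d k)) (1 : F)) =
        Pi.single (⟨k, ⟨l, hl⟩⟩ : (k : Fin t) × Fin (d k)) (1 : F) := by
    intro k l
    induction l with
    | zero => intro hl; rw [pow_zero, Module.End.one_apply]
    | succ l ih =>
      intro hl
      have hl' : l < d k := by omega
      rw [pow_succ_apply, ih hl', Matrix.toLin'_apply, jordan_mulVec_single d k l hl', dif_pos hl]
  have hfam : fam (Matrix.toLin' (Cfsg.jordanTypeMatrix d F - 1)) d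
      (fun k => Pi.single (⟨k, ⟨0, hd k⟩⟩ : (k : Fin t) × Fin (d k)) (1 : F)) =
      ⇑(Pi.basisFun F ((k : Fin t) × Fin (d k))) := by
    funext ⟨k, l⟩
    rw [Pi.basisFun_apply]
    exact hchain k l l.2
  refine ⟨fun k => ?_, ?_, ?_⟩
  · have hj' : d k - 1 < d k := by have := hd k; omega
    have hnj : ¬ (d k - 1) + 1 < d k := by omega
    have e1 : ((Matrix.toLin' (Cfsg.jordanTypeMatrix d F - 1)) ^ (d k - 1 + 1))
        (Pi.single (⟨k, ⟨0, hd k⟩⟩ : (k : Fin t) × Fin (d k)) (1 : F)) = 0 := by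
      rw [pow_succ_apply, hchain k (d k - 1) hj', Matrix.toLin'_apply,
        jordan_mulVec_single d k (d k - 1) hj', dif_neg hnj]
    exact pow_zero_of_le _ _ _ e1 (d k) (by omega)
  · rw [hfam]
    exact (Pi.basisFun F _).linearIndependent
  · rw [hfam]
    exact (Pi.basisFun F _).span_eq

theorem rank_pow_conj {ι : Type*} [Fintype ι] [DecidableEq ι] (X Y c ci : Matrix ι ι F)
    (h1 : c * ci = 1) (h : c * X = Y * c) (j : ℕ) :
    ((Y - 1) ^ j).rank = ((X - 1) ^ j).rank := by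
  have h2 : c * (X - 1) = (Y - 1) * c := by
    rw [Matrix.mul_sub, Matrix.sub_mul, h, Matrix.mul_one, Matrix.one_mul]
  have h3 : ∀ j : ℕ, c * (X - 1) ^ j = (Y - 1) ^ j * c := by
    intro j
    induction j with
    | zero => rw [pow_zero, pow_zero, mul_one, one_mul]
    | succ j ih => rw [pow_succ, ← mul_assoc, ih, mul_assoc, h2, ← mul_assoc, ← pow_succ]
  have hc : IsUnit c.det := Matrix.isUnit_det_of_right_inverse h1
  rw [← Matrix.rank_mul_eq_left_of_isUnit_det c ((Y - 1) ^ j) hc, ← h3,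
    Matrix.rank_mul_eq_right_of_isUnit_det c _ hc]

theorem rank_jordan_pow {t : ℕ} (d : Fin t → ℕ) (hd : ∀ k, 1 ≤ d k) (j : ℕ) :
    ((Cfsg.jordanTypeMatrix d F - 1) ^ j).rank = ∑ k, (d k - j) := by
  have h1 := (jordan_JD (F := F) d hd).finrank_range_pow j
  have e : (Matrix.toLin' (Cfsg.jordanTypeMatrix d F - 1)) ^ j =
      Matrix.toLin' ((Cfsg.jordanTypeMatrix d F - 1) ^ j) := by
    have h2 : Matrix.toLin' (Cfsg.jordanTypeMatrix d F - 1) =
        Matrix.toLinAlgEquiv' (Cfsg.jordanTypeMatrix d F - 1) := rfl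
    have h3 : Matrix.toLin' ((Cfsg.jordanTypeMatrix d F - 1) ^ j) =
        Matrix.toLinAlgEquiv' ((Cfsg.jordanTypeMatrix d F - 1) ^ j) := rfl
    rw [h2, h3, map_pow]
  rw [Matrix.rank, ← Matrix.toLin'_apply', ← e, h1]

theorem rank_of_isConj {m t : ℕ} (d : Fin t → ℕ) (hd : ∀ k, 1 ≤ d k)
    (e : ((k : Fin t) × Fin (d k)) ≃ (Fin m ⊕ Fin m)) (A : Matrix (Fin m ⊕ Fin m) (Fin m ⊕ Fin m) F)
    (h : IsConj (Matrix.reindex e e (Cfsg.jordanTypeMatrix d F)) A) (j : ℕ) :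
    ((A - 1) ^ j).rank = ∑ k, (d k - j) := by
  obtain ⟨c, hc⟩ := h
  rw [rank_pow_conj _ A (c : Matrix (Fin m ⊕ Fin m) (Fin m ⊕ Fin m) F) ((c⁻¹ : (Matrix (Fin m ⊕ Fin m) (Fin m ⊕ Fin m) F)ˣ) : Matrix (Fin m ⊕ Fin m) (Fin m ⊕ Fin m) F) c.mul_inv hc.eq j]
  have e1 : (Matrix.reindex e e (Cfsg.jordanTypeMatrix d F) - 1) ^ j =
      Matrix.reindex e e ((Cfsg.jordanTypeMatrix d F - 1) ^ j) := by
    have h1 : ∀ M : Matrix ((k : Fin t) × Fin (d k)) ((k : Fin t) × Fin (d k)) F,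
        Matrix.reindex e e M = Matrix.reindexAlgEquiv F F e M := fun M => rfl
    rw [h1, h1, map_pow, map_sub, map_one]
  rw [e1, Matrix.rank_reindex, rank_jordan_pow d hd j]

theorem count_eq_card {t : ℕ} (d : Fin t → ℕ) (j : ℕ) :
    Multiset.count j (Finset.univ.val.map d) =
      (Finset.univ.filter (fun k : Fin t => d k = j)).card := by
  classical
  rw [Multiset.count_map, ← Finset.filter_val, ← Finset.card_def]
  congr 1
  ext k
  simp [eq_comm]

end JordanMatrix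

section Parity

variable {F : Type*} [Field F] {m : ℕ}

theorem sB_adj (X : Matrix (Fin m ⊕ Fin m) (Fin m ⊕ Fin m) F) (u v : Fin m ⊕ Fin m → F) :
    Cfsg.Agent.S0766.sB m F (X *ᵥ u) v = Cfsg.Agent.S0766.sB m F u (sig X *ᵥ v) := by
  unfold Cfsg.Agent.S0766.sB
  rw [Matrix.toBilin'_apply', Matrix.toBilin'_apply', Matrix.mulVec_mulVec]
  have h1 : Matrix.J (Fin m) F * sig X = Xᵀ * Matrix.J (Fin m) F := by
    unfold sig
    rw [← Matrix.mul_assoc, ← Matrix.mul_assoc, J_mul_neg_J, Matrix.one_mul]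
  rw [h1, ← Matrix.mulVec_mulVec, Matrix.dotProduct_mulVec u, Matrix.vecMul_transpose]

theorem even_rank_of_alt (M : Matrix (Fin m ⊕ Fin m) (Fin m ⊕ Fin m) F)
    (halt : ∀ u, Cfsg.Agent.S0766.sB m F (M *ᵥ u) u = 0) : Even M.rank := by
  classical
  obtain ⟨L, hL⟩ : ∃ L : Module.End F (Fin m ⊕ Fin m → F), L = Matrix.toLin' M := ⟨_, rfl⟩
  have hLu : ∀ u, L u = M *ᵥ u := by intro u; rw [hL, Matrix.toLin'_apply]
  obtain ⟨β, hβ⟩ : ∃ β : LinearMap.BilinForm F (Fin m ⊕ Fin m → F),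
      ∀ u v, β u v = Cfsg.Agent.S0766.sB m F (L u) v :=
    ⟨(Cfsg.Agent.S0766.sB m F).comp L LinearMap.id, fun u v => rfl⟩
  have hβalt : β.IsAlt := by
    intro u; rw [hβ, hLu]; exact halt u
  obtain ⟨W, hW⟩ := Submodule.exists_isCompl (LinearMap.ker L)
  have hWnd : ∀ a ∈ W, a ≠ 0 → ∃ w ∈ W, β a w ≠ 0 := by
    intro a haW ha0
    by_contra hcon
    push_neg at hcon
    apply ha0
    have hLa : L a = 0 := by
      apply (Cfsg.Agent.S0766.sB_nondeg m F).1
      intro v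
      have hv : v ∈ LinearMap.ker L ⊔ W := by rw [hW.sup_eq_top]; exact Submodule.mem_top
      obtain ⟨r, hr, w, hw, rfl⟩ := Submodule.mem_sup.mp hv
      rw [← hβ, map_add, hcon w hw, add_zero, ← hβalt.neg_eq r a, hβ, LinearMap.mem_ker.mp hr,
        map_zero, LinearMap.zero_apply, neg_zero]
    have hmem : a ∈ LinearMap.ker L ⊓ W := ⟨LinearMap.mem_ker.mpr hLa, haW⟩
    rw [hW.inf_eq_bot] at hmem
    exact (Submodule.mem_bot F).mp hmem
  obtain ⟨j, p, q, hyp, hp, hq, hspan⟩ := Helper2.SpDecomp.darboux β hβalt W hWnd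
  have hli := Helper2.SpDecomp.hyp_li β p q hyp
  have h1 : Module.finrank F W = j + j := by
    rw [← hspan, finrank_span_eq_card hli, Fintype.card_sum, Fintype.card_fin]
  have h2 := Submodule.finrank_add_eq_of_isCompl hW
  have h3 := LinearMap.finrank_range_add_finrank_ker L
  have h4 : M.rank = Module.finrank F (LinearMap.range L) := by
    rw [hL, Matrix.rank, Matrix.toLin'_apply']
  exact ⟨j, by omega⟩

theorem even_rank_sp (A : Matrix (Fin m ⊕ Fin m) (Fin m ⊕ Fin m) F) (hA : A * sig A = 1) (k : ℕ) :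
    Even ((A - 1) ^ (2 * k)).rank := by
  have hA' : sig A * A = 1 := mul_eq_one_comm.mp hA
  obtain ⟨N, hN⟩ : ∃ N : Matrix (Fin m ⊕ Fin m) (Fin m ⊕ Fin m) F, N = A - 1 := ⟨_, rfl⟩
  rw [← hN]
  have hsN : sig N = (-sig A) * N := by
    rw [hN, sig_sub, sig_one, Matrix.mul_sub, Matrix.mul_one, neg_mul, hA']
    abel
  have hcomm : Commute (-sig A) N := by
    show (-sig A) * N = N * (-sig A)
    rw [hN, Matrix.mul_sub, Matrix.sub_mul, Matrix.mul_one, Matrix.one_mul, neg_mul, mul_neg,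
      hA, hA']
  have hpow : (sig N) ^ k = (-sig A) ^ k * N ^ k := by rw [hsN, hcomm.mul_pow]
  obtain ⟨M, hM⟩ : ∃ M : Matrix (Fin m ⊕ Fin m) (Fin m ⊕ Fin m) F, M = N ^ k * (sig N) ^ k := ⟨_, rfl⟩
  have hMalt : ∀ u, Cfsg.Agent.S0766.sB m F (M *ᵥ u) u = 0 := by
    intro u
    rw [hM, ← Matrix.mulVec_mulVec, sB_adj, sig_pow]
    exact (Cfsg.Agent.S0766.sB_alt m F).self_eq_zero _
  have hM2 : M = (-sig A) ^ k * N ^ (2 * k) := by
    rw [hM, hpow, ← mul_assoc, ← (hcomm.pow_pow k k).eq, mul_assoc, ← pow_add, ← two_mul]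
  have hU : (-sig A) ^ k * (-A) ^ k = 1 := by
    have hc2 : Commute (-sig A) (-A) := by
      show (-sig A) * (-A) = (-A) * (-sig A)
      rw [neg_mul_neg, neg_mul_neg, hA, hA']
    rw [← hc2.mul_pow, neg_mul_neg, hA', one_pow]
  have h := even_rank_of_alt M hMalt
  rw [hM2, Matrix.rank_mul_eq_right_of_isUnit_det _ _ (Matrix.isUnit_det_of_right_inverse hU)]
    at h
  exact h

/-- the parity condition is necessary -/
theorem odd_even_of_sp {t : ℕ} (d : Fin t → ℕ) (hd : ∀ k, 1 ≤ d k)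
    (e : ((k : Fin t) × Fin (d k)) ≃ (Fin m ⊕ Fin m)) (A : Matrix (Fin m ⊕ Fin m) (Fin m ⊕ Fin m) F)
    (hA : A ∈ Matrix.symplecticGroup (Fin m) F)
    (h : IsConj (Matrix.reindex e e (Cfsg.jordanTypeMatrix d F)) A) (j : ℕ) (hj : Odd j) :
    Even (Finset.univ.filter (fun k : Fin t => d k = j)).card := by
  classical
  have hsp := (mem_sp_iff A).mp hA
  have hr := rank_of_isConj d hd e A h
  obtain ⟨i, hi⟩ := hj
  have h1 := even_rank_sp A hsp i
  have h2 := even_rank_sp A hsp (i + 1)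
  rw [hr] at h1 h2
  have h3 := count_identity d j (by omega)
  rw [← count_eq_card]
  have e1 : j - 1 = 2 * i := by omega
  have e2 : j + 1 = 2 * (i + 1) := by omega
  rw [e1, e2] at h3
  obtain ⟨a, ha⟩ := h1
  obtain ⟨b, hb⟩ := h2
  exact ⟨a + b - ∑ k, (d k - j), by omega⟩

end Parity

section JDtools

variable {F : Type*} [Field F] {V V' : Type*} [AddCommGroup V] [Module F V]
  [AddCommGroup V'] [Module F V']

/-- a cyclic nilpotent endomorphism has a single Jordan chain -/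
theorem JD_single [FiniteDimensional F V] (N : Module.End F V) (n : ℕ)
    (hn : Module.finrank F V = n) (hN : N ^ n = 0) (e : V) (he : (N ^ (n - 1)) e ≠ 0) :
    JD N ⊤ (fun _ : Unit => n) (fun _ => e) := by
  classical
  have hli := RegUniSp2.krylov_li N n hN e he
  have hinj : Function.Injective (fun x : (Σ _ : Unit, Fin n) => x.2) := by
    rintro ⟨⟨⟩, a⟩ ⟨⟨⟩, b⟩ hab
    have hab' : a = b := hab
    rw [hab']
  have hli' : LinearIndependent F (fam N (fun _ : Unit => n) (fun _ => e)) :=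
    hli.comp _ hinj
  refine ⟨fun _ => ?_, hli', ?_⟩
  · rw [hN, LinearMap.zero_apply]
  · apply hli'.span_eq_top_of_card_eq_finrank'
    rw [Fintype.card_sigma, hn]
    simp

theorem prodMap_pow (N₁ : Module.End F V) (N₂ : Module.End F V') (k : ℕ) (a : V) (b : V') :
    ((N₁.prodMap N₂) ^ k) (a, b) = ((N₁ ^ k) a, (N₂ ^ k) b) := by
  induction k generalizing a b with
  | zero => rw [pow_zero, pow_zero, pow_zero]; rfl
  | succ k ih =>
    rw [pow_succ, Module.End.mul_apply, LinearMap.prodMap_apply, ih, pow_succ, pow_succ,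
      Module.End.mul_apply, Module.End.mul_apply]

theorem prodMap_sub_one (g₁ : Module.End F V) (g₂ : Module.End F V') :
    g₁.prodMap g₂ - 1 = (g₁ - 1).prodMap (g₂ - 1) := by
  apply LinearMap.ext
  intro x
  rfl

theorem JD_prod [FiniteDimensional F V] [FiniteDimensional F V'] {N₁ : Module.End F V}
    {N₂ : Module.End F V'} {ι₁ ι₂ : Type} [Fintype ι₁] [Fintype ι₂] {l₁ : ι₁ → ℕ} {l₂ : ι₂ → ℕ}
    {v₁ : ι₁ → V} {v₂ : ι₂ → V'} (h₁ : JD N₁ ⊤ l₁ v₁) (h₂ : JD N₂ ⊤ l₂ v₂) :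
    JD (N₁.prodMap N₂) ⊤ (Sum.elim l₁ l₂)
      (Sum.elim (fun i => ((v₁ i, 0) : V × V')) (fun i => ((0, v₂ i) : V × V'))) := by
  classical
  have hfam : fam (N₁.prodMap N₂) (Sum.elim l₁ l₂)
      (Sum.elim (fun i => ((v₁ i, 0) : V × V')) (fun i => ((0, v₂ i) : V × V'))) =
      (Sum.elim (LinearMap.inl F V V' ∘ fam N₁ l₁ v₁) (LinearMap.inr F V V' ∘ fam N₂ l₂ v₂)) ∘
        (Equiv.sumSigmaDistrib (fun i : ι₁ ⊕ ι₂ => Fin (Sum.elim l₁ l₂ i))) := by
    funext x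
    obtain ⟨i | i, a⟩ := x
    · show ((N₁.prodMap N₂) ^ (a : ℕ)) (v₁ i, 0) = ((N₁ ^ (a : ℕ)) (v₁ i), 0)
      rw [prodMap_pow, map_zero]
    · show ((N₁.prodMap N₂) ^ (a : ℕ)) (0, v₂ i) = (0, (N₂ ^ (a : ℕ)) (v₂ i))
      rw [prodMap_pow, map_zero]
  have hli : LinearIndependent F (fam (N₁.prodMap N₂) (Sum.elim l₁ l₂)
      (Sum.elim (fun i => ((v₁ i, 0) : V × V')) (fun i => ((0, v₂ i) : V × V')))) := by
    rw [hfam]
    exact (linearIndependent_inl_union_inr' h₁.li h₂.li).comp _ (Equiv.injective _)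
  refine ⟨?_, hli, ?_⟩
  · rintro (i | i)
    · show ((N₁.prodMap N₂) ^ (l₁ i)) (v₁ i, 0) = 0
      rw [prodMap_pow, h₁.zero i, map_zero]
      rfl
    · show ((N₁.prodMap N₂) ^ (l₂ i)) (0, v₂ i) = 0
      rw [prodMap_pow, h₂.zero i, map_zero]
      rfl
  · apply hli.span_eq_top_of_card_eq_finrank'
    have e1 := finrank_span_eq_card h₁.li
    have e2 := finrank_span_eq_card h₂.li
    rw [h₁.span, finrank_top] at e1
    rw [h₂.span, finrank_top] at e2
    rw [Module.finrank_prod, e1, e2, Fintype.card_sigma, Fintype.sum_sum_type, Fintype.card_sigma,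
      Fintype.card_sigma]
    rfl

theorem map_sum_elim {ι₁ ι₂ : Type} [Fintype ι₁] [Fintype ι₂] (l₁ : ι₁ → ℕ) (l₂ : ι₂ → ℕ) :
    (Finset.univ : Finset (ι₁ ⊕ ι₂)).val.map (Sum.elim l₁ l₂) =
      Finset.univ.val.map l₁ + Finset.univ.val.map l₂ := by
  rw [← Finset.univ_disjSum_univ, Finset.val_disjSum, Multiset.disjSum, Multiset.map_add,
    Multiset.map_map, Multiset.map_map]
  rfl

/-- spaces with Jordan chain data of the same type are isomorphic as modules over `F[N]` -/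
theorem conj_of_JD' {N : Module.End F V} {N' : Module.End F V'}
    {ι ι' : Type} [Fintype ι] [Fintype ι'] {m : ι → ℕ} {v : ι → V} {m' : ι' → ℕ} {v' : ι' → V'}
    (h : JD N ⊤ m v) (h' : JD N' ⊤ m' v')
    (hm : Finset.univ.val.map m = Finset.univ.val.map m') :
    ∃ φ : V ≃ₗ[F] V', ∀ x, φ (N x) = N' (φ x) := by
  classical
  have hcard : ∀ a : ℕ, Fintype.card {i // m i = a} = Fintype.card {i // m' i = a} := by
    intro a
    rw [card_fiber m a, card_fiber m' a, hm]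
  obtain ⟨σ, hσ⟩ : ∃ σ : ι ≃ ι', ∀ i, m' (σ i) = m i :=
    ⟨Equiv.ofFiberEquiv (fun a => Fintype.equivOfCardEq (hcard a)),
      fun i => Equiv.ofFiberEquiv_map _ i⟩
  obtain ⟨E, hE1, hE2⟩ : ∃ E : (Σ i, Fin (m i)) ≃ (Σ i, Fin (m' i)),
      (∀ x, (E x).1 = σ x.1) ∧ ∀ x, ((E x).2 : ℕ) = x.2 :=
    ⟨Equiv.sigmaCongr σ (fun i => finCongr (hσ i).symm), fun x => rfl, fun x => rfl⟩
  obtain ⟨B, hB⟩ : ∃ B : Module.Basis (Σ i, Fin (m i)) F V, ∀ x, B x = fam N m v x :=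
    ⟨Module.Basis.mk h.li h.span.ge, fun x => Module.Basis.mk_apply h.li h.span.ge x⟩
  obtain ⟨B', hB'⟩ : ∃ B' : Module.Basis (Σ i, Fin (m' i)) F V', ∀ x, B' x = fam N' m' v' x :=
    ⟨Module.Basis.mk h'.li h'.span.ge, fun x => Module.Basis.mk_apply h'.li h'.span.ge x⟩
  obtain ⟨φ, hφ⟩ : ∃ φ : V ≃ₗ[F] V', ∀ x, φ (B x) = B' (E x) :=
    ⟨B.equiv B' E, fun x => Module.Basis.equiv_apply _ _ _ _⟩
  have key : ∀ (i : ι) (e : ℕ), φ ((N ^ e) (v i)) = (N' ^ e) (v' (σ i)) := by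
    intro i e
    by_cases he : e < m i
    · have h1 : B ⟨i, ⟨e, he⟩⟩ = (N ^ e) (v i) := hB _
      have e1 : (E ⟨i, ⟨e, he⟩⟩).1 = σ i := hE1 _
      have e2 : ((E ⟨i, ⟨e, he⟩⟩).2 : ℕ) = e := hE2 _
      have h2 : B' (E ⟨i, ⟨e, he⟩⟩) = (N' ^ e) (v' (σ i)) := by
        rw [hB']
        show (N' ^ ((E ⟨i, ⟨e, he⟩⟩).2 : ℕ)) (v' (E ⟨i, ⟨e, he⟩⟩).1) = _
        rw [e2, e1]
      rw [← h1, hφ, h2]
    · have h1 : (N ^ e) (v i) = 0 :=
        pow_zero_of_le _ _ _ (h.zero i) e (by omega)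
      have h2 : (N' ^ e) (v' (σ i)) = 0 :=
        pow_zero_of_le _ _ _ (h'.zero (σ i)) e (by rw [hσ]; omega)
      rw [h1, h2, map_zero]
  have hcomp : (φ : V →ₗ[F] V') ∘ₗ N = N' ∘ₗ (φ : V →ₗ[F] V') := by
    apply B.ext
    rintro ⟨i, l⟩
    simp only [LinearMap.comp_apply, LinearEquiv.coe_coe]
    have h1 : B ⟨i, l⟩ = (N ^ (l : ℕ)) (v i) := hB _
    rw [h1, ← pow_succ_apply, key, key, pow_succ_apply]
  exact ⟨φ, fun x => LinearMap.congr_fun hcomp x⟩

theorem good_prod {B₁ : LinearMap.BilinForm F V} {B₂ : LinearMap.BilinForm F V'}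
    {g₁ : Module.End F V} {g₂ : Module.End F V'} (h₁ : SpConj.Good B₁ g₁)
    (h₂ : SpConj.Good B₂ g₂) :
    ∃ B : LinearMap.BilinForm F (V × V'), SpConj.Good B (g₁.prodMap g₂) := by
  obtain ⟨B, hB⟩ : ∃ B : LinearMap.BilinForm F (V × V'),
      ∀ x y, B x y = B₁ x.1 y.1 + B₂ x.2 y.2 :=
    ⟨B₁.compl₁₂ (LinearMap.fst F V V') (LinearMap.fst F V V') +
      B₂.compl₁₂ (LinearMap.snd F V V') (LinearMap.snd F V V'), fun x y => rfl⟩
  refine ⟨B, ⟨fun x => ?_, fun x hx => ?_, fun x y => ?_⟩⟩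
  · rw [hB, h₁.1, h₂.1, add_zero]
  · have hx1 : x.1 = 0 := by
      apply h₁.2.1
      intro y
      have h3 := hx (y, 0)
      rw [hB] at h3
      simpa using h3
    have hx2 : x.2 = 0 := by
      apply h₂.2.1
      intro y
      have h3 := hx (0, y)
      rw [hB] at h3
      simpa using h3
    exact Prod.ext hx1 hx2
  · rw [hB, hB]
    show B₁ (g₁ x.1) (g₁ y.1) + B₂ (g₂ x.2) (g₂ y.2) = _
    rw [h₁.2.2, h₂.2.2]

end JDtools

end Cfsg.Agent.Helper14.JordSp
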