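import Mathlib
import Cfsg.Prelude.Def_JordanBlocks
import Cfsg.Agent.Helper14.JordSp

/-!
Jordan types of unipotent elements of symplectic groups: every type whose odd parts have even
multiplicity occurs.
-/

set_option autoImplicit false
open Polynomial
open scoped Matrix

namespace Cfsg.Agent.Helper14.JordSp2

open Cfsg.Agent.Helper16.Jordan Cfsg.Agent.Helper14.RegUniSp Cfsg.Agent.Helper14.JordSp

universe u

section Blocks

variable {F : Type u} [Field F]

/-- a symplectic space with a unipotent isometry of Jordan type `s` exists -/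
def Q (F : Type u) [Field F] (s : Multiset ℕ) : Prop :=
  ∃ (V : Type u) (_ : AddCommGroup V) (_ : Module F V) (_ : FiniteDimensional F V)
    (B : LinearMap.BilinForm F V) (g : Module.End F V) (ι : Type) (_ : Fintype ι) (l : ι → ℕ)
    (v : ι → V), SpConj.Good B g ∧ JD (g - 1) ⊤ l v ∧ Finset.univ.val.map l = s

theorem Q_zero : Q F 0 := by
  refine ⟨Fin 0 → F, inferInstance, inferInstance, inferInstance, 0, 1, Empty, inferInstance,
    Empty.elim, Empty.elim, ⟨fun x => rfl, fun x _ => Subsingleton.elim _ _, fun x y => rfl⟩,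
    ⟨fun i => i.elim, linearIndependent_empty_type, ?_⟩, rfl⟩
  rw [eq_top_iff]
  intro x _
  rw [Subsingleton.elim x 0]
  exact Submodule.zero_mem _

theorem Q_add {s₁ s₂ : Multiset ℕ} (h₁ : Q F s₁) (h₂ : Q F s₂) : Q F (s₁ + s₂) := by
  obtain ⟨V₁, _, _, _, B₁, g₁, ι₁, _, l₁, v₁, hg₁, hj₁, hs₁⟩ := h₁
  obtain ⟨V₂, _, _, _, B₂, g₂, ι₂, _, l₂, v₂, hg₂, hj₂, hs₂⟩ := h₂
  obtain ⟨B, hB⟩ := good_prod hg₁ hg₂
  refine ⟨V₁ × V₂, inferInstance, inferInstance, inferInstance, B, g₁.prodMap g₂, ι₁ ⊕ ι₂,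
    inferInstance, Sum.elim l₁ l₂, Sum.elim (fun i => (v₁ i, 0)) (fun i => (0, v₂ i)), hB, ?_, ?_⟩
  · rw [prodMap_sub_one]
    exact JD_prod hj₁ hj₂
  · rw [← hs₁, ← hs₂]
    exact map_sum_elim l₁ l₂

theorem Q_even [Finite F] (k : ℕ) (hk : 1 ≤ k) : Q F {2 * k} := by
  classical
  obtain ⟨G, hG, hnil, hreg⟩ := RegUniSp3.exists_reg (F := F) hk
  have hcyc : ∃ e : Fin k ⊕ Fin k → F,
      ((Matrix.toLinAlgEquiv' (G - 1) : Module.End F (Fin k ⊕ Fin k → F)) ^ (2 * k - 1)) e
        ≠ 0 := by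
    by_contra hall
    push_neg at hall
    apply pow_ne_zero_of_rank (G - 1) hk hreg
    have h1 : (Matrix.toLinAlgEquiv' (G - 1) : Module.End F (Fin k ⊕ Fin k → F)) ^ (2 * k - 1)
        = 0 := LinearMap.ext hall
    rw [← map_pow] at h1
    exact (Matrix.toLinAlgEquiv' (R := F) (n := Fin k ⊕ Fin k)).injective
      (h1.trans (map_zero _).symm)
  obtain ⟨e, he⟩ := hcyc
  have hNn : (Matrix.toLinAlgEquiv' (G - 1) : Module.End F (Fin k ⊕ Fin k → F)) ^ (2 * k)
      = 0 := by
    rw [← map_pow, hnil, map_zero]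
  have hN : Matrix.toLin' G - 1 =
      (Matrix.toLinAlgEquiv' (G - 1) : Module.End F (Fin k ⊕ Fin k → F)) := by
    apply LinearMap.ext
    intro x
    rw [LinearMap.sub_apply, Matrix.toLin'_apply, Module.End.one_apply,
      Matrix.toLinAlgEquiv'_apply, Matrix.sub_mulVec, Matrix.one_mulVec]
  refine ⟨Fin k ⊕ Fin k → F, inferInstance, inferInstance, inferInstance,
    Cfsg.Agent.S0766.sB k F, Matrix.toLin' G, Unit, inferInstance, fun _ => 2 * k, fun _ => e,
    ?_, ?_, rfl⟩
  · exact ⟨fun x => (Cfsg.Agent.S0766.sB_alt k F).self_eq_zero x,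
      (Cfsg.Agent.S0766.sB_nondeg k F).1, fun x y => by
        rw [Matrix.toLin'_apply, Matrix.toLin'_apply]
        exact Cfsg.Agent.Helper2.SpEmbed.sB_symp k G hG x y⟩
  · rw [hN]
    exact JD_single _ (2 * k) finrank_fun hNn e he

theorem Q_pair (a : ℕ) (ha : 1 ≤ a) : Q F {a, a} := by
  classical
  obtain ⟨M₀, v₀, hJD⟩ := Cfsg.Agent.Helper16.Jordan.exists_rep (F := F) (n := a)
    (fun _ : Unit => a) (by simp)
  have hM₀a : M₀ ^ a = 0 := by
    have h1 := hJD.pow_eq_zero a (fun _ => le_refl a)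
    have h2 : Matrix.toLin' M₀ = Matrix.toLinAlgEquiv' M₀ := rfl
    rw [h2, ← map_pow] at h1
    exact (Matrix.toLinAlgEquiv' (R := F) (n := Fin a)).injective (h1.trans (map_zero _).symm)
  have hM₀a1 : M₀ ^ (a - 1) ≠ 0 := by
    intro h0
    have h1 := hJD.li.ne_zero ⟨(), ⟨a - 1, by omega⟩⟩
    apply h1
    show ((Matrix.toLin' M₀) ^ (a - 1)) (v₀ ()) = 0
    have h2 : Matrix.toLin' M₀ = Matrix.toLinAlgEquiv' M₀ := rfl
    rw [h2, ← map_pow, h0, map_zero, LinearMap.zero_apply]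
  have hnil : IsNilpotent M₀ := ⟨a, hM₀a⟩
  obtain ⟨u, hu⟩ := hnil.isUnit_one_add
  obtain ⟨Ui, hUi⟩ : ∃ Ui : Matrix (Fin a) (Fin a) F,
      Ui = ((u⁻¹ : (Matrix (Fin a) (Fin a) F)ˣ) : Matrix (Fin a) (Fin a) F) := ⟨_, rfl⟩
  have h1 : (1 + M₀) * Ui = 1 := by rw [← hu, hUi]; exact u.mul_inv
  have h2 : Ui * (1 + M₀) = 1 := by rw [← hu, hUi]; exact u.inv_mul
  obtain ⟨C, hC⟩ : ∃ C : Matrix (Fin a) (Fin a) F, C = Uiᵀ := ⟨_, rfl⟩
  obtain ⟨D, hD⟩ : ∃ D : Matrix (Fin a) (Fin a) F, D = M₀ᵀ := ⟨_, rfl⟩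
  have hC1 : C * (1 + D) = 1 := by
    have h := congrArg Matrix.transpose h1
    rw [Matrix.transpose_mul, Matrix.transpose_add, Matrix.transpose_one] at h
    rw [hC, hD]; exact h
  have hC2 : (1 + D) * C = 1 := by
    have h := congrArg Matrix.transpose h2
    rw [Matrix.transpose_mul, Matrix.transpose_add, Matrix.transpose_one] at h
    rw [hC, hD]; exact h
  have hDa : D ^ a = 0 := by rw [hD, ← Matrix.transpose_pow, hM₀a, Matrix.transpose_zero]
  have hDa1 : D ^ (a - 1) ≠ 0 := by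
    intro h0
    apply hM₀a1
    rw [hD, ← Matrix.transpose_pow] at h0
    have h3 := congrArg Matrix.transpose h0
    rw [Matrix.transpose_transpose, Matrix.transpose_zero] at h3
    exact h3
  have e1 : C + C * D = 1 := by rw [← hC1, Matrix.mul_add, Matrix.mul_one]
  have e2 : C + D * C = 1 := by rw [← hC2, Matrix.add_mul, Matrix.one_mul]
  have hCD : C - 1 = (-C) * D := by
    rw [neg_mul]
    calc C - 1 = C - (C + C * D) := by rw [e1]
      _ = -(C * D) := by abel
  have hDC : C * D = D * C := add_left_cancel (e1.trans e2.symm)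
  have hcomm : Commute (-C) D := by
    show (-C) * D = D * (-C)
    rw [neg_mul, mul_neg, hDC]
  have hpow : ∀ i : ℕ, (C - 1) ^ i = (-C) ^ i * D ^ i := by
    intro i; rw [hCD, hcomm.mul_pow]
  have hCa : (C - 1) ^ a = 0 := by rw [hpow, hDa, Matrix.mul_zero]
  have hCa1 : (C - 1) ^ (a - 1) ≠ 0 := by
    intro h0
    apply hDa1
    rw [hpow] at h0
    have hinv : (-(1 + D)) ^ (a - 1) * (-C) ^ (a - 1) = 1 := by
      have hc2 : Commute (-(1 + D)) (-C) := by
        show (-(1 + D)) * (-C) = (-C) * (-(1 + D))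
        rw [neg_mul_neg, neg_mul_neg, hC1, hC2]
      rw [← hc2.mul_pow, neg_mul_neg, hC2, one_pow]
    have h3 : (-(1 + D)) ^ (a - 1) * ((-C) ^ (a - 1) * D ^ (a - 1))
        = (-(1 + D)) ^ (a - 1) * 0 := by rw [h0]
    rw [← Matrix.mul_assoc, hinv, Matrix.one_mul, Matrix.mul_zero] at h3
    exact h3
  -- the second nilpotent endomorphism
  have hcyc : ∃ e₂ : Fin a → F,
      ((Matrix.toLinAlgEquiv' (C - 1) : Module.End F (Fin a → F)) ^ (a - 1)) e₂ ≠ 0 := by
    by_contra hall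
    push_neg at hall
    apply hCa1
    have h3 : (Matrix.toLinAlgEquiv' (C - 1) : Module.End F (Fin a → F)) ^ (a - 1) = 0 :=
      LinearMap.ext hall
    rw [← map_pow] at h3
    exact (Matrix.toLinAlgEquiv' (R := F) (n := Fin a)).injective (h3.trans (map_zero _).symm)
  obtain ⟨e₂, he₂⟩ := hcyc
  have hN₂a : (Matrix.toLinAlgEquiv' (C - 1) : Module.End F (Fin a → F)) ^ a = 0 := by
    rw [← map_pow, hCa, map_zero]
  have hJD₂ := JD_single (Matrix.toLinAlgEquiv' (C - 1) : Module.End F (Fin a → F)) a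
    (Module.finrank_fin_fun F) hN₂a e₂ he₂
  have hg1 : Matrix.toLin' (1 + M₀) - 1 = Matrix.toLin' M₀ := by
    apply LinearMap.ext
    intro x
    rw [LinearMap.sub_apply, Matrix.toLin'_apply, Matrix.add_mulVec, Matrix.one_mulVec,
      Module.End.one_apply, Matrix.toLin'_apply, add_sub_cancel_left]
  have hg2 : Matrix.toLin' C - 1 =
      (Matrix.toLinAlgEquiv' (C - 1) : Module.End F (Fin a → F)) := by
    apply LinearMap.ext
    intro x
    rw [LinearMap.sub_apply, Matrix.toLin'_apply, Module.End.one_apply,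
      Matrix.toLinAlgEquiv'_apply, Matrix.sub_mulVec, Matrix.one_mulVec]
  -- the hyperbolic form
  obtain ⟨B, hB⟩ : ∃ B : LinearMap.BilinForm F ((Fin a → F) × (Fin a → F)),
      ∀ p q, B p q = p.1 ⬝ᵥ q.2 - q.1 ⬝ᵥ p.2 :=
    ⟨LinearMap.mk₂ F (fun p q => p.1 ⬝ᵥ q.2 - q.1 ⬝ᵥ p.2)
      (fun p p' q => by
        simp only [Prod.fst_add, Prod.snd_add, add_dotProduct, dotProduct_add]; ring)
      (fun c p q => by
        simp only [Prod.smul_fst, Prod.smul_snd, smul_dotProduct, dotProduct_smul, smul_eq_mul]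
        ring)
      (fun p q q' => by
        simp only [Prod.fst_add, Prod.snd_add, add_dotProduct, dotProduct_add]; ring)
      (fun c p q => by
        simp only [Prod.smul_fst, Prod.smul_snd, smul_dotProduct, dotProduct_smul, smul_eq_mul]
        ring), fun p q => rfl⟩
  have hUtC : (1 + M₀)ᵀ * C = 1 := by
    rw [Matrix.transpose_add, Matrix.transpose_one, ← hD]; exact hC2
  have hUC : ∀ x y : Fin a → F, ((1 + M₀) *ᵥ x) ⬝ᵥ (C *ᵥ y) = x ⬝ᵥ y := by
    intro x y
    rw [← Matrix.vecMul_transpose (1 + M₀) x, ← Matrix.dotProduct_mulVec, Matrix.mulVec_mulVec,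
      hUtC, Matrix.one_mulVec]
  have hgood : SpConj.Good B ((Matrix.toLin' (1 + M₀)).prodMap (Matrix.toLin' C)) := by
    refine ⟨fun p => ?_, fun p hp => ?_, fun p q => ?_⟩
    · rw [hB, sub_self]
    · have hp1 : p.1 = 0 := by
        funext i
        have h3 := hp (0, Pi.single i 1)
        rw [hB] at h3
        simpa using h3
      have hp2 : p.2 = 0 := by
        funext i
        have h3 := hp (Pi.single i 1, 0)
        rw [hB] at h3
        simpa using h3
      exact Prod.ext hp1 hp2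
    · rw [hB, hB]
      show ((Matrix.toLin' (1 + M₀)) p.1) ⬝ᵥ ((Matrix.toLin' C) q.2) -
        ((Matrix.toLin' (1 + M₀)) q.1) ⬝ᵥ ((Matrix.toLin' C) p.2) = _
      rw [Matrix.toLin'_apply, Matrix.toLin'_apply, Matrix.toLin'_apply, Matrix.toLin'_apply,
        hUC, hUC]
  refine ⟨(Fin a → F) × (Fin a → F), inferInstance, inferInstance, inferInstance, B,
    (Matrix.toLin' (1 + M₀)).prodMap (Matrix.toLin' C), Unit ⊕ Unit, inferInstance,
    Sum.elim (fun _ => a) (fun _ => a),
    Sum.elim (fun i => (v₀ i, 0)) (fun _ => (0, e₂)), hgood, ?_, ?_⟩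
  · rw [prodMap_sub_one, hg1, hg2]
    exact JD_prod hJD hJD₂
  · rw [map_sum_elim]
    rfl

theorem Q_of_parity [Finite F] : ∀ (n : ℕ) (s : Multiset ℕ), Multiset.card s = n →
    (∀ a ∈ s, 1 ≤ a) → (∀ j, Odd j → Even (Multiset.count j s)) → Q F s := by
  intro n
  induction n using Nat.strong_induction_on with
  | _ n ih =>
  intro s hcard hpos hpar
  rcases Multiset.empty_or_exists_mem s with rfl | ⟨a, ha⟩
  · exact Q_zero
  · have hn0 : 0 < n := by
      rw [← hcard]; exact Multiset.card_pos_iff_exists_mem.mpr ⟨a, ha⟩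
    rcases Nat.even_or_odd a with hae | hao
    · obtain ⟨k, hk⟩ := hae
      have hk1 : 1 ≤ k := by have := hpos a ha; omega
      have hs : s = {a} + s.erase a := by rw [Multiset.singleton_add, Multiset.cons_erase ha]
      rw [hs]
      apply Q_add
      · have hak : a = 2 * k := by omega
        rw [hak]; exact Q_even k hk1
      · apply ih (n - 1) (by omega) (s.erase a)
        · have h := Multiset.card_erase_of_mem ha
          rw [hcard] at h
          rw [h]; rfl
        · intro b hb; exact hpos b (Multiset.mem_of_mem_erase hb)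
        · intro j hj
          have hne : j ≠ a := by
            rintro rfl; exact (Nat.not_even_iff_odd.mpr hj) ⟨k, hk⟩
          rw [Multiset.count_erase_of_ne hne]
          exact hpar j hj
    · have hc := hpar a hao
      have hc1 : 1 ≤ Multiset.count a s := Multiset.one_le_count_iff_mem.mpr ha
      have hc2 : 2 ≤ Multiset.count a s := by obtain ⟨c, hc⟩ := hc; omega
      have ha' : a ∈ s.erase a := by
        rw [← Multiset.count_pos, Multiset.count_erase_self]; omega
      have hs : s = {a, a} + (s.erase a).erase a := by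
        rw [show ({a, a} : Multiset ℕ) = a ::ₘ {a} from rfl, Multiset.cons_add,
          Multiset.singleton_add, Multiset.cons_erase ha', Multiset.cons_erase ha]
      have h2n : 2 ≤ n := by
        rw [← hcard]; exact hc2.trans (Multiset.count_le_card a s)
      rw [hs]
      apply Q_add
      · exact Q_pair a (hpos a ha)
      · apply ih (n - 2) (by omega) ((s.erase a).erase a)
        · have h := Multiset.card_erase_of_mem ha
          have h' := Multiset.card_erase_of_mem ha'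
          rw [hcard] at h
          rw [h] at h'
          rw [h']; rfl
        · intro b hb
          exact hpos b (Multiset.mem_of_mem_erase (Multiset.mem_of_mem_erase hb))
        · intro j hj
          by_cases hja : j = a
          · subst hja
            rw [Multiset.count_erase_self, Multiset.count_erase_self]
            obtain ⟨c, hc⟩ := hc
            exact ⟨c - 1, by omega⟩
          · rw [Multiset.count_erase_of_ne hja, Multiset.count_erase_of_ne hja]
            exact hpar j hj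

end Blocks

section Final

variable {F : Type u} [Field F] {m : ℕ}

/-- the parity condition is sufficient -/
theorem exists_sp_of_parity [Finite F] {t : ℕ} (d : Fin t → ℕ) (hd : ∀ k, 1 ≤ d k)
    (hsum : ∑ k, d k = 2 * m)
    (hpar : ∀ j, Odd j → Even (Finset.univ.filter (fun k : Fin t => d k = j)).card) :
    ∃ e : ((k : Fin t) × Fin (d k)) ≃ (Fin m ⊕ Fin m),
      ∃ A : Matrix.symplecticGroup (Fin m) F,
        IsConj (Matrix.reindex e e (Cfsg.jordanTypeMatrix d F)) (A : Matrix (Fin m ⊕ Fin m) (Fin m ⊕ Fin m) F) := by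
  classical
  have hQ : Q F (Finset.univ.val.map d) := by
    apply Q_of_parity _ _ rfl
    · intro a ha
      obtain ⟨k, -, rfl⟩ := Multiset.mem_map.mp ha
      exact hd k
    · intro j hj
      rw [count_eq_card]
      exact hpar j hj
  obtain ⟨V, _, _, _, B, g, ι, _, l, v, hgood, hjd, hms⟩ := hQ
  have hdimV : Module.finrank F V = m + m := by
    have e1 := finrank_span_eq_card hjd.li
    rw [hjd.span, finrank_top, Fintype.card_sigma] at e1
    simp only [Fintype.card_fin] at e1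
    have e2 : ∑ i, l i = ∑ k, d k := congrArg Multiset.sum hms
    rw [e1, e2, hsum, two_mul]
  have hfr' : Module.finrank F (Fin m ⊕ Fin m → F) = m + m := by simp
  have hG1 : SpConj.Good B (LinearMap.id) := ⟨hgood.1, hgood.2.1, fun a b => rfl⟩
  have hG2 : SpConj.Good (Cfsg.Agent.S0766.sB m F) (LinearMap.id) :=
    ⟨fun x => (Cfsg.Agent.S0766.sB_alt m F).self_eq_zero x, (Cfsg.Agent.S0766.sB_nondeg m F).1,
      fun a b => rfl⟩
  obtain ⟨ψ, hψ, -⟩ := SpConj.sp_conj (F := F) (m + m) V (Fin m ⊕ Fin m → F) B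
    (Cfsg.Agent.S0766.sB m F) LinearMap.id LinearMap.id hdimV hG1 hG2
    Module.End.isSemisimple_id Module.End.isSemisimple_id (by
      have e1 : (LinearMap.id : Module.End F V) = 1 := rfl
      have e2 : (LinearMap.id : Module.End F (Fin m ⊕ Fin m → F)) = 1 := rfl
      rw [e1, e2, LinearMap.charpoly_one, LinearMap.charpoly_one, hdimV, hfr'])
  have hinj : Function.Injective ψ := by
    rw [injective_iff_map_eq_zero]
    intro a ha
    apply hgood.2.1
    intro b
    rw [← hψ, ha, map_zero, LinearMap.zero_apply]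
  obtain ⟨e₀, he₀⟩ : ∃ e₀ : V ≃ₗ[F] (Fin m ⊕ Fin m → F), ∀ a, e₀ a = ψ a :=
    ⟨LinearMap.linearEquivOfInjective ψ hinj (by rw [hdimV, hfr']),
      fun a => LinearMap.linearEquivOfInjective_apply hinj _ a⟩
  obtain ⟨T, hT⟩ : ∃ T : Module.End F (Fin m ⊕ Fin m → F), ∀ u, T u = e₀ (g (e₀.symm u)) :=
    ⟨e₀.conj g, fun u => rfl⟩
  have hTiso : ∀ u w, Cfsg.Agent.S0766.sB m F (T u) (T w) = Cfsg.Agent.S0766.sB m F u w := by
    intro u w
    have h1 := hgood.2.2 (e₀.symm u) (e₀.symm w)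
    rw [hT, hT, he₀, he₀, hψ, h1, ← hψ, ← he₀, ← he₀, e₀.apply_symm_apply, e₀.apply_symm_apply]
  have hAmem : LinearMap.toMatrix' T ∈ Matrix.symplecticGroup (Fin m) F := by
    rw [SymplecticGroup.mem_iff']
    apply Matrix.toBilin'.injective
    rw [← Matrix.toBilin'_comp, Matrix.toLin'_toMatrix']
    apply LinearMap.ext₂
    intro u w
    exact hTiso u w
  have hAT : ∀ u, LinearMap.toMatrix' T *ᵥ u = T u := by
    intro u
    rw [← Matrix.toLin'_apply, Matrix.toLin'_toMatrix']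
  have hJ := jordan_JD (F := F) d hd
  obtain ⟨φ, hφ⟩ := conj_of_JD' hJ hjd (by rw [hms])
  have hφJ : ∀ x, φ (Cfsg.jordanTypeMatrix d F *ᵥ x) = g (φ x) := by
    intro x
    have h1 := hφ x
    rw [Matrix.toLin'_apply, Matrix.sub_mulVec, Matrix.one_mulVec, map_sub, LinearMap.sub_apply,
      Module.End.one_apply] at h1
    exact sub_left_inj.mp h1
  obtain ⟨e⟩ : Nonempty (((k : Fin t) × Fin (d k)) ≃ (Fin m ⊕ Fin m)) :=
    ⟨Fintype.equivOfCardEq (by
      rw [Fintype.card_sigma, Fintype.card_sum, Fintype.card_fin]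
      simp only [Fintype.card_fin]
      rw [hsum, two_mul])⟩
  refine ⟨e, ⟨LinearMap.toMatrix' T, hAmem⟩, ?_⟩
  obtain ⟨Ψ, hΨ⟩ : ∃ Ψ : (Fin m ⊕ Fin m → F) ≃ₗ[F] (Fin m ⊕ Fin m → F),
      ∀ w, Ψ w = e₀ (φ (w ∘ e)) :=
    ⟨(LinearEquiv.funCongrLeft F F e).trans (φ.trans e₀), fun w => rfl⟩
  obtain ⟨C, hC⟩ : ∃ C : Matrix (Fin m ⊕ Fin m) (Fin m ⊕ Fin m) F, ∀ w, C *ᵥ w = Ψ w :=
    ⟨LinearMap.toMatrix' (Ψ : (Fin m ⊕ Fin m → F) →ₗ[F] (Fin m ⊕ Fin m → F)), fun w => by
      rw [← Matrix.toLin'_apply, Matrix.toLin'_toMatrix']; rfl⟩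
  obtain ⟨Ci, hCi⟩ : ∃ Ci : Matrix (Fin m ⊕ Fin m) (Fin m ⊕ Fin m) F, ∀ w, Ci *ᵥ w = Ψ.symm w :=
    ⟨LinearMap.toMatrix' (Ψ.symm : (Fin m ⊕ Fin m → F) →ₗ[F] (Fin m ⊕ Fin m → F)), fun w => by
      rw [← Matrix.toLin'_apply, Matrix.toLin'_toMatrix']; rfl⟩
  have hCCi : C * Ci = 1 := by
    apply Matrix.toLin'.injective
    apply LinearMap.ext
    intro w
    rw [Matrix.toLin'_apply, ← Matrix.mulVec_mulVec, hCi, hC, Ψ.apply_symm_apply,
      Matrix.toLin'_one, LinearMap.id_apply]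
  have hCiC : Ci * C = 1 := mul_eq_one_comm.mp hCCi
  have hR : ∀ w : Fin m ⊕ Fin m → F,
      (Matrix.reindex e e (Cfsg.jordanTypeMatrix d F) *ᵥ w) ∘ e =
        Cfsg.jordanTypeMatrix d F *ᵥ (w ∘ e) := by
    intro w
    rw [Matrix.reindex_apply, Matrix.submatrix_mulVec_equiv]
    funext x
    simp
  have hint : C * Matrix.reindex e e (Cfsg.jordanTypeMatrix d F) = LinearMap.toMatrix' T * C := by
    apply Matrix.toLin'.injective
    apply LinearMap.ext
    intro w
    rw [Matrix.toLin'_apply, Matrix.toLin'_apply, ← Matrix.mulVec_mulVec, ← Matrix.mulVec_mulVec,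
      hC, hC, hAT, hΨ, hΨ, hT, e₀.symm_apply_apply, ← hφJ, hR]
  exact ⟨⟨C, Ci, hCCi, hCiC⟩, hint⟩

end Final

end Cfsg.Agent.Helper14.JordSp2
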