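import Mathlib
import Cfsg.Prelude.Def_JordanBlocks
import Cfsg.Agent.Helper14.JordSp2
import Cfsg.Agent.Helper14.SpPal

/-!
Jordan types of unipotent isometries of quadratic forms in odd characteristic: even parts occur
with even multiplicity (necessity), and the building blocks for sufficiency.
-/

set_option autoImplicit false
open Polynomial
open scoped Matrix

namespace Cfsg.Agent.Helper14.JordO

open Cfsg.Agent.Helper16.Jordan Cfsg.Agent.Helper14.RegUniSp Cfsg.Agent.Helper14.JordSp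

universe u

section Parity

variable {F : Type*} [Field F]

theorem even_rank_of_alt' {n : ℕ} (b : LinearMap.BilinForm F (Fin n → F))
    (hnd : ∀ x, (∀ y, b x y = 0) → x = 0)
    (M : Matrix (Fin n) (Fin n) F) (halt : ∀ u, b (M *ᵥ u) u = 0) : Even M.rank := by
  classical
  obtain ⟨L, hL⟩ : ∃ L : Module.End F (Fin n → F), L = Matrix.toLin' M := ⟨_, rfl⟩
  have hLu : ∀ u, L u = M *ᵥ u := by intro u; rw [hL, Matrix.toLin'_apply]
  obtain ⟨β, hβ⟩ : ∃ β : LinearMap.BilinForm F (Fin n → F), ∀ u v, β u v = b (L u) v :=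
    ⟨b.comp L LinearMap.id, fun u v => rfl⟩
  have hβalt : β.IsAlt := by
    intro u; rw [hβ, hLu]; exact halt u
  obtain ⟨W, hW⟩ := Submodule.exists_isCompl (LinearMap.ker L)
  have hWnd : ∀ a ∈ W, a ≠ 0 → ∃ w ∈ W, β a w ≠ 0 := by
    intro a haW ha0
    by_contra hcon
    push_neg at hcon
    apply ha0
    have hLa : L a = 0 := by
      apply hnd
      intro v
      have hv : v ∈ LinearMap.ker L ⊔ W := by rw [hW.sup_eq_top]; exact Submodule.mem_top
      obtain ⟨r, hr, w, hw, rfl⟩ := Submodule.mem_sup.mp hv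
      rw [← hβ, map_add, hcon w hw, add_zero, ← hβalt.neg_eq r a, hβ, LinearMap.mem_ker.mp hr,
        map_zero, LinearMap.zero_apply, neg_zero]
    have hmem : a ∈ LinearMap.ker L ⊓ W := ⟨LinearMap.mem_ker.mpr hLa, haW⟩
    rw [hW.inf_eq_bot] at hmem
    exact (Submodule.mem_bot F).mp hmem
  obtain ⟨j, p, q, hyp, hp, hq, hspan⟩ := Helper2.SpDecomp.darboux β hβalt W hWnd
  have hli := Helper2.SpDecomp.hyp_li β p q hyp
  have h1 : Module.finrank F W = j + j := by
    rw [← hspan, finrank_span_eq_card hli, Fintype.card_sum, Fintype.card_fin]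
  have h2 := Submodule.finrank_add_eq_of_isCompl hW
  have h3 := LinearMap.finrank_range_add_finrank_ker L
  have h4 : M.rank = Module.finrank F (LinearMap.range L) := by
    rw [hL, Matrix.rank, Matrix.toLin'_apply']
  have h5 : Module.finrank F (Fin n → F) = n := Module.finrank_fin_fun F
  exact ⟨j, by omega⟩

theorem rank_of_isConj' {n t : ℕ} (d : Fin t → ℕ) (hd : ∀ k, 1 ≤ d k)
    (e : ((k : Fin t) × Fin (d k)) ≃ Fin n) (A : Matrix (Fin n) (Fin n) F)
    (h : IsConj (Matrix.reindex e e (Cfsg.jordanTypeMatrix d F)) A) (j : ℕ) :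
    ((A - 1) ^ j).rank = ∑ k, (d k - j) := by
  obtain ⟨c, hc⟩ := h
  rw [rank_pow_conj _ A (c : Matrix (Fin n) (Fin n) F)
    ((c⁻¹ : (Matrix (Fin n) (Fin n) F)ˣ) : Matrix (Fin n) (Fin n) F) c.mul_inv hc.eq j]
  have e1 : (Matrix.reindex e e (Cfsg.jordanTypeMatrix d F) - 1) ^ j =
      Matrix.reindex e e ((Cfsg.jordanTypeMatrix d F - 1) ^ j) := by
    have h1 : ∀ M : Matrix ((k : Fin t) × Fin (d k)) ((k : Fin t) × Fin (d k)) F,
        Matrix.reindex e e M = Matrix.reindexAlgEquiv F F e M := fun M => rfl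
    rw [h1, h1, map_pow, map_sub, map_one]
  rw [e1, Matrix.rank_reindex, rank_jordan_pow d hd j]

theorem eq_zero_of_rank_eq_zero {n : ℕ} (M : Matrix (Fin n) (Fin n) F) (h : M.rank = 0) :
    M = 0 := by
  have h1 : LinearMap.range (Matrix.mulVecLin M) = ⊥ := by
    apply Submodule.finrank_eq_zero.mp
    exact h
  have h2 : Matrix.mulVecLin M = 0 := LinearMap.range_eq_bot.mp h1
  have h3 : Matrix.toLin' M = 0 := by rw [Matrix.toLin'_apply']; exact h2
  exact Matrix.toLin'.injective (h3.trans (map_zero _).symm)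

theorem even_rank_orth (h2 : (2 : F) ≠ 0) {n : ℕ} (b : LinearMap.BilinForm F (Fin n → F))
    (hsym : ∀ x y, b x y = b y x) (hnd : ∀ x, (∀ y, b x y = 0) → x = 0)
    (A Ai : Matrix (Fin n) (Fin n) F) (hAAi : A * Ai = 1)
    (hiso : ∀ u v, b (A *ᵥ u) (A *ᵥ v) = b u v) (hnil : IsNilpotent (A - 1)) (k : ℕ) :
    Even ((A - 1) ^ (2 * k + 1)).rank := by
  classical
  have hAiA : Ai * A = 1 := mul_eq_one_comm.mp hAAi
  have hadj : ∀ u v, b (A *ᵥ u) v = b u (Ai *ᵥ v) := by
    intro u v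
    have h := hiso u (Ai *ᵥ v)
    rw [Matrix.mulVec_mulVec, hAAi, Matrix.one_mulVec] at h
    exact h
  obtain ⟨N, hN⟩ : ∃ N : Matrix (Fin n) (Fin n) F, N = A - 1 := ⟨_, rfl⟩
  obtain ⟨N', hN'⟩ : ∃ N' : Matrix (Fin n) (Fin n) F, N' = Ai - 1 := ⟨_, rfl⟩
  obtain ⟨S, hS⟩ : ∃ S : Matrix (Fin n) (Fin n) F, S = A - Ai := ⟨_, rfl⟩
  obtain ⟨Z, hZ⟩ : ∃ Z : Matrix (Fin n) (Fin n) F, Z = (A + 1) * Ai := ⟨_, rfl⟩
  rw [← hN]
  rw [← hN] at hnil
  have hadjN : ∀ u v, b (N *ᵥ u) v = b u (N' *ᵥ v) := by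
    intro u v
    rw [hN, hN', Matrix.sub_mulVec, Matrix.sub_mulVec, Matrix.one_mulVec, Matrix.one_mulVec,
      LinearMap.map_sub₂, map_sub, hadj]
  have hadjNk : ∀ (k : ℕ) (u v : Fin n → F), b ((N ^ k) *ᵥ u) v = b u ((N' ^ k) *ᵥ v) := by
    intro k
    induction k with
    | zero => intro u v; rw [pow_zero, pow_zero, Matrix.one_mulVec, Matrix.one_mulVec]
    | succ k ih =>
      intro u v
      rw [pow_succ, ← Matrix.mulVec_mulVec, ih, hadjN, Matrix.mulVec_mulVec, ← pow_succ']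
  have hSalt : ∀ w, b (S *ᵥ w) w = 0 := by
    intro w
    rw [hS, Matrix.sub_mulVec, LinearMap.map_sub₂, hadj, hsym w (Ai *ᵥ w), sub_self]
  obtain ⟨M, hM⟩ : ∃ M : Matrix (Fin n) (Fin n) F, M = N ^ k * S * N' ^ k := ⟨_, rfl⟩
  have hMalt : ∀ u, b (M *ᵥ u) u = 0 := by
    intro u
    rw [hM, ← Matrix.mulVec_mulVec, ← Matrix.mulVec_mulVec, hadjNk]
    exact hSalt _
  have hcA : Commute A Ai := by
    show A * Ai = Ai * A
    rw [hAAi, hAiA]
  have hcNA : Commute N A := by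
    rw [hN]; exact (Commute.refl A).sub_left (Commute.one_left A)
  have hcN : Commute N Ai := by
    rw [hN]; exact hcA.sub_left (Commute.one_left Ai)
  have hcNZ : Commute N Z := by
    rw [hZ]; exact (hcNA.add_right (Commute.one_right N)).mul_right hcN
  have hcNnAi : Commute N (-Ai) := hcN.neg_right
  have hN'N : N' = N * (-Ai) := by
    rw [hN', hN, Matrix.sub_mul, Matrix.one_mul, Matrix.mul_neg, hAAi]
    abel
  have hSN : S = N * Z := by
    rw [hS, hN, hZ, Matrix.add_mul, hAAi, Matrix.one_mul, Matrix.sub_mul, Matrix.mul_add,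
      Matrix.mul_one, hAAi, Matrix.one_mul]
    abel
  have hM2 : M = N ^ (2 * k + 1) * (Z * (-Ai) ^ k) := by
    have e1 : Z * N ^ k = N ^ k * Z := ((hcNZ.pow_left k).eq).symm
    have e2 : N ^ (2 * k + 1) = N ^ k * N * N ^ k := by
      rw [← pow_succ, ← pow_add]; congr 1; omega
    rw [hM, hSN, hN'N, hcNnAi.mul_pow, e2]
    calc N ^ k * (N * Z) * (N ^ k * (-Ai) ^ k) = N ^ k * N * (Z * N ^ k) * (-Ai) ^ k := by
          simp only [mul_assoc]
      _ = N ^ k * N * (N ^ k * Z) * (-Ai) ^ k := by rw [e1]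
      _ = N ^ k * N * N ^ k * (Z * (-Ai) ^ k) := by simp only [mul_assoc]
  have hU : (-Ai) ^ k * (-A) ^ k = 1 := by
    have hc2 : Commute (-Ai) (-A) := by
      show (-Ai) * (-A) = (-A) * (-Ai)
      rw [neg_mul_neg, neg_mul_neg, hAAi, hAiA]
    rw [← hc2.mul_pow, neg_mul_neg, hAiA, one_pow]
  have h2m : ((2 : F) • (1 : Matrix (Fin n) (Fin n) F)) *
      ((2⁻¹ : F) • (1 : Matrix (Fin n) (Fin n) F)) = 1 := by
    rw [smul_mul_smul_comm, mul_inv_cancel₀ h2, one_smul, mul_one]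
  have h2u : IsUnit ((2 : F) • (1 : Matrix (Fin n) (Fin n) F)) :=
    (Matrix.isUnit_iff_isUnit_det _).mpr (Matrix.isUnit_det_of_right_inverse h2m)
  have hA1 : IsUnit (A + 1) := by
    have e : A + 1 = N + (2 : F) • (1 : Matrix (Fin n) (Fin n) F) := by
      rw [hN, two_smul]; abel
    rw [e]
    exact hnil.isUnit_add_right_of_commute h2u ((Commute.one_right N).smul_right (2 : F))
  have hWdet : IsUnit (Z * (-Ai) ^ k).det := by
    rw [hZ, Matrix.det_mul, Matrix.det_mul]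
    exact (((Matrix.isUnit_iff_isUnit_det _).mp hA1).mul
      (Matrix.isUnit_det_of_right_inverse hAiA)).mul (Matrix.isUnit_det_of_right_inverse hU)
  have h := even_rank_of_alt' b hnd M hMalt
  rw [hM2, Matrix.rank_mul_eq_left_of_isUnit_det _ _ hWdet] at h
  exact h

/-- the parity condition is necessary -/
theorem even_of_orth (h2 : (2 : F) ≠ 0) {n t : ℕ} (d : Fin t → ℕ) (hd : ∀ k, 1 ≤ d k)
    (e : ((k : Fin t) × Fin (d k)) ≃ Fin n)
    (b : LinearMap.BilinForm F (Fin n → F)) (hsym : ∀ x y, b x y = b y x)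
    (hnd : ∀ x, (∀ y, b x y = 0) → x = 0)
    (A Ai : Matrix (Fin n) (Fin n) F) (hAAi : A * Ai = 1)
    (hiso : ∀ u v, b (A *ᵥ u) (A *ᵥ v) = b u v)
    (h : IsConj (Matrix.reindex e e (Cfsg.jordanTypeMatrix d F)) A) (j : ℕ) (hj : Even j)
    (hj0 : 0 < j) :
    Even (Finset.univ.filter (fun k : Fin t => d k = j)).card := by
  classical
  have hr := rank_of_isConj' d hd e A h
  have hnil : IsNilpotent (A - 1) := by
    refine ⟨∑ k, d k, eq_zero_of_rank_eq_zero _ ?_⟩
    rw [hr]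
    exact Finset.sum_eq_zero (fun k _ => Nat.sub_eq_zero_of_le
      (Finset.single_le_sum (fun i _ => Nat.zero_le _) (Finset.mem_univ k)))
  obtain ⟨i, hi⟩ := hj
  have h1 := even_rank_orth h2 b hsym hnd A Ai hAAi hiso hnil (i - 1)
  have h2' := even_rank_orth h2 b hsym hnd A Ai hAAi hiso hnil i
  rw [hr] at h1 h2'
  have h3 := count_identity d j (by omega)
  rw [← count_eq_card]
  have e1 : j - 1 = 2 * (i - 1) + 1 := by omega
  have e2 : j + 1 = 2 * i + 1 := by omega
  rw [e1, e2] at h3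
  obtain ⟨a, ha⟩ := h1
  obtain ⟨c, hc⟩ := h2'
  exact ⟨a + c - ∑ k, (d k - j), by omega⟩

end Parity

section Blocks

variable {F : Type u} [Field F]

/-- a quadratic space with nondegenerate polar form and a unipotent isometry of Jordan type `s`
exists -/
def QO (F : Type u) [Field F] (s : Multiset ℕ) : Prop :=
  ∃ (V : Type u) (_ : AddCommGroup V) (_ : Module F V) (_ : FiniteDimensional F V)
    (Qf : QuadraticForm F V) (g : Module.End F V) (ι : Type) (_ : Fintype ι) (l : ι → ℕ)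
    (v : ι → V), (∀ x, (∀ y, QuadraticMap.polar Qf x y = 0) → x = 0) ∧
      (∀ x, Qf (g x) = Qf x) ∧ JD (g - 1) ⊤ l v ∧ Finset.univ.val.map l = s

theorem QO_zero : QO F 0 := by
  refine ⟨Fin 0 → F, inferInstance, inferInstance, inferInstance, 0, 1, Empty, inferInstance,
    Empty.elim, Empty.elim, fun x _ => Subsingleton.elim _ _, fun x => rfl,
    ⟨fun i => i.elim, linearIndependent_empty_type, ?_⟩, rfl⟩
  rw [eq_top_iff]
  intro x _
  rw [Subsingleton.elim x 0]
  exact Submodule.zero_mem _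

theorem QO_add {s₁ s₂ : Multiset ℕ} (h₁ : QO F s₁) (h₂ : QO F s₂) : QO F (s₁ + s₂) := by
  obtain ⟨V₁, _, _, _, Q₁, g₁, ι₁, _, l₁, v₁, hnd₁, hiso₁, hj₁, hs₁⟩ := h₁
  obtain ⟨V₂, _, _, _, Q₂, g₂, ι₂, _, l₂, v₂, hnd₂, hiso₂, hj₂, hs₂⟩ := h₂
  refine ⟨V₁ × V₂, inferInstance, inferInstance, inferInstance, Q₁.prod Q₂, g₁.prodMap g₂,
    ι₁ ⊕ ι₂, inferInstance, Sum.elim l₁ l₂, Sum.elim (fun i => (v₁ i, 0)) (fun i => (0, v₂ i)),
    ?_, ?_, ?_, ?_⟩
  · intro x hx
    have hx1 : x.1 = 0 := by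
      apply hnd₁
      intro y
      have h3 := hx (y, 0)
      rw [QuadraticMap.polar_prod] at h3
      simpa using h3
    have hx2 : x.2 = 0 := by
      apply hnd₂
      intro y
      have h3 := hx (0, y)
      rw [QuadraticMap.polar_prod] at h3
      simpa using h3
    exact Prod.ext hx1 hx2
  · intro x
    rw [QuadraticMap.prod_apply, QuadraticMap.prod_apply]
    show Q₁ (g₁ x.1) + Q₂ (g₂ x.2) = _
    rw [hiso₁, hiso₂]
  · rw [prodMap_sub_one]
    exact JD_prod hj₁ hj₂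
  · rw [← hs₁, ← hs₂]
    exact map_sum_elim l₁ l₂

theorem QO_pair (a : ℕ) (ha : 1 ≤ a) : QO F {a, a} := by
  classical
  obtain ⟨M₀, v₀, hJD⟩ := Cfsg.Agent.Helper16.Jordan.exists_rep (F := F) (n := a)
    (fun _ : Unit => a) (by simp)
  have hM₀a : M₀ ^ a = 0 := by
    have h1 := hJD.pow_eq_zero a (fun _ => le_refl a)
    have h2 : Matrix.toLin' M₀ = Matrix.toLinAlgEquiv' M₀ := rfl
    rw [h2, ← map_pow] at h1
    exact (Matrix.toLinAlgEquiv' (R := F) (n := Fin a)).injective (h1.trans (map_zero _).symm)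
  have hM₀a1 : M₀ ^ (a - 1) ≠ 0 := by
    intro h0
    have h1 := hJD.li.ne_zero ⟨(), ⟨a - 1, by omega⟩⟩
    apply h1
    show ((Matrix.toLin' M₀) ^ (a - 1)) (v₀ ()) = 0
    have h2 : Matrix.toLin' M₀ = Matrix.toLinAlgEquiv' M₀ := rfl
    rw [h2, ← map_pow, h0, map_zero, LinearMap.zero_apply]
  have hnil : IsNilpotent M₀ := ⟨a, hM₀a⟩
  obtain ⟨u, hu⟩ := hnil.isUnit_one_add
  obtain ⟨Ui, hUi⟩ : ∃ Ui : Matrix (Fin a) (Fin a) F,
      Ui = ((u⁻¹ : (Matrix (Fin a) (Fin a) F)ˣ) : Matrix (Fin a) (Fin a) F) := ⟨_, rfl⟩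
  have h1 : (1 + M₀) * Ui = 1 := by rw [← hu, hUi]; exact u.mul_inv
  have h2 : Ui * (1 + M₀) = 1 := by rw [← hu, hUi]; exact u.inv_mul
  obtain ⟨C, hC⟩ : ∃ C : Matrix (Fin a) (Fin a) F, C = Uiᵀ := ⟨_, rfl⟩
  obtain ⟨D, hD⟩ : ∃ D : Matrix (Fin a) (Fin a) F, D = M₀ᵀ := ⟨_, rfl⟩
  have hC1 : C * (1 + D) = 1 := by
    have h := congrArg Matrix.transpose h1
    rw [Matrix.transpose_mul, Matrix.transpose_add, Matrix.transpose_one] at h
    rw [hC, hD]; exact h
  have hC2 : (1 + D) * C = 1 := by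
    have h := congrArg Matrix.transpose h2
    rw [Matrix.transpose_mul, Matrix.transpose_add, Matrix.transpose_one] at h
    rw [hC, hD]; exact h
  have hDa : D ^ a = 0 := by rw [hD, ← Matrix.transpose_pow, hM₀a, Matrix.transpose_zero]
  have hDa1 : D ^ (a - 1) ≠ 0 := by
    intro h0
    apply hM₀a1
    rw [hD, ← Matrix.transpose_pow] at h0
    have h3 := congrArg Matrix.transpose h0
    rw [Matrix.transpose_transpose, Matrix.transpose_zero] at h3
    exact h3
  have e1 : C + C * D = 1 := by rw [← hC1, Matrix.mul_add, Matrix.mul_one]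
  have e2 : C + D * C = 1 := by rw [← hC2, Matrix.add_mul, Matrix.one_mul]
  have hCD : C - 1 = (-C) * D := by
    rw [neg_mul]
    calc C - 1 = C - (C + C * D) := by rw [e1]
      _ = -(C * D) := by abel
  have hDC : C * D = D * C := add_left_cancel (e1.trans e2.symm)
  have hcomm : Commute (-C) D := by
    show (-C) * D = D * (-C)
    rw [neg_mul, mul_neg, hDC]
  have hpow : ∀ i : ℕ, (C - 1) ^ i = (-C) ^ i * D ^ i := by
    intro i; rw [hCD, hcomm.mul_pow]
  have hCa : (C - 1) ^ a = 0 := by rw [hpow, hDa, Matrix.mul_zero]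
  have hCa1 : (C - 1) ^ (a - 1) ≠ 0 := by
    intro h0
    apply hDa1
    rw [hpow] at h0
    have hinv : (-(1 + D)) ^ (a - 1) * (-C) ^ (a - 1) = 1 := by
      have hc2 : Commute (-(1 + D)) (-C) := by
        show (-(1 + D)) * (-C) = (-C) * (-(1 + D))
        rw [neg_mul_neg, neg_mul_neg, hC1, hC2]
      rw [← hc2.mul_pow, neg_mul_neg, hC2, one_pow]
    have h3 : (-(1 + D)) ^ (a - 1) * ((-C) ^ (a - 1) * D ^ (a - 1))
        = (-(1 + D)) ^ (a - 1) * 0 := by rw [h0]
    rw [← Matrix.mul_assoc, hinv, Matrix.one_mul, Matrix.mul_zero] at h3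
    exact h3
  have hcyc : ∃ e₂ : Fin a → F,
      ((Matrix.toLinAlgEquiv' (C - 1) : Module.End F (Fin a → F)) ^ (a - 1)) e₂ ≠ 0 := by
    by_contra hall
    push_neg at hall
    apply hCa1
    have h3 : (Matrix.toLinAlgEquiv' (C - 1) : Module.End F (Fin a → F)) ^ (a - 1) = 0 :=
      LinearMap.ext hall
    rw [← map_pow] at h3
    exact (Matrix.toLinAlgEquiv' (R := F) (n := Fin a)).injective (h3.trans (map_zero _).symm)
  obtain ⟨e₂, he₂⟩ := hcyc
  have hN₂a : (Matrix.toLinAlgEquiv' (C - 1) : Module.End F (Fin a → F)) ^ a = 0 := by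
    rw [← map_pow, hCa, map_zero]
  have hJD₂ := JD_single (Matrix.toLinAlgEquiv' (C - 1) : Module.End F (Fin a → F)) a
    (Module.finrank_fin_fun F) hN₂a e₂ he₂
  have hg1 : Matrix.toLin' (1 + M₀) - 1 = Matrix.toLin' M₀ := by
    apply LinearMap.ext
    intro x
    rw [LinearMap.sub_apply, Matrix.toLin'_apply, Matrix.add_mulVec, Matrix.one_mulVec,
      Module.End.one_apply, Matrix.toLin'_apply, add_sub_cancel_left]
  have hg2 : Matrix.toLin' C - 1 =
      (Matrix.toLinAlgEquiv' (C - 1) : Module.End F (Fin a → F)) := by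
    apply LinearMap.ext
    intro x
    rw [LinearMap.sub_apply, Matrix.toLin'_apply, Module.End.one_apply,
      Matrix.toLinAlgEquiv'_apply, Matrix.sub_mulVec, Matrix.one_mulVec]
  obtain ⟨β, hβ⟩ : ∃ β : LinearMap.BilinForm F ((Fin a → F) × (Fin a → F)),
      ∀ p q, β p q = p.1 ⬝ᵥ q.2 :=
    ⟨LinearMap.mk₂ F (fun p q => p.1 ⬝ᵥ q.2)
      (fun p p' q => by simp only [Prod.fst_add, add_dotProduct])
      (fun c p q => by simp only [Prod.smul_fst, smul_dotProduct, smul_eq_mul])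
      (fun p q q' => by simp only [Prod.snd_add, dotProduct_add])
      (fun c p q => by simp only [Prod.smul_snd, dotProduct_smul, smul_eq_mul]),
      fun p q => rfl⟩
  have hUtC : (1 + M₀)ᵀ * C = 1 := by
    rw [Matrix.transpose_add, Matrix.transpose_one, ← hD]; exact hC2
  have hUC : ∀ x y : Fin a → F, ((1 + M₀) *ᵥ x) ⬝ᵥ (C *ᵥ y) = x ⬝ᵥ y := by
    intro x y
    rw [← Matrix.vecMul_transpose (1 + M₀) x, ← Matrix.dotProduct_mulVec, Matrix.mulVec_mulVec,
      hUtC, Matrix.one_mulVec]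
  refine ⟨(Fin a → F) × (Fin a → F), inferInstance, inferInstance, inferInstance,
    LinearMap.BilinMap.toQuadraticMap β,
    (Matrix.toLin' (1 + M₀)).prodMap (Matrix.toLin' C), Unit ⊕ Unit, inferInstance,
    Sum.elim (fun _ => a) (fun _ => a),
    Sum.elim (fun i => (v₀ i, 0)) (fun _ => (0, e₂)), ?_, ?_, ?_, ?_⟩
  · intro p hp
    have hp1 : p.1 = 0 := by
      funext i
      have h3 := hp (0, Pi.single i 1)
      rw [LinearMap.BilinMap.polar_toQuadraticMap, hβ, hβ] at h3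
      simpa using h3
    have hp2 : p.2 = 0 := by
      funext i
      have h3 := hp (Pi.single i 1, 0)
      rw [LinearMap.BilinMap.polar_toQuadraticMap, hβ, hβ] at h3
      simpa using h3
    exact Prod.ext hp1 hp2
  · intro p
    rw [LinearMap.BilinMap.toQuadraticMap_apply, LinearMap.BilinMap.toQuadraticMap_apply, hβ, hβ]
    show ((Matrix.toLin' (1 + M₀)) p.1) ⬝ᵥ ((Matrix.toLin' C) p.2) = _
    rw [Matrix.toLin'_apply, Matrix.toLin'_apply, hUC]
  · rw [prodMap_sub_one, hg1, hg2]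
    exact JD_prod hJD hJD₂
  · rw [map_sum_elim]
    rfl

theorem QO_odd (h2 : (2 : F) ≠ 0) (k : ℕ) : QO F {2 * k + 1} := by
  classical
  obtain ⟨n, hn⟩ : ∃ n : ℕ, n = 2 * k + 1 := ⟨_, rfl⟩
  rw [← hn]
  have hmon : (X ^ n : F[X]).Monic := monic_X_pow n
  have hne0 : (X ^ n : F[X]) ≠ 0 := hmon.ne_zero
  haveI : Module.Finite F (AdjoinRoot (X ^ n : F[X])) := (AdjoinRoot.powerBasis hne0).finite
  have hfr : Module.finrank F (AdjoinRoot (X ^ n : F[X])) = n := by
    rw [(AdjoinRoot.powerBasis hne0).finrank, AdjoinRoot.powerBasis_dim, natDegree_X_pow]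
  obtain ⟨x, hx⟩ : ∃ x : AdjoinRoot (X ^ n : F[X]), x = AdjoinRoot.root (X ^ n) := ⟨_, rfl⟩
  have hxmk : ∀ j : ℕ, x ^ j = AdjoinRoot.mk (X ^ n) (X ^ j) := by
    intro j; rw [hx, map_pow, AdjoinRoot.mk_X]
  have hxn : x ^ n = 0 := by rw [hxmk, AdjoinRoot.mk_self]
  obtain ⟨μ, hμ⟩ := SpPal.exists_mu (X ^ n : F[X]) hmon (n - 1)
  have hμ' : ∀ p : F[X], μ (AdjoinRoot.mk (X ^ n) p) = p.coeff (n - 1) := by
    intro p
    rw [hμ]
    have h1 := modByMonic_add_div p (X ^ n)
    have h3 : p.coeff (n - 1) =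
        (p %ₘ X ^ n).coeff (n - 1) + (X ^ n * (p /ₘ X ^ n)).coeff (n - 1) := by
      rw [← coeff_add, h1]
    rw [h3, coeff_X_pow_mul', if_neg (by omega), add_zero]
  have hτ0 : (X ^ n : F[X]).eval₂
      (↑(Algebra.ofId F (AdjoinRoot (X ^ n : F[X]))) : F →+* AdjoinRoot (X ^ n : F[X])) (-x)
        = 0 := by
    rw [eval₂_X_pow, neg_pow, hxn, mul_zero]
  obtain ⟨τ, hτ⟩ : ∃ τ : AdjoinRoot (X ^ n : F[X]) →ₐ[F] AdjoinRoot (X ^ n : F[X]),
      τ = AdjoinRoot.liftAlgHom (X ^ n : F[X]) (Algebra.ofId F _) (-x) hτ0 := ⟨_, rfl⟩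
  have hτx : τ x = -x := by
    have h := AdjoinRoot.liftAlgHom_root (X ^ n : F[X]) (Algebra.ofId F _) (-x) hτ0
    rw [← hx, ← hτ] at h
    exact h
  have hτmk : ∀ p : F[X],
      τ (AdjoinRoot.mk (X ^ n) p) = AdjoinRoot.mk (X ^ n) (p.comp (-X)) := by
    intro p
    have h1 : (τ.comp (AdjoinRoot.mkₐ (X ^ n : F[X]))) =
        ((AdjoinRoot.mkₐ (X ^ n : F[X])).comp (Polynomial.aeval (-X : F[X]))) := by
      apply Polynomial.algHom_ext
      rw [AlgHom.comp_apply, AlgHom.comp_apply, AdjoinRoot.coe_mkₐ, AdjoinRoot.mk_X, ← hx, hτx,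
        aeval_X, map_neg, AdjoinRoot.mk_X, ← hx]
    have h3 := AlgHom.congr_fun h1 p
    rw [AlgHom.comp_apply, AlgHom.comp_apply, AdjoinRoot.coe_mkₐ, ← comp_eq_aeval] at h3
    exact h3
  have hμτ : ∀ a, μ (τ a) = μ a := by
    intro a
    obtain ⟨p, rfl⟩ := AdjoinRoot.mk_surjective a
    rw [hτmk, hμ', hμ', coeff_comp_neg, Even.neg_one_pow ⟨k, by omega⟩, one_mul]
  have hττ : ∀ a, τ (τ a) = a := by
    intro a
    obtain ⟨p, rfl⟩ := AdjoinRoot.mk_surjective a
    rw [hτmk, hτmk, Polynomial.comp_assoc, neg_comp, X_comp, neg_neg, comp_X]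
  have hsymμ : ∀ a c, μ (a * τ c) = μ (c * τ a) := by
    intro a c
    rw [← hμτ (c * τ a), map_mul τ, hττ, mul_comm]
  have hndμ : ∀ a, (∀ c, μ (a * c) = 0) → a = 0 := by
    intro a ha
    obtain ⟨p, rfl⟩ := AdjoinRoot.mk_surjective a
    rw [AdjoinRoot.mk_eq_zero, X_pow_dvd_iff]
    intro i hi
    have h1 := ha (AdjoinRoot.mk (X ^ n) (X ^ (n - 1 - i)))
    rw [← map_mul, hμ', coeff_mul_X_pow', if_pos (by omega)] at h1
    have e : n - 1 - (n - 1 - i) = i := by omega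
    rw [e] at h1
    exact h1
  obtain ⟨b, hb⟩ : ∃ b : LinearMap.BilinForm F (AdjoinRoot (X ^ n : F[X])),
      ∀ a c, b a c = μ (a * τ c) :=
    ⟨LinearMap.mk₂ F (fun a c => μ (a * τ c))
      (fun a a' c => by rw [add_mul, map_add])
      (fun r a c => by rw [smul_mul_assoc, map_smul])
      (fun a c c' => by rw [map_add, mul_add, map_add])
      (fun r a c => by rw [map_smul, mul_smul_comm, map_smul]), fun a c => rfl⟩
  obtain ⟨y, hy⟩ : ∃ y : AdjoinRoot (X ^ n : F[X]), (1 - x) * y = 1 :=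
    ⟨∑ i ∈ Finset.range n, x ^ i, by rw [mul_neg_geom_sum, hxn, sub_zero]⟩
  have hτy : (1 + x) * τ y = 1 := by
    have h := congrArg τ hy
    rw [map_mul, map_sub, map_one, hτx, sub_neg_eq_add] at h
    exact h
  obtain ⟨w, hw⟩ : ∃ w : AdjoinRoot (X ^ n : F[X]), w = (1 + x) * y := ⟨_, rfl⟩
  have hτw : τ w = (1 - x) * τ y := by
    rw [hw, map_mul, map_add, map_one, hτx, ← sub_eq_add_neg]
  have hww : w * τ w = 1 := by
    rw [hτw, hw]
    calc (1 + x) * y * ((1 - x) * τ y) = ((1 - x) * y) * ((1 + x) * τ y) := by ring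
      _ = 1 := by rw [hy, hτy, one_mul]
  obtain ⟨u, hu⟩ : ∃ u : AdjoinRoot (X ^ n : F[X]), u = (2 : F) • y := ⟨_, rfl⟩
  have hw1 : w - 1 = x * u := by
    rw [hw, hu, mul_smul_comm, two_smul]
    calc (1 + x) * y - 1 = (1 + x) * y - (1 - x) * y := by rw [hy]
      _ = x * y + x * y := by ring
  obtain ⟨u', hu'⟩ : ∃ u' : AdjoinRoot (X ^ n : F[X]), u * u' = 1 :=
    ⟨(2⁻¹ : F) • (1 - x), by
      rw [hu, smul_mul_smul_comm, mul_inv_cancel₀ h2, one_smul, mul_comm, hy]⟩
  obtain ⟨g, hg⟩ : ∃ g : Module.End F (AdjoinRoot (X ^ n : F[X])), ∀ a, g a = w * a :=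
    ⟨LinearMap.mulLeft F w, fun a => rfl⟩
  have hgpow : ∀ (j : ℕ) (a : AdjoinRoot (X ^ n : F[X])),
      ((g - 1) ^ j) a = (x * u) ^ j * a := by
    intro j
    induction j with
    | zero => intro a; rw [pow_zero, pow_zero, Module.End.one_apply, one_mul]
    | succ j ih =>
      intro a
      rw [pow_succ_apply, ih, LinearMap.sub_apply, hg, Module.End.one_apply, pow_succ', ← hw1]
      ring
  have hNn : (g - 1) ^ n = 0 := by
    apply LinearMap.ext
    intro a
    rw [hgpow, mul_pow, hxn, zero_mul, zero_mul, LinearMap.zero_apply]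
  have hxn1 : x ^ (n - 1) ≠ 0 := by
    intro h0
    have h1 := hμ' (X ^ (n - 1))
    rw [← hxmk, h0, map_zero, coeff_X_pow_self] at h1
    exact zero_ne_one h1
  have hne : ((g - 1) ^ (n - 1)) 1 ≠ 0 := by
    rw [hgpow, mul_one, mul_pow]
    intro h0
    apply hxn1
    calc x ^ (n - 1) = x ^ (n - 1) * u ^ (n - 1) * u' ^ (n - 1) := by
          rw [mul_assoc, ← mul_pow, hu', one_pow, mul_one]
      _ = 0 := by rw [h0, zero_mul]
  refine ⟨AdjoinRoot (X ^ n : F[X]), inferInstance, inferInstance, inferInstance,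
    LinearMap.BilinMap.toQuadraticMap b, g, Unit, inferInstance, fun _ => n, fun _ => 1,
    ?_, ?_, ?_, rfl⟩
  · intro a ha
    apply hndμ
    intro c
    have h1 := ha (τ c)
    rw [LinearMap.BilinMap.polar_toQuadraticMap, hb, hb, hττ, hsymμ (τ c) a, hττ] at h1
    have h3 : (2 : F) * μ (a * c) = 0 := by rw [two_mul]; exact h1
    rcases mul_eq_zero.mp h3 with h4 | h4
    · exact absurd h4 h2
    · exact h4
  · intro a
    rw [LinearMap.BilinMap.toQuadraticMap_apply, LinearMap.BilinMap.toQuadraticMap_apply, hb, hb,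
      hg, map_mul τ]
    have e1 : w * a * (τ w * τ a) = (w * τ w) * (a * τ a) := by ring
    rw [e1, hww, one_mul]
  · exact JD_single (g - 1) n hfr hNn 1 hne

theorem QO_of_parity (h2 : (2 : F) ≠ 0) : ∀ (n : ℕ) (s : Multiset ℕ), Multiset.card s = n →
    (∀ a ∈ s, 1 ≤ a) → (∀ j, Even j → 0 < j → Even (Multiset.count j s)) → QO F s := by
  intro n
  induction n using Nat.strong_induction_on with
  | _ n ih =>
  intro s hcard hpos hpar
  rcases Multiset.empty_or_exists_mem s with rfl | ⟨a, ha⟩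
  · exact QO_zero
  · have hn0 : 0 < n := by
      rw [← hcard]; exact Multiset.card_pos_iff_exists_mem.mpr ⟨a, ha⟩
    rcases Nat.even_or_odd a with hae | hao
    · have ha1 := hpos a ha
      have hc := hpar a hae (by omega)
      have hc1 : 1 ≤ Multiset.count a s := Multiset.one_le_count_iff_mem.mpr ha
      have hc2 : 2 ≤ Multiset.count a s := by obtain ⟨c, hc⟩ := hc; omega
      have ha' : a ∈ s.erase a := by
        rw [← Multiset.count_pos, Multiset.count_erase_self]; omega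
      have hs : s = {a, a} + (s.erase a).erase a := by
        rw [show ({a, a} : Multiset ℕ) = a ::ₘ {a} from rfl, Multiset.cons_add,
          Multiset.singleton_add, Multiset.cons_erase ha', Multiset.cons_erase ha]
      have h2n : 2 ≤ n := by
        rw [← hcard]; exact hc2.trans (Multiset.count_le_card a s)
      rw [hs]
      apply QO_add
      · exact QO_pair a ha1
      · apply ih (n - 2) (by omega) ((s.erase a).erase a)
        · have h := Multiset.card_erase_of_mem ha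
          have h' := Multiset.card_erase_of_mem ha'
          rw [hcard] at h
          rw [h] at h'
          rw [h']; rfl
        · intro b hb
          exact hpos b (Multiset.mem_of_mem_erase (Multiset.mem_of_mem_erase hb))
        · intro j hj hj0
          by_cases hja : j = a
          · subst hja
            rw [Multiset.count_erase_self, Multiset.count_erase_self]
            obtain ⟨c, hc⟩ := hc
            exact ⟨c - 1, by omega⟩
          · rw [Multiset.count_erase_of_ne hja, Multiset.count_erase_of_ne hja]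
            exact hpar j hj hj0
    · obtain ⟨k, hk⟩ := hao
      have hs : s = {a} + s.erase a := by rw [Multiset.singleton_add, Multiset.cons_erase ha]
      rw [hs]
      apply QO_add
      · rw [hk]; exact QO_odd h2 k
      · apply ih (n - 1) (by omega) (s.erase a)
        · have h := Multiset.card_erase_of_mem ha
          rw [hcard] at h
          rw [h]; rfl
        · intro b hb; exact hpos b (Multiset.mem_of_mem_erase hb)
        · intro j hj hj0
          have hne : j ≠ a := by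
            intro hja
            rw [hja] at hj
            exact (Nat.not_even_iff_odd.mpr ⟨k, hk⟩) hj
          rw [Multiset.count_erase_of_ne hne]
          exact hpar j hj hj0

end Blocks

section Final

variable {F : Type u} [Field F]

/-- the parity condition is sufficient -/
theorem exists_orth_of_parity (h2 : (2 : F) ≠ 0) {n t : ℕ} (d : Fin t → ℕ) (hd : ∀ k, 1 ≤ d k)
    (hsum : ∑ k, d k = n)
    (hpar : ∀ j, Even j → 0 < j → Even (Finset.univ.filter (fun k : Fin t => d k = j)).card) :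
    ∃ Q : QuadraticForm F (Fin n → F), (QuadraticMap.polarBilin Q).Nondegenerate ∧
      ∃ e : ((k : Fin t) × Fin (d k)) ≃ Fin n, ∃ A : ↥(Cfsg.isometryGroup F ⇑Q),
        IsConj (Matrix.reindex e e (Cfsg.jordanTypeMatrix d F))
          ((A : Matrix.GeneralLinearGroup (Fin n) F) : Matrix (Fin n) (Fin n) F) := by
  classical
  have hQ : QO F (Finset.univ.val.map d) := by
    apply QO_of_parity h2 _ _ rfl
    · intro a ha
      obtain ⟨k, -, rfl⟩ := Multiset.mem_map.mp ha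
      exact hd k
    · intro j hj hj0
      rw [count_eq_card]
      exact hpar j hj hj0
  obtain ⟨V, _, _, _, Qf, g, ι, _, l, v, hnd, hiso, hjd, hms⟩ := hQ
  have hdimV : Module.finrank F V = n := by
    have e1 := finrank_span_eq_card hjd.li
    rw [hjd.span, finrank_top, Fintype.card_sigma] at e1
    simp only [Fintype.card_fin] at e1
    have e2 : ∑ i, l i = ∑ k, d k := congrArg Multiset.sum hms
    rw [e1, e2, hsum]
  have hfr' : Module.finrank F (Fin n → F) = n := Module.finrank_fin_fun F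
  obtain ⟨e₀⟩ : Nonempty (V ≃ₗ[F] (Fin n → F)) :=
    ⟨LinearEquiv.ofFinrankEq V (Fin n → F) (by rw [hdimV, hfr'])⟩
  obtain ⟨Q, hQ⟩ : ∃ Q : QuadraticForm F (Fin n → F), ∀ u, Q u = Qf (e₀.symm u) :=
    ⟨Qf.comp (e₀.symm : (Fin n → F) →ₗ[F] V), fun u => rfl⟩
  have hpolar : ∀ u w, QuadraticMap.polar Q u w =
      QuadraticMap.polar Qf (e₀.symm u) (e₀.symm w) := by
    intro u w
    rw [QuadraticMap.polar, QuadraticMap.polar, hQ, hQ, hQ, map_add]
  have hQnd : ∀ u, (∀ w, QuadraticMap.polar Q u w = 0) → u = 0 := by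
    intro u hu
    have h1 : e₀.symm u = 0 := by
      apply hnd
      intro y
      have h3 := hu (e₀ y)
      rw [hpolar, e₀.symm_apply_apply] at h3
      exact h3
    have h4 := congrArg e₀ h1
    rw [e₀.apply_symm_apply, map_zero] at h4
    exact h4
  have hQnondeg : (QuadraticMap.polarBilin Q).Nondegenerate := by
    refine ⟨fun u hu => hQnd u (fun w => ?_), fun w hw => hQnd w (fun u => ?_)⟩
    · rw [← QuadraticMap.polarBilin_apply_apply]; exact hu w
    · rw [QuadraticMap.polar_comm, ← QuadraticMap.polarBilin_apply_apply]; exact hw u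
  obtain ⟨T, hT⟩ : ∃ T : Module.End F (Fin n → F), ∀ u, T u = e₀ (g (e₀.symm u)) :=
    ⟨e₀.conj g, fun u => rfl⟩
  have hTiso : ∀ u, Q (T u) = Q u := by
    intro u
    rw [hQ, hQ, hT, e₀.symm_apply_apply, hiso]
  have hTpolar : ∀ u w, QuadraticMap.polar Q (T u) (T w) = QuadraticMap.polar Q u w := by
    intro u w
    rw [QuadraticMap.polar, QuadraticMap.polar, ← map_add, hTiso, hTiso, hTiso]
  have hinj : Function.Injective T := by
    rw [injective_iff_map_eq_zero]
    intro a ha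
    apply hQnd
    intro w
    rw [← hTpolar, ha, QuadraticMap.polar_zero_left]
  obtain ⟨Te, hTe⟩ : ∃ Te : (Fin n → F) ≃ₗ[F] (Fin n → F), ∀ a, Te a = T a :=
    ⟨LinearMap.linearEquivOfInjective T hinj rfl,
      fun a => LinearMap.linearEquivOfInjective_apply hinj _ a⟩
  have hAT : ∀ u, LinearMap.toMatrix' T *ᵥ u = T u := by
    intro u
    rw [← Matrix.toLin'_apply, Matrix.toLin'_toMatrix']
  obtain ⟨Ai, hAi⟩ : ∃ Ai : Matrix (Fin n) (Fin n) F, ∀ w, Ai *ᵥ w = Te.symm w :=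
    ⟨LinearMap.toMatrix' (Te.symm : (Fin n → F) →ₗ[F] (Fin n → F)), fun w => by
      rw [← Matrix.toLin'_apply, Matrix.toLin'_toMatrix']; rfl⟩
  have hAAi : LinearMap.toMatrix' T * Ai = 1 := by
    apply Matrix.toLin'.injective
    apply LinearMap.ext
    intro w
    rw [Matrix.toLin'_apply, ← Matrix.mulVec_mulVec, hAi, hAT, ← hTe, Te.apply_symm_apply,
      Matrix.toLin'_one, LinearMap.id_apply]
  have hAiA : Ai * LinearMap.toMatrix' T = 1 := mul_eq_one_comm.mp hAAi
  have hmem : (⟨LinearMap.toMatrix' T, Ai, hAAi, hAiA⟩ : Matrix.GeneralLinearGroup (Fin n) F) ∈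
      Cfsg.isometryGroup F ⇑Q := by
    show ∀ u v : Fin n → F, Q (LinearMap.toMatrix' T *ᵥ u) = Q u
    intro u _
    rw [hAT, hTiso]
  have hJ := jordan_JD (F := F) d hd
  obtain ⟨φ, hφ⟩ := conj_of_JD' hJ hjd (by rw [hms])
  have hφJ : ∀ x, φ (Cfsg.jordanTypeMatrix d F *ᵥ x) = g (φ x) := by
    intro x
    have h1 := hφ x
    rw [Matrix.toLin'_apply, Matrix.sub_mulVec, Matrix.one_mulVec, map_sub, LinearMap.sub_apply,
      Module.End.one_apply] at h1
    exact sub_left_inj.mp h1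
  obtain ⟨e⟩ : Nonempty (((k : Fin t) × Fin (d k)) ≃ Fin n) :=
    ⟨Fintype.equivOfCardEq (by
      rw [Fintype.card_sigma, Fintype.card_fin]
      simp only [Fintype.card_fin]
      exact hsum)⟩
  refine ⟨Q, hQnondeg, e, ⟨⟨LinearMap.toMatrix' T, Ai, hAAi, hAiA⟩, hmem⟩, ?_⟩
  show IsConj (Matrix.reindex e e (Cfsg.jordanTypeMatrix d F)) (LinearMap.toMatrix' T)
  obtain ⟨Ψ, hΨ⟩ : ∃ Ψ : (Fin n → F) ≃ₗ[F] (Fin n → F), ∀ w, Ψ w = e₀ (φ (w ∘ e)) :=
    ⟨(LinearEquiv.funCongrLeft F F e).trans (φ.trans e₀), fun w => rfl⟩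
  obtain ⟨C, hC⟩ : ∃ C : Matrix (Fin n) (Fin n) F, ∀ w, C *ᵥ w = Ψ w :=
    ⟨LinearMap.toMatrix' (Ψ : (Fin n → F) →ₗ[F] (Fin n → F)), fun w => by
      rw [← Matrix.toLin'_apply, Matrix.toLin'_toMatrix']; rfl⟩
  obtain ⟨Ci, hCi⟩ : ∃ Ci : Matrix (Fin n) (Fin n) F, ∀ w, Ci *ᵥ w = Ψ.symm w :=
    ⟨LinearMap.toMatrix' (Ψ.symm : (Fin n → F) →ₗ[F] (Fin n → F)), fun w => by
      rw [← Matrix.toLin'_apply, Matrix.toLin'_toMatrix']; rfl⟩
  have hCCi : C * Ci = 1 := by
    apply Matrix.toLin'.injective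
    apply LinearMap.ext
    intro w
    rw [Matrix.toLin'_apply, ← Matrix.mulVec_mulVec, hCi, hC, Ψ.apply_symm_apply,
      Matrix.toLin'_one, LinearMap.id_apply]
  have hCiC : Ci * C = 1 := mul_eq_one_comm.mp hCCi
  have hR : ∀ w : Fin n → F,
      (Matrix.reindex e e (Cfsg.jordanTypeMatrix d F) *ᵥ w) ∘ e =
        Cfsg.jordanTypeMatrix d F *ᵥ (w ∘ e) := by
    intro w
    rw [Matrix.reindex_apply, Matrix.submatrix_mulVec_equiv]
    funext x
    simp
  have hint : C * Matrix.reindex e e (Cfsg.jordanTypeMatrix d F) = LinearMap.toMatrix' T * C := by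
    apply Matrix.toLin'.injective
    apply LinearMap.ext
    intro w
    rw [Matrix.toLin'_apply, Matrix.toLin'_apply, ← Matrix.mulVec_mulVec, ← Matrix.mulVec_mulVec,
      hC, hC, hAT, hΨ, hΨ, hT, e₀.symm_apply_apply, ← hφJ, hR]
  exact ⟨⟨C, Ci, hCCi, hCiC⟩, hint⟩

end Final

end Cfsg.Agent.Helper14.JordO
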