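import Mathlib
import Cfsg.Prelude.Def_JordanBlocks
import Cfsg.Agent.Helper14.JordO
import Cfsg.Agent.S2585
import Cfsg.Agent.S0766

/-!
Jordan types of unipotent isometries of quadratic forms in characteristic two (even dimension):
odd parts occur with even multiplicity, and every such type occurs.
-/

set_option autoImplicit false
open Polynomial
open scoped Matrix

namespace Cfsg.Agent.Helper14.JordO2

open Cfsg.Agent.Helper16.Jordan Cfsg.Agent.Helper14.RegUniSp Cfsg.Agent.Helper14.JordSp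
  Cfsg.Agent.Helper14.JordO

universe u

section Parity

variable {F : Type*} [Field F]

theorem even_rank_alt_iso {n : ℕ} (b : LinearMap.BilinForm F (Fin n → F))
    (halt : ∀ x, b x x = 0) (hnd : ∀ x, (∀ y, b x y = 0) → x = 0)
    (A Ai : Matrix (Fin n) (Fin n) F) (hAAi : A * Ai = 1)
    (hiso : ∀ u v, b (A *ᵥ u) (A *ᵥ v) = b u v) (k : ℕ) :
    Even ((A - 1) ^ (2 * k)).rank := by
  classical
  have hAiA : Ai * A = 1 := mul_eq_one_comm.mp hAAi
  have hadj : ∀ u v, b (A *ᵥ u) v = b u (Ai *ᵥ v) := by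
    intro u v
    have h := hiso u (Ai *ᵥ v)
    rw [Matrix.mulVec_mulVec, hAAi, Matrix.one_mulVec] at h
    exact h
  obtain ⟨N, hN⟩ : ∃ N : Matrix (Fin n) (Fin n) F, N = A - 1 := ⟨_, rfl⟩
  obtain ⟨N', hN'⟩ : ∃ N' : Matrix (Fin n) (Fin n) F, N' = Ai - 1 := ⟨_, rfl⟩
  rw [← hN]
  have hadjN : ∀ u v, b (N *ᵥ u) v = b u (N' *ᵥ v) := by
    intro u v
    rw [hN, hN', Matrix.sub_mulVec, Matrix.sub_mulVec, Matrix.one_mulVec, Matrix.one_mulVec,
      LinearMap.map_sub₂, map_sub, hadj]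
  have hadjNk : ∀ (k : ℕ) (u v : Fin n → F), b ((N ^ k) *ᵥ u) v = b u ((N' ^ k) *ᵥ v) := by
    intro k
    induction k with
    | zero => intro u v; rw [pow_zero, pow_zero, Matrix.one_mulVec, Matrix.one_mulVec]
    | succ k ih =>
      intro u v
      rw [pow_succ, ← Matrix.mulVec_mulVec, ih, hadjN, Matrix.mulVec_mulVec, ← pow_succ']
  obtain ⟨M, hM⟩ : ∃ M : Matrix (Fin n) (Fin n) F, M = N ^ k * N' ^ k := ⟨_, rfl⟩
  have hMalt : ∀ u, b (M *ᵥ u) u = 0 := by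
    intro u
    rw [hM, ← Matrix.mulVec_mulVec, hadjNk]
    exact halt _
  have hcA : Commute A Ai := by
    show A * Ai = Ai * A
    rw [hAAi, hAiA]
  have hcN : Commute N Ai := by
    rw [hN]; exact hcA.sub_left (Commute.one_left Ai)
  have hcNnAi : Commute N (-Ai) := hcN.neg_right
  have hN'N : N' = N * (-Ai) := by
    rw [hN', hN, Matrix.sub_mul, Matrix.one_mul, Matrix.mul_neg, hAAi]
    abel
  have hM2 : M = N ^ (2 * k) * (-Ai) ^ k := by
    rw [hM, hN'N, hcNnAi.mul_pow, ← mul_assoc, ← pow_add, ← two_mul]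
  have hU : (-Ai) ^ k * (-A) ^ k = 1 := by
    have hc2 : Commute (-Ai) (-A) := by
      show (-Ai) * (-A) = (-A) * (-Ai)
      rw [neg_mul_neg, neg_mul_neg, hAAi, hAiA]
    rw [← hc2.mul_pow, neg_mul_neg, hAiA, one_pow]
  have h := even_rank_of_alt' b hnd M hMalt
  rw [hM2, Matrix.rank_mul_eq_left_of_isUnit_det _ _ (Matrix.isUnit_det_of_right_inverse hU)]
    at h
  exact h

/-- the parity condition is necessary (isometries of a nondegenerate alternating form) -/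
theorem odd_even_of_alt {n t : ℕ} (d : Fin t → ℕ) (hd : ∀ k, 1 ≤ d k)
    (e : ((k : Fin t) × Fin (d k)) ≃ Fin n)
    (b : LinearMap.BilinForm F (Fin n → F)) (halt : ∀ x, b x x = 0)
    (hnd : ∀ x, (∀ y, b x y = 0) → x = 0)
    (A Ai : Matrix (Fin n) (Fin n) F) (hAAi : A * Ai = 1)
    (hiso : ∀ u v, b (A *ᵥ u) (A *ᵥ v) = b u v)
    (h : IsConj (Matrix.reindex e e (Cfsg.jordanTypeMatrix d F)) A) (j : ℕ) (hj : Odd j) :
    Even (Finset.univ.filter (fun k : Fin t => d k = j)).card := by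
  classical
  have hr := rank_of_isConj' d hd e A h
  obtain ⟨i, hi⟩ := hj
  have h1 := even_rank_alt_iso b halt hnd A Ai hAAi hiso i
  have h2 := even_rank_alt_iso b halt hnd A Ai hAAi hiso (i + 1)
  rw [hr] at h1 h2
  have h3 := count_identity d j (by omega)
  rw [← count_eq_card]
  have e1 : j - 1 = 2 * i := by omega
  have e2 : j + 1 = 2 * (i + 1) := by omega
  rw [e1, e2] at h3
  obtain ⟨a, ha⟩ := h1
  obtain ⟨c, hc⟩ := h2
  exact ⟨a + c - ∑ k, (d k - j), by omega⟩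

end Parity

section Final

variable {F : Type u} [Field F]

/-- the parity condition is sufficient in characteristic two -/
theorem exists_orth_char2 [Fintype F] [CharP F 2] {m t : ℕ} (d : Fin t → ℕ)
    (hd : ∀ k, 1 ≤ d k) (hsum : ∑ k, d k = 2 * m)
    (hpar : ∀ j, Odd j → Even (Finset.univ.filter (fun k : Fin t => d k = j)).card) :
    ∃ Q : QuadraticForm F (Fin (2 * m) → F), (QuadraticMap.polarBilin Q).Nondegenerate ∧
      ∃ e : ((k : Fin t) × Fin (d k)) ≃ Fin (2 * m), ∃ A : ↥(Cfsg.isometryGroup F ⇑Q),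
        IsConj (Matrix.reindex e e (Cfsg.jordanTypeMatrix d F))
          ((A : Matrix.GeneralLinearGroup (Fin (2 * m)) F) :
            Matrix (Fin (2 * m)) (Fin (2 * m)) F) := by
  classical
  obtain ⟨e, A, hconj⟩ := JordSp2.exists_sp_of_parity (F := F) d hd hsum hpar
  obtain ⟨Q₀, hQ₀p, hQ₀A⟩ := Cfsg.Agent.S2585.result A
  obtain ⟨σ⟩ : Nonempty (Fin m ⊕ Fin m ≃ Fin (2 * m)) :=
    ⟨Fintype.equivOfCardEq (by
      rw [Fintype.card_sum, Fintype.card_fin, Fintype.card_fin, two_mul])⟩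
  obtain ⟨L, hL⟩ : ∃ L : (Fin (2 * m) → F) ≃ₗ[F] (Fin m ⊕ Fin m → F), ∀ u, L u = u ∘ σ :=
    ⟨LinearEquiv.funCongrLeft F F σ, fun u => rfl⟩
  obtain ⟨Q, hQ⟩ : ∃ Q : QuadraticForm F (Fin (2 * m) → F), ∀ u, Q u = Q₀ (L u) :=
    ⟨Q₀.comp (L : (Fin (2 * m) → F) →ₗ[F] (Fin m ⊕ Fin m → F)), fun u => rfl⟩
  have hpolar : ∀ u w, QuadraticMap.polar Q u w = Cfsg.sympForm m F (L u) (L w) := by
    intro u w
    rw [← hQ₀p, QuadraticMap.polar, QuadraticMap.polar, hQ, hQ, hQ, map_add]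
  have hQnd : ∀ u, (∀ w, QuadraticMap.polar Q u w = 0) → u = 0 := by
    intro u hu
    have h1 : L u = 0 := by
      apply (Cfsg.Agent.S0766.sB_nondeg m F).1
      intro y
      rw [Cfsg.Agent.S0766.sB_apply]
      have h3 := hu (L.symm y)
      rw [hpolar, L.apply_symm_apply] at h3
      exact h3
    have h4 := congrArg L.symm h1
    rw [L.symm_apply_apply, map_zero] at h4
    exact h4
  have hQnondeg : (QuadraticMap.polarBilin Q).Nondegenerate := by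
    refine ⟨fun u hu => hQnd u (fun w => ?_), fun w hw => hQnd w (fun u => ?_)⟩
    · rw [← QuadraticMap.polarBilin_apply_apply]; exact hu w
    · rw [QuadraticMap.polar_comm, ← QuadraticMap.polarBilin_apply_apply]; exact hw u
  obtain ⟨Am, hAm⟩ : ∃ Am : Matrix (Fin m ⊕ Fin m) (Fin m ⊕ Fin m) F,
      Am = (A : Matrix (Fin m ⊕ Fin m) (Fin m ⊕ Fin m) F) := ⟨_, rfl⟩
  have hsp : Am * sig Am = 1 := by rw [hAm]; exact (mem_sp_iff _).mp A.2
  obtain ⟨R, hR⟩ : ∃ R : Matrix (Fin m ⊕ Fin m) (Fin m ⊕ Fin m) F ≃ₐ[F]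
      Matrix (Fin (2 * m)) (Fin (2 * m)) F, ∀ M, R M = Matrix.reindex σ σ M :=
    ⟨Matrix.reindexAlgEquiv F F σ, fun M => rfl⟩
  have hAAi : R Am * R (sig Am) = 1 := by rw [← map_mul, hsp, map_one]
  have hAiA : R (sig Am) * R Am = 1 := mul_eq_one_comm.mp hAAi
  have hact : ∀ (M : Matrix (Fin m ⊕ Fin m) (Fin m ⊕ Fin m) F) (u : Fin (2 * m) → F),
      L (R M *ᵥ u) = M *ᵥ L u := by
    intro M u
    rw [hL, hL, hR, Matrix.reindex_apply, Matrix.submatrix_mulVec_equiv]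
    funext x
    simp
  have hmem : (⟨R Am, R (sig Am), hAAi, hAiA⟩ : Matrix.GeneralLinearGroup (Fin (2 * m)) F) ∈
      Cfsg.isometryGroup F ⇑Q := by
    show ∀ u v : Fin (2 * m) → F, Q (R Am *ᵥ u) = Q u
    intro u _
    rw [hQ, hQ, hact, hAm]
    exact hQ₀A (L u)
  refine ⟨Q, hQnondeg, e.trans σ, ⟨⟨R Am, R (sig Am), hAAi, hAiA⟩, hmem⟩, ?_⟩
  show IsConj (Matrix.reindex (e.trans σ) (e.trans σ) (Cfsg.jordanTypeMatrix d F)) (R Am)
  have hRJ : Matrix.reindex (e.trans σ) (e.trans σ) (Cfsg.jordanTypeMatrix d F) =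
      R (Matrix.reindex e e (Cfsg.jordanTypeMatrix d F)) := by
    rw [hR]
    exact Matrix.ext (fun i j => rfl)
  rw [hRJ]
  obtain ⟨c, hc⟩ := hconj
  have h1 : R (c : Matrix (Fin m ⊕ Fin m) (Fin m ⊕ Fin m) F) *
      R ((c⁻¹ : (Matrix (Fin m ⊕ Fin m) (Fin m ⊕ Fin m) F)ˣ) :
        Matrix (Fin m ⊕ Fin m) (Fin m ⊕ Fin m) F) = 1 := by
    rw [← map_mul, c.mul_inv, map_one]
  have h2 : R ((c⁻¹ : (Matrix (Fin m ⊕ Fin m) (Fin m ⊕ Fin m) F)ˣ) :
        Matrix (Fin m ⊕ Fin m) (Fin m ⊕ Fin m) F) *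
      R (c : Matrix (Fin m ⊕ Fin m) (Fin m ⊕ Fin m) F) = 1 := by
    rw [← map_mul, c.inv_mul, map_one]
  refine ⟨⟨_, _, h1, h2⟩, ?_⟩
  show R (c : Matrix (Fin m ⊕ Fin m) (Fin m ⊕ Fin m) F) *
    R (Matrix.reindex e e (Cfsg.jordanTypeMatrix d F)) =
      R Am * R (c : Matrix (Fin m ⊕ Fin m) (Fin m ⊕ Fin m) F)
  rw [← map_mul, ← map_mul, hAm, hc.eq]

end Final

end Cfsg.Agent.Helper14.JordO2
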