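import Mathlib
import Cfsg.Prelude.Def_LieClassical
import Cfsg.Agent.Helper14.RegUniSp2
import Cfsg.Agent.Helper8.SUPar
import Cfsg.Agent.S0755
import Cfsg.Agent.S2573

/-!
Regular unipotent elements of unitary groups: the conjugate transpose, the Hermitian generator
of the centraliser algebra, conjugacy under the unitary group and determinants of the
centraliser.
-/

set_option autoImplicit false
open Polynomial
open scoped Matrix

namespace Cfsg.Agent.Helper14.RegUniU

open Cfsg.Agent.Helper8.SULag (QF frob frob_apply frob_frob qf_of_card exists_tr h_nondeg h_conj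
  h_sub_right)
open Cfsg.Agent.Helper14.RegUniSp (poly_zero exists_poly)
open Cfsg.Agent.Helper14.RegUniSp2 (exists_inv_mod exists_intertwiner finrank_range_of_cyclic)

section Star

variable {K : Type*} [Field K] {n q : ℕ}

/-- the conjugate transpose with respect to `x ↦ x ^ q` -/
noncomputable def st (hq : QF K q) (M : Matrix (Fin n) (Fin n) K) : Matrix (Fin n) (Fin n) K :=
  ((frob hq).mapMatrix M)ᵀ

theorem st_mul (hq : QF K q) (M N : Matrix (Fin n) (Fin n) K) :
    st hq (M * N) = st hq N * st hq M := by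
  unfold st
  rw [map_mul, Matrix.transpose_mul]

theorem st_one (hq : QF K q) : st hq (1 : Matrix (Fin n) (Fin n) K) = 1 := by
  unfold st
  rw [map_one, Matrix.transpose_one]

theorem st_add (hq : QF K q) (M N : Matrix (Fin n) (Fin n) K) :
    st hq (M + N) = st hq M + st hq N := by
  unfold st
  rw [map_add, Matrix.transpose_add]

theorem st_sub (hq : QF K q) (M N : Matrix (Fin n) (Fin n) K) :
    st hq (M - N) = st hq M - st hq N := by
  unfold st
  rw [map_sub, Matrix.transpose_sub]

theorem st_smul (hq : QF K q) (c : K) (M : Matrix (Fin n) (Fin n) K) :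
    st hq (c • M) = frob hq c • st hq M := by
  ext i j
  show frob hq (c * M j i) = frob hq c * frob hq (M j i)
  rw [map_mul]

theorem st_st (hq : QF K q) (M : Matrix (Fin n) (Fin n) K) : st hq (st hq M) = M := by
  ext i j
  show frob hq (frob hq (M i j)) = M i j
  exact frob_frob hq _

theorem st_pow (hq : QF K q) (M : Matrix (Fin n) (Fin n) K) (k : ℕ) :
    st hq (M ^ k) = (st hq M) ^ k := by
  induction k with
  | zero => rw [pow_zero, pow_zero, st_one]
  | succ k ih => rw [pow_succ, st_mul, ih, pow_succ']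

theorem st_sum (hq : QF K q) {ι : Type*} (s : Finset ι) (f : ι → Matrix (Fin n) (Fin n) K) :
    st hq (∑ i ∈ s, f i) = ∑ i ∈ s, st hq (f i) := by
  unfold st
  rw [map_sum, Matrix.transpose_sum]

theorem st_aeval (hq : QF K q) (T : Matrix (Fin n) (Fin n) K) (f : K[X]) :
    st hq (aeval T f) = aeval (st hq T) (f.map (frob hq)) := by
  have hd : (f.map (frob hq)).natDegree < f.natDegree + 1 := Nat.lt_succ_of_le natDegree_map_le
  rw [aeval_eq_sum_range, st_sum, aeval_eq_sum_range' hd]
  apply Finset.sum_congr rfl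
  intro i _
  rw [st_smul, st_pow, coeff_map]

theorem hh_adj (hq : QF K q) (M : Matrix (Fin n) (Fin n) K) (x y : Fin n → K) :
    Cfsg.hermForm n K q (M *ᵥ x) y = Cfsg.hermForm n K q x (st hq M *ᵥ y) := by
  unfold Cfsg.hermForm
  have e1 : ∀ j, ((st hq M *ᵥ y) j) ^ q = ∑ i, M i j * (y i) ^ q := by
    intro j
    have e0 : (st hq M *ᵥ y) j = ∑ i, st hq M j i * y i := rfl
    rw [e0, ← frob_apply hq, map_sum]
    apply Finset.sum_congr rfl
    intro i _
    rw [map_mul, frob_apply hq (y i)]
    show frob hq (frob hq (M i j)) * y i ^ q = _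
    rw [frob_frob]
  have e2 : ∀ i, (M *ᵥ x) i = ∑ j, M i j * x j := fun i => rfl
  simp only [e1, e2, Finset.sum_mul, Finset.mul_sum]
  rw [Finset.sum_comm]
  apply Finset.sum_congr rfl
  intro j _
  apply Finset.sum_congr rfl
  intro i _
  ring

theorem unitary_of_st (hq : QF K q) (M : Matrix (Fin n) (Fin n) K) (h : st hq M * M = 1)
    (x y : Fin n → K) : Cfsg.hermForm n K q (M *ᵥ x) (M *ᵥ y) = Cfsg.hermForm n K q x y := by
  rw [hh_adj hq, Matrix.mulVec_mulVec, h, Matrix.one_mulVec]

theorem st_of_unitary (hq : QF K q) (M : Matrix (Fin n) (Fin n) K)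
    (h : ∀ x y, Cfsg.hermForm n K q (M *ᵥ x) (M *ᵥ y) = Cfsg.hermForm n K q x y) :
    st hq M * M = 1 := by
  apply Matrix.toLin'.injective
  apply LinearMap.ext
  intro y
  rw [Matrix.toLin'_apply, Matrix.toLin'_one, LinearMap.id_apply, ← sub_eq_zero]
  apply h_nondeg hq
  intro x
  rw [← h_conj hq x, h_sub_right hq, ← Matrix.mulVec_mulVec, ← hh_adj hq, h, sub_self, map_zero]

theorem det_st (hq : QF K q) (M : Matrix (Fin n) (Fin n) K) :
    (st hq M).det = frob hq M.det := by
  unfold st
  rw [Matrix.det_transpose]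
  exact (RingHom.map_det (frob hq) M).symm

end Star

section Lift

variable {K : Type*} [Field K] {q : ℕ}

theorem frob_ne_id (hq : QF K q) : frob hq ≠ RingHom.id K := by
  intro hid
  obtain ⟨η, hη⟩ := hq.ex
  exact hη (congrArg (fun f : K →+* K => f η) hid)

theorem norm_lift [Finite K] (hq : QF K q) (h : K[X]) (n : ℕ)
    (hsym : X ^ n ∣ h.map (frob hq) - h) (h0 : h.coeff 0 ≠ 0) :
    ∀ k, k ≤ n → ∃ a : K[X], X ^ k ∣ a.map (frob hq) * a - h := by
  have hne := frob_ne_id hq
  intro k
  induction k with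
  | zero => intro _; exact ⟨0, by rw [pow_zero]; exact one_dvd _⟩
  | succ k ih =>
    intro hk
    obtain ⟨a, ha⟩ := ih (by omega)
    rcases Nat.eq_zero_or_pos k with rfl | hk0
    · have hfix : frob hq (h.coeff 0) = h.coeff 0 := by
        have h1 := X_pow_dvd_iff.mp hsym 0 (by omega)
        rw [coeff_sub, coeff_map] at h1
        exact sub_eq_zero.mp h1
      obtain ⟨c, hc⟩ := Cfsg.Agent.S0755.norm_surj (frob hq) hne (frob_frob hq) (h.coeff 0) h0
        hfix
      refine ⟨C c, ?_⟩
      rw [zero_add, pow_one, X_dvd_iff, coeff_sub, mul_coeff_zero, Polynomial.map_C, coeff_C_zero,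
        coeff_C_zero, mul_comm, hc, sub_self]
    · obtain ⟨w, hw⟩ := ha
      have hc0 : frob hq (a.coeff 0) * a.coeff 0 = h.coeff 0 := by
        have h1 : (a.map (frob hq) * a - h).coeff 0 = 0 := by
          rw [hw, coeff_X_pow_mul', if_neg (by omega)]
        rw [coeff_sub, mul_coeff_zero, coeff_map] at h1
        exact sub_eq_zero.mp h1
      have hne0 : frob hq (a.coeff 0) * a.coeff 0 ≠ 0 := by rw [hc0]; exact h0
      have hmm : (a.map (frob hq)).map (frob hq) = a := by
        ext i; rw [coeff_map, coeff_map, frob_frob]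
      have e1 : X ^ k * (w.map (frob hq) - w) = -(h.map (frob hq) - h) := by
        have h1 := congrArg (Polynomial.map (frob hq)) hw
        rw [Polynomial.map_sub, Polynomial.map_mul, hmm, Polynomial.map_mul, Polynomial.map_pow,
          Polynomial.map_X] at h1
        linear_combination hw - h1
      have hefix : frob hq (w.coeff 0) = w.coeff 0 := by
        have h2 : X ^ (k + 1) ∣ X ^ k * (w.map (frob hq) - w) := by
          rw [e1]
          exact dvd_neg.mpr ((pow_dvd_pow X hk).trans hsym)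
        rw [pow_succ] at h2
        have h3 : X ∣ w.map (frob hq) - w :=
          (mul_dvd_mul_iff_left (pow_ne_zero k X_ne_zero)).mp h2
        rw [X_dvd_iff, coeff_sub, coeff_map] at h3
        exact sub_eq_zero.mp h3
      obtain ⟨ρ, hρ⟩ : ∃ ρ : K, ρ = -(w.coeff 0) / (frob hq (a.coeff 0) * a.coeff 0) :=
        ⟨_, rfl⟩
      have hρfix : frob hq ρ = ρ := by
        rw [hρ, map_div₀, map_neg, hefix, map_mul, frob_frob, mul_comm (a.coeff 0)]
      have hρ2 : ρ * (frob hq (a.coeff 0) * a.coeff 0) = -w.coeff 0 := by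
        rw [hρ, div_mul_cancel₀ _ hne0]
      obtain ⟨s, hs⟩ := exists_tr hq ρ hρfix
      obtain ⟨t, ht⟩ : ∃ t : K, t = s * a.coeff 0 := ⟨_, rfl⟩
      refine ⟨a + C t * X ^ k, ?_⟩
      have e2 : (a + C t * X ^ k).map (frob hq) * (a + C t * X ^ k) - h =
          X ^ k * (w + C (frob hq t) * a + C t * a.map (frob hq)) +
            (C (frob hq t) * C t * X ^ k) * X ^ k := by
        rw [Polynomial.map_add, Polynomial.map_mul, Polynomial.map_pow, Polynomial.map_X,
          Polynomial.map_C]
        linear_combination hw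
      rw [e2, pow_succ]
      apply dvd_add
      · apply mul_dvd_mul_left
        rw [X_dvd_iff, coeff_add, coeff_add, mul_coeff_zero, mul_coeff_zero, coeff_C_zero,
          coeff_C_zero, coeff_map, ht, map_mul]
        linear_combination (frob hq (a.coeff 0) * a.coeff 0) * hs + hρ2
      · exact mul_dvd_mul (Dvd.intro_left _ rfl) (dvd_pow_self X hk0.ne')

end Lift

section Reg

variable {K : Type*} [Field K] {n q : ℕ}

theorem pow_ne_zero_of_rank' (N : Matrix (Fin n) (Fin n) K) (hn : 1 ≤ n)
    (hreg : N.rank = n - 1) : N ^ (n - 1) ≠ 0 := by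
  intro h0
  obtain ⟨L, hL⟩ : ∃ L : Module.End K (Fin n → K), L = Matrix.toLinAlgEquiv' N := ⟨_, rfl⟩
  have hfr : Module.finrank K (Fin n → K) = n := Module.finrank_fin_fun K
  have hker : Module.finrank K (LinearMap.ker L) = 1 := by
    have h1 := LinearMap.finrank_range_add_finrank_ker L
    have h2 : Module.finrank K (LinearMap.range L) = n - 1 := by rw [hL]; exact hreg
    rw [h2, hfr] at h1
    omega
  have h3 := Cfsg.Agent.S2573.finrank_ker_pow_le L (n - 1)
  rw [hker, mul_one] at h3
  have h4 : L ^ (n - 1) = 0 := by rw [hL, ← map_pow, h0, map_zero]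
  rw [h4] at h3
  have h5 : LinearMap.ker (0 : Module.End K (Fin n → K)) = ⊤ := LinearMap.ker_zero
  rw [h5, finrank_top, hfr] at h3
  omega

/-- the data attached to a regular unipotent unitary matrix `U`: a Hermitian generator `T` of
its centraliser algebra -/
structure RegU (hq : QF K q) (n : ℕ) (U T : Matrix (Fin n) (Fin n) K) : Prop where
  un : st hq U * U = 1
  un' : U * st hq U = 1
  sT : st hq T = T
  nil : T ^ n = 0
  ker : ∀ f : K[X], aeval T f = 0 → X ^ n ∣ f
  comm : ∀ G : Matrix (Fin n) (Fin n) K, G * U = U * G → ∃ f : K[X], G = aeval T f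
  aeval_comm : ∀ f : K[X], aeval T f * U = U * aeval T f

theorem RegU.aeval_dvd {hq : QF K q} {U T : Matrix (Fin n) (Fin n) K} (d : RegU hq n U T)
    (f : K[X]) (h : X ^ n ∣ f) : aeval T f = 0 := by
  obtain ⟨w, hw⟩ := h
  rw [hw, map_mul, map_pow, aeval_X, d.nil, zero_mul]

theorem RegU.aeval_congr {hq : QF K q} {U T : Matrix (Fin n) (Fin n) K} (d : RegU hq n U T)
    (f g : K[X]) (h : X ^ n ∣ f - g) : aeval T f = aeval T g := by
  have h1 := d.aeval_dvd _ h
  rw [map_sub, sub_eq_zero] at h1
  exact h1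

theorem regU (hq : QF K q) (hn : 1 ≤ n) (U : Matrix (Fin n) (Fin n) K) (hU : st hq U * U = 1)
    (hnil : (U - 1) ^ n = 0) (hreg : (U - 1).rank = n - 1) :
    ∃ T : Matrix (Fin n) (Fin n) K, RegU hq n U T := by
  classical
  have hU' : U * st hq U = 1 := mul_eq_one_comm.mp hU
  obtain ⟨η, hη⟩ := hq.ex
  have hη' : η - frob hq η ≠ 0 := by
    intro h
    exact hη (sub_eq_zero.mp h).symm
  obtain ⟨N, hN⟩ : ∃ N : Matrix (Fin n) (Fin n) K, N = U - 1 := ⟨_, rfl⟩
  rw [← hN] at hnil hreg
  obtain ⟨T, hT⟩ : ∃ T : Matrix (Fin n) (Fin n) K,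
      T = η • N + frob hq η • (st hq U - 1) := ⟨_, rfl⟩
  have hsT : st hq T = T := by
    rw [hT, st_add, st_smul, st_smul, st_sub, st_one, st_st, frob_frob, hN, st_sub, st_one,
      add_comm]
  obtain ⟨W, hW⟩ : ∃ W : Matrix (Fin n) (Fin n) K,
      W = η • (1 : Matrix (Fin n) (Fin n) K) - frob hq η • st hq U := ⟨_, rfl⟩
  have cUUs : Commute U (st hq U) := by
    show U * st hq U = st hq U * U
    rw [hU', hU]
  have cNU : Commute N U := by
    rw [hN]; exact (Commute.refl U).sub_left (Commute.one_left U)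
  have cNUs : Commute N (st hq U) := by
    rw [hN]; exact cUUs.sub_left (Commute.one_left _)
  have cNW : Commute N W := by
    rw [hW]
    exact ((Commute.one_right N).smul_right η).sub_right (cNUs.smul_right (frob hq η))
  have hTW : T = N * W := by
    rw [hT, hW, hN, Matrix.mul_sub, Matrix.mul_smul, Matrix.mul_smul, Matrix.mul_one,
      Matrix.sub_mul, Matrix.one_mul, hU']
    simp only [smul_sub]
    abel
  have hNnil : IsNilpotent N := ⟨n, hnil⟩
  have hWunit : IsUnit W := by
    have e1 : W * U = η • N + (η - frob hq η) • (1 : Matrix (Fin n) (Fin n) K) := by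
      rw [hW, hN, Matrix.sub_mul, Matrix.smul_mul, Matrix.smul_mul, Matrix.one_mul, hU]
      simp only [smul_sub, sub_smul]
      abel
    have hu1 : IsUnit ((η - frob hq η) • (1 : Matrix (Fin n) (Fin n) K)) := by
      have hm : ((η - frob hq η) • (1 : Matrix (Fin n) (Fin n) K)) *
          ((η - frob hq η)⁻¹ • (1 : Matrix (Fin n) (Fin n) K)) = 1 := by
        rw [smul_mul_smul_comm, mul_inv_cancel₀ hη', one_smul, mul_one]
      exact (Matrix.isUnit_iff_isUnit_det _).mpr (Matrix.isUnit_det_of_right_inverse hm)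
    have hu2 : IsUnit (W * U) := by
      rw [e1]
      exact (hNnil.smul η).isUnit_add_right_of_commute hu1
        (((Commute.one_right N).smul_right _).smul_left η)
    have hu3 : IsUnit (st hq U) := ⟨⟨st hq U, U, hU, hU'⟩, rfl⟩
    have e2 : W = W * U * st hq U := by rw [Matrix.mul_assoc, hU', Matrix.mul_one]
    rw [e2]
    exact hu2.mul hu3
  have hTn : T ^ n = 0 := by rw [hTW, cNW.mul_pow, hnil, zero_mul]
  have hTn1 : T ^ (n - 1) ≠ 0 := by
    rw [hTW, cNW.mul_pow]
    intro h
    exact pow_ne_zero_of_rank' N hn hreg ((hWunit.pow _).mul_left_eq_zero.mp h)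
  obtain ⟨L, hL⟩ : ∃ L : Module.End K (Fin n → K), L = Matrix.toLinAlgEquiv' T := ⟨_, rfl⟩
  have hfr : Module.finrank K (Fin n → K) = n := Module.finrank_fin_fun K
  have hLn : L ^ n = 0 := by rw [hL, ← map_pow, hTn, map_zero]
  obtain ⟨e, he⟩ : ∃ e, (L ^ (n - 1)) e ≠ 0 := by
    by_contra hall
    push_neg at hall
    apply hTn1
    have h1 : L ^ (n - 1) = 0 := LinearMap.ext hall
    rw [hL, ← map_pow] at h1
    exact (Matrix.toLinAlgEquiv' (R := K) (n := Fin n)).injective (h1.trans (map_zero _).symm)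
  have hΛ : ∀ f : K[X], Matrix.toLinAlgEquiv' (aeval T f) = aeval L f := by
    intro f
    rw [hL]
    exact (Polynomial.aeval_algHom_apply (Matrix.toLinAlgEquiv' (R := K) (n := Fin n)) T f).symm
  have hP1 : ∀ f : K[X], aeval T f = 0 → X ^ n ∣ f := by
    intro f hf
    have hmon : (X ^ n : K[X]).Monic := monic_X_pow _
    rw [← Polynomial.modByMonic_eq_zero_iff_dvd hmon]
    apply poly_zero L n hLn e he _ (by
      have h3 := natDegree_modByMonic_lt f hmon (by
        intro h1
        have h4 := congrArg natDegree h1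
        rw [natDegree_X_pow, natDegree_one] at h4
        omega)
      rwa [natDegree_X_pow] at h3)
    rw [← hΛ]
    have h1 : aeval T (f %ₘ X ^ n) = 0 := by
      have h3 := congrArg (aeval T) (modByMonic_add_div f (X ^ n))
      rw [map_add, map_mul, map_pow, aeval_X, hTn, zero_mul, add_zero, hf] at h3
      exact h3
    rw [h1, map_zero]
  have hP2 : ∀ G : Matrix (Fin n) (Fin n) K, G * U = U * G → ∃ f : K[X], G = aeval T f := by
    intro G hG
    have c1 : Commute G U := hG
    have c2 : Commute G (st hq U) := by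
      have h3 : st hq U * G = G * st hq U := by
        have e1 : st hq U * G = st hq U * G * (U * st hq U) := by rw [hU', Matrix.mul_one]
        have e2 : st hq U * G * (U * st hq U) = st hq U * (G * U) * st hq U := by
          simp only [Matrix.mul_assoc]
        have e3 : st hq U * (U * G) * st hq U = (st hq U * U) * G * st hq U := by
          simp only [Matrix.mul_assoc]
        rw [e1, e2, hG, e3, hU, Matrix.one_mul]
      exact h3.symm
    have c3 : Commute G N := by
      rw [hN]; exact c1.sub_right (Commute.one_right G)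
    have hGT : G * T = T * G := by
      rw [hT]
      exact ((c3.smul_right η).add_right
        ((c2.sub_right (Commute.one_right G)).smul_right (frob hq η))).eq
    have hD : Matrix.toLinAlgEquiv' G * L = L * Matrix.toLinAlgEquiv' G := by
      rw [hL, ← map_mul, ← map_mul, hGT]
    obtain ⟨f, -, hf2⟩ := exists_poly L n hfr hn hLn e he _ hD
    refine ⟨f, ?_⟩
    rw [← hΛ] at hf2
    exact (Matrix.toLinAlgEquiv' (R := K) (n := Fin n)).injective hf2
  have cTU : Commute T U := by
    rw [hT]
    exact (cNU.smul_left η).add_left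
      ((cUUs.symm.sub_left (Commute.one_left U)).smul_left (frob hq η))
  have hcomm : ∀ f : K[X], aeval T f * U = U * aeval T f := by
    intro f
    rw [Polynomial.aeval_eq_sum_range, Finset.sum_mul, Finset.mul_sum]
    apply Finset.sum_congr rfl
    intro i _
    rw [smul_mul_assoc, mul_smul_comm, (cTU.pow_left i).eq]
  exact ⟨T, hU, hU', hsT, hTn, hP1, hP2, hcomm⟩

theorem conj_regU [Finite K] (hq : QF K q) (hn : 1 ≤ n) {U T U' : Matrix (Fin n) (Fin n) K}
    (d : RegU hq n U T) (hU' : st hq U' * U' = 1) (P Pi : Matrix (Fin n) (Fin n) K)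
    (hPPi : P * Pi = 1) (hPiP : Pi * P = 1) (hPU : P * U = U' * P) :
    ∃ g : Matrix (Fin n) (Fin n) K, st hq g * g = 1 ∧ g * U = U' * g := by
  have hs1 : st hq U * st hq P = st hq P * st hq U' := by rw [← st_mul, ← st_mul, hPU]
  have hs2 : st hq P * U' = U * st hq P := by
    have e1 : U * st hq P = U * st hq P * (st hq U' * U') := by rw [hU', Matrix.mul_one]
    have e2 : U * st hq P * (st hq U' * U') = U * (st hq P * st hq U') * U' := by
      simp only [Matrix.mul_assoc]
    have e3 : U * (st hq U * st hq P) * U' = (U * st hq U) * st hq P * U' := by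
      simp only [Matrix.mul_assoc]
    rw [e1, e2, ← hs1, e3, d.un', Matrix.one_mul]
  have hHU : st hq P * P * U = U * (st hq P * P) := by
    rw [Matrix.mul_assoc, hPU, ← Matrix.mul_assoc, hs2, Matrix.mul_assoc]
  obtain ⟨h, hh⟩ := d.comm _ hHU
  have h0 : h.coeff 0 ≠ 0 := by
    intro h0
    haveI : Nonempty (Fin n) := ⟨⟨0, hn⟩⟩
    have hX : X ∣ h := X_dvd_iff.mpr h0
    have hz : (st hq P * P) ^ n = 0 := by
      rw [hh, ← map_pow]
      exact d.aeval_dvd _ (pow_dvd_pow_of_dvd hX _)
    have hK : st hq P * P * (Pi * st hq Pi) = 1 := by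
      have e1 : st hq P * P * (Pi * st hq Pi) = st hq P * (P * Pi) * st hq Pi := by
        simp only [Matrix.mul_assoc]
      rw [e1, hPPi, Matrix.mul_one, ← st_mul, hPiP, st_one]
    have hu : IsUnit (st hq P * P) := ⟨⟨_, _, hK, mul_eq_one_comm.mp hK⟩, rfl⟩
    exact (hu.pow n).ne_zero hz
  have hsym : X ^ n ∣ h.map (frob hq) - h := by
    apply d.ker
    have e := st_aeval hq T h
    rw [d.sT] at e
    rw [map_sub, ← e, ← hh, st_mul, st_st, sub_self]
  obtain ⟨a, ha⟩ := norm_lift hq h n hsym h0 n le_rfl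
  have ha0 : a.coeff 0 ≠ 0 := by
    intro hz
    have h1 := X_pow_dvd_iff.mp ha 0 (by omega)
    rw [coeff_sub, mul_coeff_zero, hz, mul_zero, zero_sub, neg_eq_zero] at h1
    exact h0 h1
  obtain ⟨b, hb⟩ := exists_inv_mod a ha0 n
  have hb' : X ^ n ∣ b.map (frob hq) * a.map (frob hq) - 1 := by
    have h1 := Polynomial.map_dvd (frob hq) hb
    rw [Polynomial.map_sub, Polynomial.map_mul, Polynomial.map_one, Polynomial.map_pow,
      Polynomial.map_X] at h1
    exact h1
  have key : X ^ n ∣ b.map (frob hq) * h * b - 1 := by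
    have e3 : b.map (frob hq) * h * b - 1 =
        (b.map (frob hq) * a.map (frob hq) - 1) * (b * a) + (b * a - 1)
          - b.map (frob hq) * b * (a.map (frob hq) * a - h) := by ring
    rw [e3]
    exact dvd_sub (dvd_add (dvd_mul_of_dvd_left hb' _) hb) (dvd_mul_of_dvd_right ha _)
  have est : st hq (aeval T b) = aeval T (b.map (frob hq)) := by
    have e := st_aeval hq T b
    rw [d.sT] at e
    exact e
  have hg : st hq (P * aeval T b) * (P * aeval T b) = 1 := by
    have e4 : st hq (P * aeval T b) * (P * aeval T b) =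
        aeval T (b.map (frob hq)) * (st hq P * P) * aeval T b := by
      rw [st_mul, est]; simp only [Matrix.mul_assoc]
    rw [e4, hh, ← map_mul, ← map_mul, d.aeval_congr _ 1 key, map_one]
  refine ⟨P * aeval T b, hg, ?_⟩
  rw [Matrix.mul_assoc, d.aeval_comm, ← Matrix.mul_assoc, hPU, Matrix.mul_assoc]

theorem det_scalar_sub_nilpotent (α : K) (M : Matrix (Fin n) (Fin n) K) (hM : IsNilpotent M) :
    (Matrix.scalar (Fin n) α - M).det = α ^ n := by
  rw [← Matrix.eval_charpoly]
  have h1 := Matrix.isNilpotent_charpoly_sub_pow_of_isNilpotent hM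
  have h2 : M.charpoly = X ^ (Fintype.card (Fin n)) := sub_eq_zero.mp h1.eq_zero
  rw [h2, eval_pow, eval_X, Fintype.card_fin]

theorem det_aeval_nil (T : Matrix (Fin n) (Fin n) K) (hT : T ^ n = 0) (a : K[X]) :
    (aeval T a).det = (a.coeff 0) ^ n := by
  have e1 : aeval T a = Matrix.scalar (Fin n) (a.coeff 0) - (-(T * aeval T (divX a))) := by
    conv_lhs => rw [← X_mul_divX_add a]
    rw [map_add, map_mul, aeval_X, aeval_C, sub_neg_eq_add, add_comm]
    rfl
  rw [e1]
  apply det_scalar_sub_nilpotent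
  have c : Commute T (aeval T (divX a)) := by
    have c0 := (Commute.all (X : K[X]) (divX a)).map (aeval T)
    rw [aeval_X] at c0
    exact c0
  have hnilp : IsNilpotent (T * aeval T (divX a)) := ⟨n, by rw [c.mul_pow, hT, zero_mul]⟩
  exact hnilp.neg

theorem det_centralizer (hq : QF K q) (hn : 1 ≤ n) {U T : Matrix (Fin n) (Fin n) K}
    (d : RegU hq n U T) (c : Matrix (Fin n) (Fin n) K) (hc : st hq c * c = 1)
    (hcU : c * U = U * c) : ∃ α : K, α ^ (q + 1) = 1 ∧ c.det = α ^ n := by
  obtain ⟨a, ha⟩ := d.comm c hcU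
  refine ⟨a.coeff 0, ?_, ?_⟩
  · have e := st_aeval hq T a
    rw [d.sT] at e
    have h1 : aeval T (a.map (frob hq) * a - 1) = 0 := by
      rw [map_sub, map_mul, map_one, ← e, ← ha, hc, sub_self]
    have h2 := X_pow_dvd_iff.mp (d.ker _ h1) 0 (by omega)
    rw [coeff_sub, mul_coeff_zero, coeff_map, coeff_one_zero, frob_apply] at h2
    rw [pow_succ]
    exact sub_eq_zero.mp h2
  · rw [ha]
    exact det_aeval_nil T d.nil a

theorem exists_intertwiner_mat' (hn : 1 ≤ n) (N N' : Matrix (Fin n) (Fin n) K)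
    (hN : N ^ n = 0) (hN' : N' ^ n = 0) (hr : N.rank = n - 1) (hr' : N'.rank = n - 1) :
    ∃ P Pi : Matrix (Fin n) (Fin n) K, P * Pi = 1 ∧ Pi * P = 1 ∧ P * N = N' * P := by
  classical
  have hcyc : ∀ N : Matrix (Fin n) (Fin n) K, N.rank = n - 1 →
      ∃ e : Fin n → K,
        ((Matrix.toLinAlgEquiv' N : Module.End K (Fin n → K)) ^ (n - 1)) e ≠ 0 := by
    intro N hr
    by_contra hall
    push_neg at hall
    apply pow_ne_zero_of_rank' N hn hr
    have h1 : (Matrix.toLinAlgEquiv' N : Module.End K (Fin n → K)) ^ (n - 1) = 0 :=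
      LinearMap.ext hall
    rw [← map_pow] at h1
    exact (Matrix.toLinAlgEquiv' (R := K) (n := Fin n)).injective (h1.trans (map_zero _).symm)
  obtain ⟨e, he⟩ := hcyc N hr
  obtain ⟨e', he'⟩ := hcyc N' hr'
  obtain ⟨Pl, hPl⟩ := exists_intertwiner (Matrix.toLinAlgEquiv' N) (Matrix.toLinAlgEquiv' N')
    n hn (Module.finrank_fin_fun K) (by rw [← map_pow, hN, map_zero])
    (by rw [← map_pow, hN', map_zero]) e e' he he'
  obtain ⟨P, hP⟩ : ∃ P : Matrix (Fin n) (Fin n) K, Matrix.toLinAlgEquiv' P =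
      (Pl : (Fin n → K) →ₗ[K] (Fin n → K)) :=
    ⟨Matrix.toLinAlgEquiv'.symm _, AlgEquiv.apply_symm_apply _ _⟩
  obtain ⟨Pi, hPi⟩ : ∃ Pi : Matrix (Fin n) (Fin n) K, Matrix.toLinAlgEquiv' Pi =
      (Pl.symm : (Fin n → K) →ₗ[K] (Fin n → K)) :=
    ⟨Matrix.toLinAlgEquiv'.symm _, AlgEquiv.apply_symm_apply _ _⟩
  refine ⟨P, Pi, ?_, ?_, ?_⟩
  · apply (Matrix.toLinAlgEquiv' (R := K) (n := Fin n)).injective
    rw [map_mul, hP, hPi, map_one]
    apply LinearMap.ext
    intro x
    exact Pl.apply_symm_apply x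
  · apply (Matrix.toLinAlgEquiv' (R := K) (n := Fin n)).injective
    rw [map_mul, hP, hPi, map_one]
    apply LinearMap.ext
    intro x
    exact Pl.symm_apply_apply x
  · apply (Matrix.toLinAlgEquiv' (R := K) (n := Fin n)).injective
    rw [map_mul, map_mul, hP]
    apply LinearMap.ext
    intro x
    exact hPl x

/-- two regular unipotent unitary matrices are conjugate under the unitary group -/
theorem conj_of_reg [Finite K] (hq : QF K q) (hn : 1 ≤ n) (U U' : Matrix (Fin n) (Fin n) K)
    (hU : st hq U * U = 1) (hU' : st hq U' * U' = 1) (hnil : (U - 1) ^ n = 0)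
    (hreg : (U - 1).rank = n - 1) (hnil' : (U' - 1) ^ n = 0) (hreg' : (U' - 1).rank = n - 1) :
    ∃ g : Matrix (Fin n) (Fin n) K, st hq g * g = 1 ∧ g * U = U' * g := by
  obtain ⟨T, d⟩ := regU hq hn U hU hnil hreg
  obtain ⟨P, Pi, h1, h2, h3⟩ := exists_intertwiner_mat' hn (U - 1) (U' - 1) hnil hnil' hreg hreg'
  have hPU : P * U = U' * P := by
    have e : P * U - P = U' * P - P := by
      rw [Matrix.mul_sub, Matrix.sub_mul, Matrix.mul_one, Matrix.one_mul] at h3
      exact h3
    exact sub_left_inj.mp e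
  exact conj_regU hq hn d hU' P Pi h1 h2 hPU

end Reg

end Cfsg.Agent.Helper14.RegUniU
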