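import Mathlib
import Cfsg.Prelude.Def_LieClassical
import Cfsg.Agent.Helper14.RegUniU1
import Cfsg.Agent.Helper14.SpPal

/-!
Regular unipotent elements of unitary groups: orthonormal bases of Hermitian spaces over finite
fields and the existence of a regular unipotent unitary matrix.
-/

set_option autoImplicit false
open Polynomial
open scoped Matrix

namespace Cfsg.Agent.Helper14.RegUniU

open Cfsg.Agent.Helper8.SULag (QF frob frob_apply frob_frob qf_of_card exists_tr h_nondeg h_conj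
  h_sub_right)
open Cfsg.Agent.Helper14.RegUniSp2 (finrank_range_of_cyclic)

section Onb

variable {K : Type*} [Field K] {q : ℕ}

/-- a nondegenerate Hermitian form over a finite field is isometric to the standard one -/
theorem exists_onb [Finite K] (hq : QF K q) {V : Type*} [AddCommGroup V] [Module K V]
    [FiniteDimensional K V] (n : ℕ) (hn : 1 ≤ n) (hfr : Module.finrank K V = n)
    (H : V → V → K) (hadd : ∀ x x' y, H (x + x') y = H x y + H x' y)
    (hsmul : ∀ (a : K) x y, H (a • x) y = a * H x y)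
    (hconj : ∀ x y, frob hq (H x y) = H y x) (hnd : ∀ x, (∀ y, H x y = 0) → x = 0) :
    ∃ Φ : V ≃ₗ[K] (Fin n → K), ∀ x y, Cfsg.hermForm n K q (Φ x) (Φ y) = H x y := by
  classical
  have hne := frob_ne_id hq
  have hadd_r : ∀ x y y', H x (y + y') = H x y + H x y' := by
    intro x y y'
    rw [← hconj (y + y') x, hadd, map_add, hconj, hconj]
  have hsmul_r : ∀ (a : K) x y, H x (a • y) = frob hq a * H x y := by
    intro a x y
    rw [← hconj (a • y) x, hsmul, map_mul, hconj]
  have hzero_l : ∀ y, H 0 y = 0 := by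
    intro y
    have h := hsmul 0 0 y
    rwa [zero_smul, zero_mul] at h
  have hsub_l : ∀ x x' y, H (x - x') y = H x y - H x' y := by
    intro x x' y
    have e : x - x' = x + (-1 : K) • x' := by rw [neg_one_smul, sub_eq_add_neg]
    rw [e, hadd, hsmul]; ring
  obtain ⟨Hl, hHl⟩ : ∃ Hl : V → (V →ₗ[K] K), ∀ y x, Hl y x = H x y :=
    ⟨fun y => { toFun := fun x => H x y, map_add' := fun x x' => hadd x x' y,
                map_smul' := fun a x => hsmul a x y }, fun y x => rfl⟩
  have hsum_l : ∀ (j : ℕ) (c : Fin j → K) (v : Fin j → V) (y : V),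
      H (∑ i, c i • v i) y = ∑ i, c i * H (v i) y := by
    intro j c v y
    rw [← hHl y (∑ i, c i • v i), map_sum]
    apply Finset.sum_congr rfl
    intro i _
    rw [map_smul, hHl, smul_eq_mul]
  have hsum_r : ∀ (j : ℕ) (c : Fin j → K) (v : Fin j → V) (x : V),
      H x (∑ i, c i • v i) = ∑ i, frob hq (c i) * H x (v i) := by
    intro j c v x
    rw [← hconj (∑ i, c i • v i) x, hsum_l, map_sum]
    apply Finset.sum_congr rfl
    intro i _
    rw [map_mul, hconj]
  have step : ∀ j, j ≤ n → ∃ b : Fin j → V, ∀ a c, H (b a) (b c) = if a = c then 1 else 0 := by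
    intro j
    induction j with
    | zero => intro _; exact ⟨Fin.elim0, fun a => a.elim0⟩
    | succ j ih =>
      intro hj
      obtain ⟨b, hb⟩ := ih (by omega)
      obtain ⟨pr, hpr⟩ : ∃ pr : V → V, ∀ v, pr v = v - ∑ a, H v (b a) • b a :=
        ⟨_, fun v => rfl⟩
      have hprp : ∀ v c, H (pr v) (b c) = 0 := by
        intro v c
        rw [hpr, hsub_l, hsum_l]
        simp only [hb, mul_ite, mul_one, mul_zero, Finset.sum_ite_eq', Finset.mem_univ, if_true,
          sub_self]
      have hex : ∃ y, (∀ c, H y (b c) = 0) ∧ H y y ≠ 0 := by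
        by_contra hcon
        push_neg at hcon
        have hW : ∀ y z, (∀ c, H y (b c) = 0) → (∀ c, H z (b c) = 0) → H y z = 0 := by
          intro y z hy hz
          obtain ⟨η, hη⟩ := hq.ex
          have key : ∀ l : K, frob hq l * H y z + l * H z y = 0 := by
            intro l
            have h1 := hcon (y + l • z) (fun c => by rw [hadd, hsmul, hy, hz, mul_zero, add_zero])
            rw [hadd, hadd_r, hadd_r, hsmul, hsmul, hsmul_r, hsmul_r, hcon y hy, hcon z hz] at h1
            linear_combination h1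
          have k1 := key 1
          have k2 := key η
          rw [map_one, one_mul, one_mul] at k1
          have k3 : (frob hq η - η) * H y z = 0 := by linear_combination k2 - η * k1
          rcases mul_eq_zero.mp k3 with h4 | h4
          · exact absurd (sub_eq_zero.mp h4) hη
          · exact h4
        have hprz : ∀ v, pr v = 0 := by
          intro v
          apply hnd
          intro u
          have hu : u = pr u + ∑ a, H u (b a) • b a := by rw [hpr]; abel
          rw [hu, hadd_r, hW _ _ (hprp v) (hprp u), zero_add, hsum_r]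
          apply Finset.sum_eq_zero
          intro a _
          rw [hprp, mul_zero]
        have htop : Submodule.span K (Set.range b) = ⊤ := by
          rw [eq_top_iff]
          intro v _
          have h1 := hprz v
          rw [hpr, sub_eq_zero] at h1
          rw [h1]
          exact Submodule.sum_mem _
            (fun a _ => Submodule.smul_mem _ _ (Submodule.subset_span ⟨a, rfl⟩))
        have hle := finrank_range_le_card (R := K) b
        rw [Set.finrank, htop, finrank_top, Fintype.card_fin, hfr] at hle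
        omega
      obtain ⟨y, hy, hyy⟩ := hex
      have hfix : frob hq (H y y) = H y y := hconj y y
      obtain ⟨c, hc⟩ := Cfsg.Agent.S0755.norm_surj (frob hq) hne (frob_frob hq) (H y y)⁻¹
        (inv_ne_zero hyy) (by rw [map_inv₀, hfix])
      have hyy1 : H (c • y) (c • y) = 1 := by
        rw [hsmul, hsmul_r, ← mul_assoc, hc, inv_mul_cancel₀ hyy]
      have hyb : ∀ a, H (c • y) (b a) = 0 := by
        intro a; rw [hsmul, hy, mul_zero]
      have hby : ∀ a, H (b a) (c • y) = 0 := by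
        intro a; rw [← hconj (c • y) (b a), hyb, map_zero]
      refine ⟨Fin.snoc b (c • y), ?_⟩
      intro a a'
      induction a using Fin.lastCases with
      | last =>
        induction a' using Fin.lastCases with
        | last => rw [Fin.snoc_last, if_pos rfl]; exact hyy1
        | cast a' =>
          rw [Fin.snoc_last, Fin.snoc_castSucc, if_neg (Fin.castSucc_lt_last a').ne']
          exact hyb a'
      | cast a =>
        induction a' using Fin.lastCases with
        | last =>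
          rw [Fin.snoc_last, Fin.snoc_castSucc, if_neg (Fin.castSucc_lt_last a).ne]
          exact hby a
        | cast a' =>
          rw [Fin.snoc_castSucc, Fin.snoc_castSucc, hb a a']
          by_cases hab : a = a'
          · rw [if_pos hab, if_pos (by rw [hab])]
          · rw [if_neg hab, if_neg (fun h => hab (Fin.castSucc_injective j h))]
  obtain ⟨b, hb⟩ := step n le_rfl
  haveI : Nonempty (Fin n) := ⟨⟨0, hn⟩⟩
  have hli : LinearIndependent K b := by
    rw [Fintype.linearIndependent_iff]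
    intro g hg i
    have h1 := hsum_l n g b (b i)
    rw [hg, hzero_l] at h1
    simp only [hb, mul_ite, mul_one, mul_zero, Finset.sum_ite_eq', Finset.mem_univ, if_true]
      at h1
    exact h1.symm
  obtain ⟨B, hB⟩ : ∃ B : Module.Basis (Fin n) K V, ∀ i, B i = b i :=
    ⟨basisOfLinearIndependentOfCardEqFinrank hli (by rw [Fintype.card_fin, hfr]),
      fun i => by rw [coe_basisOfLinearIndependentOfCardEqFinrank]⟩
  refine ⟨B.equivFun, fun x y => ?_⟩
  obtain ⟨cx, hcx⟩ : ∃ cx : Fin n → K, cx = B.equivFun x := ⟨_, rfl⟩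
  obtain ⟨cy, hcy⟩ : ∃ cy : Fin n → K, cy = B.equivFun y := ⟨_, rfl⟩
  have hx : x = ∑ a, cx a • b a := by
    have h := B.sum_equivFun x
    rw [hcx]
    simp only [hB] at h
    exact h.symm
  have hy : y = ∑ a, cy a • b a := by
    have h := B.sum_equivFun y
    rw [hcy]
    simp only [hB] at h
    exact h.symm
  rw [← hcx, ← hcy, hx, hy, hsum_l]
  unfold Cfsg.hermForm
  apply Finset.sum_congr rfl
  intro a _
  rw [hsum_r]
  simp only [hb, mul_ite, mul_one, mul_zero, Finset.sum_ite_eq, Finset.mem_univ, if_true]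
  rw [frob_apply]

end Onb

section Exists

variable {K : Type*} [Field K] {q : ℕ}

/-- a regular unipotent unitary matrix of determinant one exists -/
theorem exists_regU [Finite K] (hq : QF K q) {n : ℕ} (hn : 1 ≤ n) :
    ∃ U : Matrix (Fin n) (Fin n) K, st hq U * U = 1 ∧ U.det = 1 ∧ (U - 1) ^ n = 0 ∧
      (U - 1).rank = n - 1 := by
  classical
  have hmon : (X ^ n : K[X]).Monic := monic_X_pow n
  have hne0 : (X ^ n : K[X]) ≠ 0 := hmon.ne_zero
  haveI : Module.Finite K (AdjoinRoot (X ^ n : K[X])) := (AdjoinRoot.powerBasis hne0).finite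
  have hfr : Module.finrank K (AdjoinRoot (X ^ n : K[X])) = n := by
    rw [(AdjoinRoot.powerBasis hne0).finrank, AdjoinRoot.powerBasis_dim, natDegree_X_pow]
  obtain ⟨x, hx⟩ : ∃ x : AdjoinRoot (X ^ n : K[X]), x = AdjoinRoot.root (X ^ n) := ⟨_, rfl⟩
  have hxmk : ∀ j : ℕ, x ^ j = AdjoinRoot.mk (X ^ n) (X ^ j) := by
    intro j; rw [hx, map_pow, AdjoinRoot.mk_X]
  have hxn : x ^ n = 0 := by rw [hxmk, AdjoinRoot.mk_self]
  obtain ⟨μ, hμ⟩ := SpPal.exists_mu (X ^ n : K[X]) hmon (n - 1)
  have hμ' : ∀ p : K[X], μ (AdjoinRoot.mk (X ^ n) p) = p.coeff (n - 1) := by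
    intro p
    rw [hμ]
    have h1 := modByMonic_add_div p (X ^ n)
    have h3 : p.coeff (n - 1) =
        (p %ₘ X ^ n).coeff (n - 1) + (X ^ n * (p /ₘ X ^ n)).coeff (n - 1) := by
      rw [← coeff_add, h1]
    rw [h3, coeff_X_pow_mul', if_neg (by omega), add_zero]
  have hτ0 : (X ^ n : K[X]).eval₂ ((AdjoinRoot.of (X ^ n : K[X])).comp (frob hq)) x = 0 := by
    rw [eval₂_X_pow, hxn]
  obtain ⟨τ, hτ⟩ : ∃ τ : AdjoinRoot (X ^ n : K[X]) →+* AdjoinRoot (X ^ n : K[X]),
      τ = AdjoinRoot.lift ((AdjoinRoot.of (X ^ n : K[X])).comp (frob hq)) x hτ0 := ⟨_, rfl⟩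
  have hτmk : ∀ p : K[X],
      τ (AdjoinRoot.mk (X ^ n) p) = AdjoinRoot.mk (X ^ n) (p.map (frob hq)) := by
    intro p
    rw [hτ, AdjoinRoot.lift_mk, ← AdjoinRoot.aeval_eq, aeval_def, eval₂_map,
      AdjoinRoot.algebraMap_eq, ← hx]
  have hττ : ∀ a, τ (τ a) = a := by
    intro a
    obtain ⟨p, rfl⟩ := AdjoinRoot.mk_surjective a
    rw [hτmk, hτmk]
    congr 1
    ext i
    rw [coeff_map, coeff_map, frob_frob]
  have hμτ : ∀ a, μ (τ a) = frob hq (μ a) := by
    intro a
    obtain ⟨p, rfl⟩ := AdjoinRoot.mk_surjective a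
    rw [hτmk, hμ', hμ', coeff_map]
  have hndμ : ∀ a, (∀ c, μ (a * c) = 0) → a = 0 := by
    intro a ha
    obtain ⟨p, rfl⟩ := AdjoinRoot.mk_surjective a
    rw [AdjoinRoot.mk_eq_zero, X_pow_dvd_iff]
    intro i hi
    have h1 := ha (AdjoinRoot.mk (X ^ n) (X ^ (n - 1 - i)))
    rw [← map_mul, hμ', coeff_mul_X_pow', if_pos (by omega)] at h1
    have e : n - 1 - (n - 1 - i) = i := by omega
    rw [e] at h1
    exact h1
  have hadd : ∀ a a' c : AdjoinRoot (X ^ n : K[X]),
      μ ((a + a') * τ c) = μ (a * τ c) + μ (a' * τ c) := by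
    intro a a' c; rw [add_mul, map_add]
  have hsmul : ∀ (r : K) (a c : AdjoinRoot (X ^ n : K[X])),
      μ ((r • a) * τ c) = r * μ (a * τ c) := by
    intro r a c; rw [smul_mul_assoc, map_smul, smul_eq_mul]
  have hconj : ∀ a c : AdjoinRoot (X ^ n : K[X]), frob hq (μ (a * τ c)) = μ (c * τ a) := by
    intro a c; rw [← hμτ, map_mul τ, hττ, mul_comm]
  have hnd : ∀ a : AdjoinRoot (X ^ n : K[X]), (∀ c, μ (a * τ c) = 0) → a = 0 := by
    intro a ha
    apply hndμ
    intro c
    have h := ha (τ c)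
    rwa [hττ] at h
  obtain ⟨Φ, hΦ⟩ := exists_onb hq n hn hfr (fun a c => μ (a * τ c)) hadd hsmul hconj hnd
  have hΦ' : ∀ a c, Cfsg.hermForm n K q (Φ a) (Φ c) = μ (a * τ c) := hΦ
  obtain ⟨γ, hγ⟩ := hq.ex
  have hγ' : γ - frob hq γ ≠ 0 := fun h => hγ (sub_eq_zero.mp h).symm
  obtain ⟨A, hA⟩ : ∃ A : AdjoinRoot (X ^ n : K[X]),
      A = AdjoinRoot.mk (X ^ n) (1 + C γ * X) := ⟨_, rfl⟩
  obtain ⟨A', hA'⟩ : ∃ A' : AdjoinRoot (X ^ n : K[X]),
      A' = AdjoinRoot.mk (X ^ n) (1 + C (frob hq γ) * X) := ⟨_, rfl⟩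
  have hτA : τ A = A' := by
    rw [hA, hA', hτmk, Polynomial.map_add, Polynomial.map_one, Polynomial.map_mul,
      Polynomial.map_C, Polynomial.map_X]
  have hτA' : τ A' = A := by
    rw [hA, hA', hτmk, Polynomial.map_add, Polynomial.map_one, Polynomial.map_mul,
      Polynomial.map_C, Polynomial.map_X, frob_frob]
  obtain ⟨z, hz⟩ : ∃ z : AdjoinRoot (X ^ n : K[X]),
      z = AdjoinRoot.mk (X ^ n) (-(C (frob hq γ) * X)) := ⟨_, rfl⟩
  have hzn : z ^ n = 0 := by
    rw [hz, ← map_pow, AdjoinRoot.mk_eq_zero, neg_pow, mul_pow]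
    exact dvd_mul_of_dvd_right (dvd_mul_left _ _) _
  have hA'z : A' = 1 - z := by
    rw [hA', hz, map_add, map_one, map_neg, sub_neg_eq_add]
  obtain ⟨y, hy⟩ : ∃ y : AdjoinRoot (X ^ n : K[X]), A' * y = 1 :=
    ⟨∑ i ∈ Finset.range n, z ^ i, by rw [hA'z, mul_neg_geom_sum, hzn, sub_zero]⟩
  have hτy : A * τ y = 1 := by
    have h := congrArg τ hy
    rw [map_mul, hτA', map_one] at h
    exact h
  obtain ⟨w, hw⟩ : ∃ w : AdjoinRoot (X ^ n : K[X]), w = A * y := ⟨_, rfl⟩
  have hww : w * τ w = 1 := by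
    rw [hw, map_mul, hτA]
    calc A * y * (A' * τ y) = (A' * y) * (A * τ y) := by ring
      _ = 1 := by rw [hy, hτy, one_mul]
  obtain ⟨u, hu⟩ : ∃ u : AdjoinRoot (X ^ n : K[X]),
      u = AdjoinRoot.mk (X ^ n) (C (γ - frob hq γ)) * y := ⟨_, rfl⟩
  have hw1 : w - 1 = x * u := by
    have e1 : A - A' = x * AdjoinRoot.mk (X ^ n) (C (γ - frob hq γ)) := by
      rw [hA, hA', hx, ← AdjoinRoot.mk_X, ← map_sub, ← map_mul]
      congr 1
      rw [C_sub]
      ring
    calc w - 1 = A * y - A' * y := by rw [hw, hy]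
      _ = (A - A') * y := by ring
      _ = x * u := by rw [e1, hu]; ring
  obtain ⟨u', hu'⟩ : ∃ u' : AdjoinRoot (X ^ n : K[X]), u * u' = 1 :=
    ⟨AdjoinRoot.mk (X ^ n) (C (γ - frob hq γ)⁻¹) * A', by
      rw [hu]
      calc AdjoinRoot.mk (X ^ n) (C (γ - frob hq γ)) * y *
            (AdjoinRoot.mk (X ^ n) (C (γ - frob hq γ)⁻¹) * A')
          = (AdjoinRoot.mk (X ^ n) (C (γ - frob hq γ)) *
              AdjoinRoot.mk (X ^ n) (C (γ - frob hq γ)⁻¹)) * (A' * y) := by ring
        _ = 1 := by rw [hy, mul_one, ← map_mul, ← C_mul, mul_inv_cancel₀ hγ', C_1, map_one]⟩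
  obtain ⟨Tl, hTl⟩ : ∃ Tl : Module.End K (Fin n → K), ∀ v, Tl v = Φ (w * Φ.symm v) :=
    ⟨Φ.conj (LinearMap.mulLeft K w), fun v => rfl⟩
  have hiso : ∀ u₁ v₁, Cfsg.hermForm n K q (Tl u₁) (Tl v₁) = Cfsg.hermForm n K q u₁ v₁ := by
    intro u₁ v₁
    have e1 : Cfsg.hermForm n K q u₁ v₁ = μ (Φ.symm u₁ * τ (Φ.symm v₁)) := by
      rw [← hΦ', Φ.apply_symm_apply, Φ.apply_symm_apply]
    rw [hTl, hTl, hΦ', e1, map_mul τ]
    have e2 : w * Φ.symm u₁ * (τ w * τ (Φ.symm v₁)) =
        (w * τ w) * (Φ.symm u₁ * τ (Φ.symm v₁)) := by ring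
    rw [e2, hww, one_mul]
  obtain ⟨U, hU⟩ : ∃ U : Matrix (Fin n) (Fin n) K, U = LinearMap.toMatrix' Tl := ⟨_, rfl⟩
  have hUT : ∀ v, U *ᵥ v = Tl v := by
    intro v
    rw [hU, ← Matrix.toLin'_apply, Matrix.toLin'_toMatrix']
  have hUst : st hq U * U = 1 := st_of_unitary hq U (fun a c => by rw [hUT, hUT, hiso])
  obtain ⟨Nl, hNl⟩ : ∃ Nl : Module.End K (Fin n → K), Nl = Tl - 1 := ⟨_, rfl⟩
  have hNpow : ∀ (j : ℕ) (a : AdjoinRoot (X ^ n : K[X])),
      (Nl ^ j) (Φ a) = Φ ((x * u) ^ j * a) := by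
    intro j
    induction j with
    | zero => intro a; rw [pow_zero, pow_zero, Module.End.one_apply, one_mul]
    | succ j ih =>
      intro a
      rw [pow_succ' Nl, Module.End.mul_apply, ih, hNl, LinearMap.sub_apply, Module.End.one_apply,
        hTl, Φ.symm_apply_apply, ← map_sub]
      congr 1
      rw [pow_succ', ← hw1]
      ring
  have hNn : Nl ^ n = 0 := by
    apply LinearMap.ext
    intro v
    obtain ⟨a, rfl⟩ := Φ.surjective v
    rw [hNpow, mul_pow, hxn, zero_mul, zero_mul, map_zero, LinearMap.zero_apply]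
  have hxn1 : x ^ (n - 1) ≠ 0 := by
    intro h0
    have h1 := hμ' (X ^ (n - 1))
    rw [← hxmk, h0, map_zero, coeff_X_pow_self] at h1
    exact zero_ne_one h1
  have hNne : (Nl ^ (n - 1)) (Φ 1) ≠ 0 := by
    rw [hNpow, mul_one, mul_pow]
    intro h0
    apply hxn1
    have h1 : x ^ (n - 1) * u ^ (n - 1) = 0 := Φ.injective (h0.trans (map_zero Φ).symm)
    calc x ^ (n - 1) = x ^ (n - 1) * u ^ (n - 1) * u' ^ (n - 1) := by
          rw [mul_assoc, ← mul_pow, hu', one_pow, mul_one]
      _ = 0 := by rw [h1, zero_mul]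
  have hrange := finrank_range_of_cyclic Nl n hn (Module.finrank_fin_fun K) hNn (Φ 1) hNne
  have hUN : Matrix.toLin' (U - 1) = Nl := by
    rw [hNl, hU, map_sub, Matrix.toLin'_toMatrix', Matrix.toLin'_one]
    rfl
  have hUN' : (Matrix.toLinAlgEquiv' (U - 1) : Module.End K (Fin n → K)) = Nl := hUN
  have hnil : (U - 1) ^ n = 0 := by
    apply (Matrix.toLinAlgEquiv' (R := K) (n := Fin n)).injective
    rw [map_pow, hUN', hNn, map_zero]
  have hrank : (U - 1).rank = n - 1 := by
    rw [Matrix.rank, ← Matrix.toLin'_apply', hUN]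
    exact hrange
  have hdet : U.det = 1 := by
    have hnp : IsNilpotent (U - 1) := ⟨n, hnil⟩
    have h := det_scalar_sub_nilpotent (1 : K) (-(U - 1)) hnp.neg
    have e : Matrix.scalar (Fin n) (1 : K) - (-(U - 1)) = U := by rw [map_one]; abel
    rw [e, one_pow] at h
    exact h
  exact ⟨U, hUst, hdet, hnil, hrank⟩

end Exists

end Cfsg.Agent.Helper14.RegUniU
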