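import Mathlib
import Cfsg.Prelude.Def_LieClassical
import Cfsg.Agent.Helper14.RegUniU2
import Cfsg.Agent.Helper14.JordSp

/-!
Every unipotent Jordan type occurs in the general unitary group: orthogonal sums of regular
unipotent unitary blocks.
-/

set_option autoImplicit false
open Polynomial
open scoped Matrix

universe u

namespace Cfsg.Agent.Helper14.JordU

open Cfsg.Agent.Helper8.SULag (QF frob frob_apply frob_frob qf_of_card h_nondeg h_conj h_add_left
  h_smul_left)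
open Cfsg.Agent.Helper16.Jordan (JD fam)
open Cfsg.Agent.Helper14.JordSp (JD_single prodMap_sub_one JD_prod map_sum_elim conj_of_JD')
open Cfsg.Agent.Helper14.RegUniU (st unitary_of_st st_of_unitary exists_onb exists_regU
  pow_ne_zero_of_rank')

section Blocks

variable {K : Type u} [Field K] {q : ℕ}

/-- a nondegenerate Hermitian space with a unipotent isometry of Jordan type `s` exists -/
def QU (hq : QF K q) (s : Multiset ℕ) : Prop :=
  ∃ (V : Type u) (_ : AddCommGroup V) (_ : Module K V) (_ : FiniteDimensional K V)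
    (H : V → V → K) (g : Module.End K V) (ι : Type) (_ : Fintype ι) (l : ι → ℕ) (v : ι → V),
    (∀ x x' y, H (x + x') y = H x y + H x' y) ∧ (∀ (a : K) x y, H (a • x) y = a * H x y) ∧
    (∀ x y, frob hq (H x y) = H y x) ∧ (∀ x, (∀ y, H x y = 0) → x = 0) ∧
    (∀ x y, H (g x) (g y) = H x y) ∧ JD (g - 1) ⊤ l v ∧ Finset.univ.val.map l = s

theorem QU_zero (hq : QF K q) : QU hq 0 := by
  refine ⟨Fin 0 → K, inferInstance, inferInstance, inferInstance, fun _ _ => 0, 1, Empty,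
    inferInstance, Empty.elim, Empty.elim, fun _ _ _ => (add_zero (0 : K)).symm,
    fun a _ _ => (mul_zero a).symm, fun _ _ => map_zero _,
    fun x _ => Subsingleton.elim _ _, fun _ _ => rfl,
    ⟨fun i => i.elim, linearIndependent_empty_type, ?_⟩, rfl⟩
  rw [eq_top_iff]
  intro x _
  rw [Subsingleton.elim x 0]
  exact Submodule.zero_mem _

theorem QU_add (hq : QF K q) {s₁ s₂ : Multiset ℕ} (h₁ : QU hq s₁) (h₂ : QU hq s₂) :
    QU hq (s₁ + s₂) := by
  obtain ⟨V₁, _, _, _, H₁, g₁, ι₁, _, l₁, v₁, hadd₁, hsmul₁, hconj₁, hnd₁, hiso₁, hj₁, hs₁⟩ := h₁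
  obtain ⟨V₂, _, _, _, H₂, g₂, ι₂, _, l₂, v₂, hadd₂, hsmul₂, hconj₂, hnd₂, hiso₂, hj₂, hs₂⟩ := h₂
  have hz₁ : ∀ y, H₁ 0 y = 0 := by
    intro y
    have h := hsmul₁ 0 0 y
    rw [zero_smul, zero_mul] at h
    exact h
  have hz₂ : ∀ y, H₂ 0 y = 0 := by
    intro y
    have h := hsmul₂ 0 0 y
    rw [zero_smul, zero_mul] at h
    exact h
  refine ⟨V₁ × V₂, inferInstance, inferInstance, inferInstance,
    fun x y => H₁ x.1 y.1 + H₂ x.2 y.2, g₁.prodMap g₂,
    ι₁ ⊕ ι₂, inferInstance, Sum.elim l₁ l₂, Sum.elim (fun i => (v₁ i, 0)) (fun i => (0, v₂ i)),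
    ?_, ?_, ?_, ?_, ?_, ?_, ?_⟩
  · intro x x' y
    show H₁ (x.1 + x'.1) y.1 + H₂ (x.2 + x'.2) y.2 =
      (H₁ x.1 y.1 + H₂ x.2 y.2) + (H₁ x'.1 y.1 + H₂ x'.2 y.2)
    rw [hadd₁, hadd₂]
    ring
  · intro a x y
    show H₁ (a • x.1) y.1 + H₂ (a • x.2) y.2 = a * (H₁ x.1 y.1 + H₂ x.2 y.2)
    rw [hsmul₁, hsmul₂]
    ring
  · intro x y
    show frob hq (H₁ x.1 y.1 + H₂ x.2 y.2) = H₁ y.1 x.1 + H₂ y.2 x.2
    rw [map_add, hconj₁, hconj₂]
  · intro x hx
    have hx1 : x.1 = 0 := by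
      apply hnd₁
      intro y
      have h3 := hx (y, 0)
      have h4 : H₁ x.1 y + H₂ x.2 0 = 0 := h3
      rw [← hconj₂ 0 x.2, hz₂, map_zero, add_zero] at h4
      exact h4
    have hx2 : x.2 = 0 := by
      apply hnd₂
      intro y
      have h3 := hx (0, y)
      have h4 : H₁ x.1 0 + H₂ x.2 y = 0 := h3
      rw [← hconj₁ 0 x.1, hz₁, map_zero, zero_add] at h4
      exact h4
    exact Prod.ext hx1 hx2
  · intro x y
    show H₁ (g₁ x.1) (g₁ y.1) + H₂ (g₂ x.2) (g₂ y.2) = H₁ x.1 y.1 + H₂ x.2 y.2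
    rw [hiso₁, hiso₂]
  · rw [prodMap_sub_one]
    exact JD_prod hj₁ hj₂
  · rw [← hs₁, ← hs₂]
    exact map_sum_elim l₁ l₂

theorem QU_single [Finite K] (hq : QF K q) (k : ℕ) (hk : 1 ≤ k) : QU hq {k} := by
  classical
  obtain ⟨U, hUun, -, hUnil, hUreg⟩ := exists_regU hq hk
  have hne := pow_ne_zero_of_rank' (U - 1) hk hUreg
  obtain ⟨e, he⟩ : ∃ e : Fin k → K, ((U - 1) ^ (k - 1)) *ᵥ e ≠ 0 := by
    by_contra hcon
    apply hne
    apply Matrix.toLin'.injective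
    apply LinearMap.ext
    intro w
    rw [Matrix.toLin'_apply, map_zero, LinearMap.zero_apply]
    by_contra hw
    exact hcon ⟨w, hw⟩
  have hfr : Module.finrank K (Fin k → K) = k := Module.finrank_fin_fun K
  have hpow : ∀ j : ℕ, (Matrix.toLin' U - 1) ^ j = Matrix.toLin' ((U - 1) ^ j) := by
    intro j
    rw [Matrix.toLin'_pow, map_sub, Matrix.toLin'_one]
    rfl
  refine ⟨Fin k → K, inferInstance, inferInstance, inferInstance, Cfsg.hermForm k K q,
    Matrix.toLin' U, Unit, inferInstance, fun _ => k, fun _ => e, ?_, ?_, ?_, ?_, ?_, ?_, rfl⟩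
  · intro x x' y
    exact h_add_left x x' y
  · intro a x y
    exact h_smul_left a x y
  · intro x y
    exact h_conj hq x y
  · intro x hx
    exact h_nondeg hq x hx
  · intro x y
    rw [Matrix.toLin'_apply, Matrix.toLin'_apply]
    exact unitary_of_st hq U hUun x y
  · apply JD_single (Matrix.toLin' U - 1) k hfr
    · rw [hpow, hUnil, map_zero]
    · rw [hpow, Matrix.toLin'_apply]
      exact he

theorem QU_all [Finite K] (hq : QF K q) (s : Multiset ℕ) (hs : ∀ a ∈ s, 1 ≤ a) : QU hq s := by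
  induction s using Multiset.induction_on with
  | empty => exact QU_zero hq
  | cons a s ih =>
    rw [← Multiset.singleton_add]
    apply QU_add hq
    · exact QU_single hq a (hs a (Multiset.mem_cons_self a s))
    · exact ih (fun b hb => hs b (Multiset.mem_cons_of_mem hb))

end Blocks

section Final

/-- every unipotent element of `GL_n(q²)` is conjugate to an element of `GU_n(q)` -/
theorem exists_gu_conj {K : Type u} [Field K] [Fintype K] {q n : ℕ}
    (hK : Fintype.card K = q ^ 2) (hn : 1 ≤ n) (g₀ : Matrix.GeneralLinearGroup (Fin n) K)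
    {ι : Type} [Fintype ι] (m : ι → ℕ) (v : ι → Fin n → K)
    (hJD : JD (Matrix.toLin' ((g₀ : Matrix (Fin n) (Fin n) K) - 1)) ⊤ m v)
    (hpos : ∀ i, 1 ≤ m i) :
    ∃ h : Matrix.GeneralLinearGroup (Fin n) K, h ∈ Cfsg.GU n K q ∧ IsConj g₀ h := by
  classical
  have hq : QF K q := qf_of_card hK
  have hQ : QU hq (Finset.univ.val.map m) := by
    apply QU_all hq
    intro a ha
    obtain ⟨i, -, rfl⟩ := Multiset.mem_map.mp ha
    exact hpos i
  obtain ⟨V, _, _, _, H, g, ι', _, l, v', hadd, hsmul, hconj, hnd, hiso, hjd, hms⟩ := hQ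
  obtain ⟨φ, hφ⟩ := conj_of_JD' hJD hjd hms.symm
  have hfr : Module.finrank K V = n := by
    rw [← φ.finrank_eq, Module.finrank_fin_fun]
  obtain ⟨Φ, hΦ⟩ := exists_onb hq n hn hfr H hadd hsmul hconj hnd
  have hφg : ∀ x, φ ((g₀ : Matrix (Fin n) (Fin n) K) *ᵥ x) = g (φ x) := by
    intro x
    have h1 := hφ x
    rw [Matrix.toLin'_apply, Matrix.sub_mulVec, Matrix.one_mulVec, map_sub, LinearMap.sub_apply,
      Module.End.one_apply] at h1
    exact sub_left_inj.mp h1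
  obtain ⟨Ψ, hΨ⟩ : ∃ Ψ : (Fin n → K) ≃ₗ[K] (Fin n → K), ∀ w, Ψ w = Φ (φ w) :=
    ⟨φ.trans Φ, fun w => rfl⟩
  obtain ⟨C, hC⟩ : ∃ C : Matrix (Fin n) (Fin n) K, ∀ w, C *ᵥ w = Ψ w :=
    ⟨LinearMap.toMatrix' (Ψ : (Fin n → K) →ₗ[K] (Fin n → K)), fun w => by
      rw [← Matrix.toLin'_apply, Matrix.toLin'_toMatrix']; rfl⟩
  obtain ⟨Ci, hCi⟩ : ∃ Ci : Matrix (Fin n) (Fin n) K, ∀ w, Ci *ᵥ w = Ψ.symm w :=
    ⟨LinearMap.toMatrix' (Ψ.symm : (Fin n → K) →ₗ[K] (Fin n → K)), fun w => by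
      rw [← Matrix.toLin'_apply, Matrix.toLin'_toMatrix']; rfl⟩
  have hCCi : C * Ci = 1 := by
    apply Matrix.toLin'.injective
    apply LinearMap.ext
    intro w
    rw [Matrix.toLin'_apply, ← Matrix.mulVec_mulVec, hCi, hC, Ψ.apply_symm_apply,
      Matrix.toLin'_one, LinearMap.id_apply]
  have hCiC : Ci * C = 1 := mul_eq_one_comm.mp hCCi
  obtain ⟨U, hU⟩ : ∃ U : Matrix (Fin n) (Fin n) K,
      U = C * (g₀ : Matrix (Fin n) (Fin n) K) * Ci := ⟨_, rfl⟩
  have hUv : ∀ w, U *ᵥ w = Φ (g (Φ.symm w)) := by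
    intro w
    have e : φ (Ψ.symm w) = Φ.symm w := by
      apply Φ.injective
      rw [← hΨ, Ψ.apply_symm_apply, Φ.apply_symm_apply]
    rw [hU, ← Matrix.mulVec_mulVec, ← Matrix.mulVec_mulVec, hCi, hC, hΨ, hφg, e]
  have hUiso : ∀ x y, Cfsg.hermForm n K q (U *ᵥ x) (U *ᵥ y) = Cfsg.hermForm n K q x y := by
    intro x y
    rw [hUv, hUv, hΦ, hiso, ← hΦ, Φ.apply_symm_apply, Φ.apply_symm_apply]
  have hUun : st hq U * U = 1 := st_of_unitary hq U hUiso
  have hUun' : U * st hq U = 1 := mul_eq_one_comm.mp hUun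
  refine ⟨⟨U, st hq U, hUun', hUun⟩, hUiso, ?_⟩
  rw [isConj_iff]
  refine ⟨⟨C, Ci, hCCi, hCiC⟩, ?_⟩
  rw [mul_inv_eq_iff_eq_mul]
  apply Units.ext
  show C * (g₀ : Matrix (Fin n) (Fin n) K) = U * C
  rw [hU, Matrix.mul_assoc (C * (g₀ : Matrix (Fin n) (Fin n) K)), hCiC, Matrix.mul_one]

end Final

end Cfsg.Agent.Helper14.JordU
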