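import Mathlib
import Cfsg.Prelude.Def_LieClassical
import Cfsg.Agent.Helper14.RegUniU2
import Cfsg.Agent.Helper14.PrimeOrdSp
import Cfsg.Agent.Helper14.SemiCount

/-!
Semisimple elements of unitary groups: the conjugate-reciprocal of a polynomial, characteristic
polynomials of unitary matrices, and the existence of unitary matrices with prescribed
characteristic polynomial (field blocks, hyperbolic blocks, orthogonal sums).
-/

set_option autoImplicit false
open Polynomial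
open scoped Matrix

universe u

namespace Cfsg.Agent.Helper14.PrimeOrdU

open Cfsg.Agent.Helper8.SULag (QF frob frob_apply frob_frob qf_of_card h_nondeg h_conj h_add_left
  h_smul_left exists_tr)
open Cfsg.Agent.Helper14.RegUniU (st st_mul st_one st_st hh_adj unitary_of_st st_of_unitary
  exists_onb det_st)

section Star

variable {K : Type u} [Field K] {q : ℕ}

/-- the monic conjugate reciprocal of a polynomial -/
noncomputable def sstar (hq : QF K q) (ψ : K[X]) : K[X] := PrimeOrdSp.star (ψ.map (frob hq))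

theorem map_coeff_zero_ne (hq : QF K q) (ψ : K[X]) (h0 : ψ.coeff 0 ≠ 0) :
    (ψ.map (frob hq)).coeff 0 ≠ 0 := by
  rw [coeff_map]
  exact (map_ne_zero (frob hq)).mpr h0

theorem sstar_monic (hq : QF K q) (ψ : K[X]) (h0 : ψ.coeff 0 ≠ 0) : (sstar hq ψ).Monic :=
  PrimeOrdSp.star_monic _ (map_coeff_zero_ne hq ψ h0)

theorem sstar_natDegree (hq : QF K q) (ψ : K[X]) (h0 : ψ.coeff 0 ≠ 0) :
    (sstar hq ψ).natDegree = ψ.natDegree := by
  unfold sstar
  rw [PrimeOrdSp.star_natDegree _ (map_coeff_zero_ne hq ψ h0), natDegree_map]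

theorem sstar_dvd (hq : QF K q) {r : ℕ} (ψ : K[X]) (h0 : ψ.coeff 0 ≠ 0) (hd : ψ ∣ X ^ r - 1) :
    sstar hq ψ ∣ X ^ r - 1 := by
  apply PrimeOrdSp.star_dvd _ (map_coeff_zero_ne hq ψ h0)
  have h := Polynomial.map_dvd (frob hq) hd
  rw [Polynomial.map_sub, Polynomial.map_pow, Polynomial.map_X, Polynomial.map_one] at h
  exact h

theorem reverse_map' (hq : QF K q) (ψ : K[X]) :
    (ψ.map (frob hq)).reverse = ψ.reverse.map (frob hq) := by
  unfold Polynomial.reverse
  rw [natDegree_map, reflect_map]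

theorem star_map (hq : QF K q) (ψ : K[X]) :
    (PrimeOrdSp.star ψ).map (frob hq) = PrimeOrdSp.star (ψ.map (frob hq)) := by
  unfold PrimeOrdSp.star
  rw [Polynomial.map_mul, Polynomial.map_C, map_inv₀, reverse_map', coeff_map]

theorem map_map_frob (hq : QF K q) (ψ : K[X]) : (ψ.map (frob hq)).map (frob hq) = ψ := by
  rw [Polynomial.map_map]
  have h : (frob hq).comp (frob hq) = RingHom.id K := RingHom.ext (fun a => frob_frob hq a)
  rw [h, Polynomial.map_id]

theorem sstar_sstar (hq : QF K q) (ψ : K[X]) (hm : ψ.Monic) (h0 : ψ.coeff 0 ≠ 0) :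
    sstar hq (sstar hq ψ) = ψ := by
  unfold sstar
  rw [star_map, map_map_frob, PrimeOrdSp.star_star ψ hm h0]

theorem sstar_eval_one (hq : QF K q) (ψ : K[X]) :
    eval 1 (sstar hq ψ) = (frob hq (ψ.coeff 0))⁻¹ * frob hq (eval 1 ψ) := by
  unfold sstar
  rw [PrimeOrdSp.star_eval_one, coeff_map, Polynomial.eval_one_map]

theorem sstar_coeff_zero (hq : QF K q) (ψ : K[X]) (hm : ψ.Monic) (h0 : ψ.coeff 0 ≠ 0) :
    (sstar hq ψ).coeff 0 ≠ 0 := by
  unfold sstar
  rw [PrimeOrdSp.star_coeff_zero _ (hm.map (frob hq))]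
  exact inv_ne_zero (map_coeff_zero_ne hq ψ h0)

end Star

section Charpoly

variable {K : Type u} [Field K] {q : ℕ}

theorem charpoly_st (hq : QF K q) {n : ℕ} (M : Matrix (Fin n) (Fin n) K) :
    (st hq M).charpoly = M.charpoly.map (frob hq) := by
  unfold st
  rw [Matrix.charpoly_transpose]
  exact Matrix.charpoly_map M (frob hq)

theorem charpoly_inv' {n : ℕ} (A : Matrix (Fin n) (Fin n) K) (h : IsUnit A.det) :
    A⁻¹.charpoly = PrimeOrdSp.star A.charpoly := by
  have hA : IsUnit A := (Matrix.isUnit_iff_isUnit_det A).mpr h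
  have hdet := Matrix.det_eq_sign_charpoly_coeff A
  rw [Fintype.card_fin] at hdet
  have h1 : ((-1 : K[X]) ^ n) * C (Ring.inverse A.det) = C (A.charpoly.coeff 0)⁻¹ := by
    have e1 : ((-1 : K[X]) ^ n) = C ((-1 : K) ^ n) := by rw [C_pow, C_neg, C_1]
    have e2 : ((-1 : K) ^ n) * ((-1 : K) ^ n)⁻¹ = 1 :=
      mul_inv_cancel₀ (pow_ne_zero n (neg_ne_zero.mpr one_ne_zero))
    rw [e1, ← C_mul, Ring.inverse_eq_inv, hdet, mul_inv, ← mul_assoc, e2, one_mul]
  rw [Matrix.charpoly_inv A hA, ← Matrix.reverse_charpoly, Fintype.card_fin, h1]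
  rfl

/-- the characteristic polynomial of the inverse conjugate transpose -/
theorem charpoly_of_st_mul (hq : QF K q) {n : ℕ} (M N : Matrix (Fin n) (Fin n) K)
    (h : st hq M * N = 1) : N.charpoly = sstar hq M.charpoly := by
  have hdet : IsUnit (st hq M).det := Matrix.isUnit_det_of_right_inverse h
  have hN : N = (st hq M)⁻¹ := (Matrix.inv_eq_right_inv h).symm
  rw [hN, charpoly_inv' _ hdet, charpoly_st]
  rfl

theorem sstar_charpoly_unitary (hq : QF K q) {n : ℕ} (M : Matrix (Fin n) (Fin n) K)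
    (h : st hq M * M = 1) : sstar hq M.charpoly = M.charpoly :=
  (charpoly_of_st_mul hq M M h).symm

end Charpoly

section Blocks

variable {K : Type u} [Field K] {q : ℕ}

/-- a nondegenerate Hermitian space with an isometry of characteristic polynomial `f` exists -/
def QC (hq : QF K q) (f : K[X]) : Prop :=
  ∃ (V : Type u) (_ : AddCommGroup V) (_ : Module K V) (_ : FiniteDimensional K V)
    (H : V → V → K) (g : Module.End K V),
    (∀ x x' y, H (x + x') y = H x y + H x' y) ∧ (∀ (a : K) x y, H (a • x) y = a * H x y) ∧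
    (∀ x y, frob hq (H x y) = H y x) ∧ (∀ x, (∀ y, H x y = 0) → x = 0) ∧
    (∀ x y, H (g x) (g y) = H x y) ∧ g.charpoly = f

theorem QC_id (hq : QF K q) (k : ℕ) : QC hq ((X - 1) ^ k) := by
  refine ⟨Fin k → K, inferInstance, inferInstance, inferInstance, Cfsg.hermForm k K q, 1,
    fun x x' y => h_add_left x x' y, fun a x y => h_smul_left a x y, fun x y => h_conj hq x y,
    fun x hx => h_nondeg hq x hx, fun x y => rfl, ?_⟩
  rw [LinearMap.charpoly_one, Module.finrank_fin_fun]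

theorem QC_mul (hq : QF K q) {f₁ f₂ : K[X]} (h₁ : QC hq f₁) (h₂ : QC hq f₂) :
    QC hq (f₁ * f₂) := by
  obtain ⟨V₁, _, _, _, H₁, g₁, hadd₁, hsmul₁, hconj₁, hnd₁, hiso₁, hc₁⟩ := h₁
  obtain ⟨V₂, _, _, _, H₂, g₂, hadd₂, hsmul₂, hconj₂, hnd₂, hiso₂, hc₂⟩ := h₂
  have hz₁ : ∀ y, H₁ 0 y = 0 := by
    intro y
    have h := hsmul₁ 0 0 y
    rw [zero_smul, zero_mul] at h
    exact h
  have hz₂ : ∀ y, H₂ 0 y = 0 := by
    intro y
    have h := hsmul₂ 0 0 y
    rw [zero_smul, zero_mul] at h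
    exact h
  refine ⟨V₁ × V₂, inferInstance, inferInstance, inferInstance,
    fun x y => H₁ x.1 y.1 + H₂ x.2 y.2, g₁.prodMap g₂, ?_, ?_, ?_, ?_, ?_, ?_⟩
  · intro x x' y
    show H₁ (x.1 + x'.1) y.1 + H₂ (x.2 + x'.2) y.2 =
      (H₁ x.1 y.1 + H₂ x.2 y.2) + (H₁ x'.1 y.1 + H₂ x'.2 y.2)
    rw [hadd₁, hadd₂]
    ring
  · intro a x y
    show H₁ (a • x.1) y.1 + H₂ (a • x.2) y.2 = a * (H₁ x.1 y.1 + H₂ x.2 y.2)
    rw [hsmul₁, hsmul₂]
    ring
  · intro x y
    show frob hq (H₁ x.1 y.1 + H₂ x.2 y.2) = H₁ y.1 x.1 + H₂ y.2 x.2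
    rw [map_add, hconj₁, hconj₂]
  · intro x hx
    have hx1 : x.1 = 0 := by
      apply hnd₁
      intro y
      have h3 := hx (y, 0)
      have h4 : H₁ x.1 y + H₂ x.2 0 = 0 := h3
      rw [← hconj₂ 0 x.2, hz₂, map_zero, add_zero] at h4
      exact h4
    have hx2 : x.2 = 0 := by
      apply hnd₂
      intro y
      have h3 := hx (0, y)
      have h4 : H₁ x.1 0 + H₂ x.2 y = 0 := h3
      rw [← hconj₁ 0 x.1, hz₁, map_zero, zero_add] at h4
      exact h4
    exact Prod.ext hx1 hx2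
  · intro x y
    show H₁ (g₁ x.1) (g₁ y.1) + H₂ (g₂ x.2) (g₂ y.2) = H₁ x.1 y.1 + H₂ x.2 y.2
    rw [hiso₁, hiso₂]
  · rw [LinearMap.charpoly_prodMap, hc₁, hc₂]

theorem QC_pow (hq : QF K q) {f : K[X]} (h : QC hq f) (k : ℕ) : QC hq (f ^ k) := by
  induction k with
  | zero =>
    have h1 := QC_id hq 0
    rw [pow_zero] at h1 ⊢
    exact h1
  | succ k ih =>
    rw [pow_succ]
    exact QC_mul hq ih h

theorem QC_prod (hq : QF K q) (S : Finset K[X]) (e : K[X] → ℕ) (h : ∀ ψ ∈ S, QC hq ψ) :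
    QC hq (∏ ψ ∈ S, ψ ^ e ψ) := by
  classical
  induction S using Finset.induction_on with
  | empty =>
    have h1 := QC_id hq 0
    rw [pow_zero] at h1
    rw [Finset.prod_empty]
    exact h1
  | insert a s ha ih =>
    rw [Finset.prod_insert ha]
    exact QC_mul hq (QC_pow hq (h a (Finset.mem_insert_self a s)) _)
      (ih (fun ψ hψ => h ψ (Finset.mem_insert_of_mem hψ)))

theorem QC_X_sub_one (hq : QF K q) : QC hq (X - 1) := by
  have h1 := QC_id hq 1
  rw [pow_one] at h1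
  exact h1

/-- the field block of a self-dual irreducible polynomial -/
theorem QC_self (hq : QF K q) (φ : K[X]) (hirr : Irreducible φ) (hm : φ.Monic)
    (h0 : φ.coeff 0 ≠ 0) (hs : sstar hq φ = φ) : QC hq φ := by
  classical
  haveI : Fact (Irreducible φ) := ⟨hirr⟩
  haveI : Module.Finite K (AdjoinRoot φ) := hm.finite_adjoinRoot
  obtain ⟨x, hx⟩ : ∃ x : AdjoinRoot φ, x = AdjoinRoot.root φ := ⟨_, rfl⟩
  have hx0 : eval₂ (AdjoinRoot.of φ) x φ = 0 := by
    rw [hx]
    exact AdjoinRoot.eval₂_root φ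
  have hxne : x ≠ 0 := by
    intro h
    rw [h, Polynomial.eval₂_at_zero] at hx0
    exact h0 ((map_eq_zero (AdjoinRoot.of φ)).mp hx0)
  obtain ⟨χ, hχ⟩ : ∃ χ : K[X], χ = φ.map (frob hq) := ⟨_, rfl⟩
  have hχ0 : χ.coeff 0 ≠ 0 := by
    rw [hχ]
    exact map_coeff_zero_ne hq φ h0
  have hrev : χ.reverse = C (χ.coeff 0) * φ := by
    have h1 := PrimeOrdSp.reverse_eq_star χ hχ0
    have h2 : PrimeOrdSp.star χ = φ := by
      rw [hχ]
      exact hs
    rw [h2] at h1
    exact h1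
  have h3 : eval₂ (AdjoinRoot.of φ) x⁻¹ χ = 0 := by
    letI : Invertible x⁻¹ := ⟨x, mul_inv_cancel₀ hxne, inv_mul_cancel₀ hxne⟩
    have h4 : eval₂ (AdjoinRoot.of φ) (⅟(x⁻¹)) χ.reverse = 0 := by
      show eval₂ (AdjoinRoot.of φ) x χ.reverse = 0
      rw [hrev, eval₂_mul, hx0, mul_zero]
    exact (Polynomial.eval₂_reverse_eq_zero_iff _ _ _).mp h4
  have hτ0 : φ.eval₂ ((AdjoinRoot.of φ).comp (frob hq)) x⁻¹ = 0 := by
    rw [← Polynomial.eval₂_map, ← hχ]
    exact h3
  obtain ⟨τ, hτ⟩ : ∃ τ : AdjoinRoot φ →+* AdjoinRoot φ,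
      τ = AdjoinRoot.lift ((AdjoinRoot.of φ).comp (frob hq)) x⁻¹ hτ0 := ⟨_, rfl⟩
  have hτx : τ x = x⁻¹ := by
    have h1 : τ (AdjoinRoot.root φ) = x⁻¹ := by
      rw [hτ]
      exact AdjoinRoot.lift_root hτ0
    rw [← hx] at h1
    exact h1
  have hτof : ∀ a : K, τ (AdjoinRoot.of φ a) = AdjoinRoot.of φ (frob hq a) := by
    intro a
    rw [hτ, AdjoinRoot.lift_of]
    rfl
  have hτmk : ∀ p : K[X],
      τ (AdjoinRoot.mk φ p) = eval₂ ((AdjoinRoot.of φ).comp (frob hq)) x⁻¹ p := by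
    intro p
    rw [hτ, AdjoinRoot.lift_mk]
  have hττ : ∀ a, τ (τ a) = a := by
    intro a
    obtain ⟨p, rfl⟩ := AdjoinRoot.mk_surjective a
    rw [hτmk, Polynomial.hom_eval₂]
    have e1 : τ.comp ((AdjoinRoot.of φ).comp (frob hq)) = AdjoinRoot.of φ := by
      apply RingHom.ext
      intro c
      show τ (AdjoinRoot.of φ (frob hq c)) = AdjoinRoot.of φ c
      rw [hτof, frob_frob]
    have e2 : τ x⁻¹ = x := by rw [map_inv₀, hτx, inv_inv]
    rw [e1, e2, hx, ← AdjoinRoot.aeval_eq, Polynomial.aeval_def, AdjoinRoot.algebraMap_eq]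
  have hτsmul : ∀ (c : K) (a : AdjoinRoot φ), τ (c • a) = frob hq c • τ a := by
    intro c a
    rw [Algebra.smul_def, Algebra.smul_def, map_mul, AdjoinRoot.algebraMap_eq, hτof]
  obtain ⟨μ, hμ⟩ := SpPal.exists_mu φ hm 0
  have hμ1 : μ 1 = 1 := by
    have h1 : (1 : AdjoinRoot φ) = AdjoinRoot.mk φ 1 := (map_one _).symm
    rw [h1, hμ, (Polynomial.modByMonic_eq_self_iff hm).mpr (by
      rw [degree_one]
      exact Polynomial.degree_pos_of_irreducible hirr), coeff_one_zero]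
  obtain ⟨κ, hκ⟩ := exists_tr hq 1 (map_one _)
  obtain ⟨L, hL⟩ : ∃ L : AdjoinRoot φ → K, ∀ a, L a = κ * μ a + frob hq (κ * μ (τ a)) :=
    ⟨fun a => κ * μ a + frob hq (κ * μ (τ a)), fun a => rfl⟩
  have hL1 : L 1 = 1 := by
    rw [hL, map_one τ, hμ1, mul_one]
    exact hκ
  have hLadd : ∀ a b, L (a + b) = L a + L b := by
    intro a b
    rw [hL, hL, hL, map_add μ, map_add τ, map_add μ, mul_add, mul_add, map_add]
    ring
  have hLsmul : ∀ (c : K) a, L (c • a) = c * L a := by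
    intro c a
    rw [hL, hL, hτsmul, map_smul, map_smul, smul_eq_mul, smul_eq_mul, map_mul, map_mul,
      frob_frob, mul_add, map_mul]
    ring
  have hLτ : ∀ a, L (τ a) = frob hq (L a) := by
    intro a
    rw [hL, hL, hττ, map_add, frob_frob, add_comm]
  refine ⟨AdjoinRoot φ, inferInstance, inferInstance, inferInstance, fun a c => L (a * τ c),
    LinearMap.mulLeft K (AdjoinRoot.root φ), ?_, ?_, ?_, ?_, ?_, SpPal.charpoly_root φ hm⟩
  · intro a a' c
    show L ((a + a') * τ c) = L (a * τ c) + L (a' * τ c)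
    rw [add_mul, hLadd]
  · intro k a c
    show L ((k • a) * τ c) = k * L (a * τ c)
    rw [smul_mul_assoc, hLsmul]
  · intro a c
    show frob hq (L (a * τ c)) = L (c * τ a)
    rw [← hLτ, map_mul, hττ, mul_comm]
  · intro a ha
    by_contra hane
    have h1 : L (a * τ (τ a⁻¹)) = 0 := ha (τ a⁻¹)
    rw [hττ, mul_inv_cancel₀ hane, hL1] at h1
    exact one_ne_zero h1
  · intro a c
    show L ((AdjoinRoot.root φ * a) * τ (AdjoinRoot.root φ * c)) = L (a * τ c)
    rw [← hx, map_mul, hτx]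
    have e : x * a * (x⁻¹ * τ c) = a * τ c := by
      calc x * a * (x⁻¹ * τ c) = (x * x⁻¹) * (a * τ c) := by ring
        _ = a * τ c := by rw [mul_inv_cancel₀ hxne, one_mul]
    rw [e]

theorem hh_zero_right (hq : QF K q) {b : ℕ} (x : Fin b → K) : Cfsg.hermForm b K q x 0 = 0 := by
  unfold Cfsg.hermForm
  apply Finset.sum_eq_zero
  intro i _
  rw [Pi.zero_apply, zero_pow hq.q0, mul_zero]

/-- the hyperbolic block of a polynomial and its conjugate reciprocal -/
theorem QC_pair (hq : QF K q) (φ : K[X]) (hm : φ.Monic) (h0 : φ.coeff 0 ≠ 0) :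
    QC hq (φ * sstar hq φ) := by
  classical
  obtain ⟨b, hb⟩ : ∃ b, b = φ.natDegree := ⟨_, rfl⟩
  obtain ⟨M, hM⟩ := SemiConj.exists_matrix_charpoly b φ hm hb.symm
  have hdetM : M.det ≠ 0 := by
    rw [Matrix.det_eq_sign_charpoly_coeff, hM]
    exact mul_ne_zero (pow_ne_zero _ (neg_ne_zero.mpr one_ne_zero)) h0
  have hdetS : IsUnit (st hq M).det := by
    rw [det_st]
    exact ((map_ne_zero (frob hq)).mpr hdetM).isUnit
  obtain ⟨N, hN⟩ : ∃ N : Matrix (Fin b) (Fin b) K, N = (st hq M)⁻¹ := ⟨_, rfl⟩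
  have hMN : st hq M * N = 1 := by
    rw [hN]
    exact Matrix.mul_nonsing_inv _ hdetS
  have hNM : st hq N * M = 1 := by
    have h := congrArg (st hq) hMN
    rw [st_mul, st_st, st_one] at h
    exact h
  have hNc : N.charpoly = sstar hq φ := by rw [charpoly_of_st_mul hq M N hMN, hM]
  refine ⟨(Fin b → K) × (Fin b → K), inferInstance, inferInstance, inferInstance,
    fun x y => Cfsg.hermForm b K q x.1 y.2 + Cfsg.hermForm b K q x.2 y.1,
    (Matrix.toLin' M).prodMap (Matrix.toLin' N), ?_, ?_, ?_, ?_, ?_, ?_⟩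
  · intro x x' y
    show Cfsg.hermForm b K q (x.1 + x'.1) y.2 + Cfsg.hermForm b K q (x.2 + x'.2) y.1 =
      (Cfsg.hermForm b K q x.1 y.2 + Cfsg.hermForm b K q x.2 y.1) +
        (Cfsg.hermForm b K q x'.1 y.2 + Cfsg.hermForm b K q x'.2 y.1)
    rw [h_add_left, h_add_left]
    ring
  · intro a x y
    show Cfsg.hermForm b K q (a • x.1) y.2 + Cfsg.hermForm b K q (a • x.2) y.1 =
      a * (Cfsg.hermForm b K q x.1 y.2 + Cfsg.hermForm b K q x.2 y.1)
    rw [h_smul_left, h_smul_left]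
    ring
  · intro x y
    show frob hq (Cfsg.hermForm b K q x.1 y.2 + Cfsg.hermForm b K q x.2 y.1) =
      Cfsg.hermForm b K q y.1 x.2 + Cfsg.hermForm b K q y.2 x.1
    rw [map_add, h_conj hq, h_conj hq, add_comm]
  · intro x hx
    have hx1 : x.1 = 0 := by
      apply h_nondeg hq
      intro y
      have h3 := hx (0, y)
      have h4 : Cfsg.hermForm b K q x.1 y + Cfsg.hermForm b K q x.2 0 = 0 := h3
      rw [hh_zero_right hq, add_zero] at h4
      exact h4
    have hx2 : x.2 = 0 := by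
      apply h_nondeg hq
      intro y
      have h3 := hx (y, 0)
      have h4 : Cfsg.hermForm b K q x.1 0 + Cfsg.hermForm b K q x.2 y = 0 := h3
      rw [hh_zero_right hq, zero_add] at h4
      exact h4
    exact Prod.ext hx1 hx2
  · intro x y
    show Cfsg.hermForm b K q (Matrix.toLin' M x.1) (Matrix.toLin' N y.2) +
      Cfsg.hermForm b K q (Matrix.toLin' N x.2) (Matrix.toLin' M y.1) =
      Cfsg.hermForm b K q x.1 y.2 + Cfsg.hermForm b K q x.2 y.1
    rw [Matrix.toLin'_apply, Matrix.toLin'_apply, Matrix.toLin'_apply, Matrix.toLin'_apply,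
      hh_adj hq, hh_adj hq, Matrix.mulVec_mulVec, Matrix.mulVec_mulVec, hMN, hNM,
      Matrix.one_mulVec, Matrix.one_mulVec]
  · rw [LinearMap.charpoly_prodMap, Matrix.charpoly_toLin', Matrix.charpoly_toLin', hM, hNc]

/-- from an abstract Hermitian space to the general unitary group -/
theorem exists_gu_of_QC [Finite K] (hq : QF K q) {n : ℕ} (f : K[X]) (hf : QC hq f)
    (hdeg : f.natDegree = n) :
    ∃ G : Matrix.GeneralLinearGroup (Fin n) K, G ∈ Cfsg.GU n K q ∧
      (G : Matrix (Fin n) (Fin n) K).charpoly = f := by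
  classical
  obtain ⟨V, _, _, _, H, g, hadd, hsmul, hconj, hnd, hiso, hc⟩ := hf
  have hfr : Module.finrank K V = n := by
    rw [← LinearMap.charpoly_natDegree g, hc, hdeg]
  rcases Nat.eq_zero_or_pos n with rfl | hn
  · refine ⟨1, Subgroup.one_mem _, ?_⟩
    have h1 : f = 1 := by
      apply Polynomial.eq_one_of_monic_natDegree_zero _ hdeg
      rw [← hc]
      exact LinearMap.charpoly_monic g
    rw [h1, Units.val_one, Matrix.charpoly_one, Fintype.card_fin, pow_zero]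
  obtain ⟨Φ, hΦ⟩ := exists_onb hq n hn hfr H hadd hsmul hconj hnd
  obtain ⟨T, hT⟩ : ∃ T : Module.End K (Fin n → K), T = Φ.conj g := ⟨_, rfl⟩
  have hTu : ∀ u, T u = Φ (g (Φ.symm u)) := by
    intro u
    rw [hT]
    rfl
  obtain ⟨U, hU⟩ : ∃ U : Matrix (Fin n) (Fin n) K, U = LinearMap.toMatrix' T := ⟨_, rfl⟩
  have hUT : ∀ v, U *ᵥ v = T v := by
    intro v
    rw [hU, ← Matrix.toLin'_apply, Matrix.toLin'_toMatrix']
  have hUiso : ∀ x y, Cfsg.hermForm n K q (U *ᵥ x) (U *ᵥ y) = Cfsg.hermForm n K q x y := by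
    intro x y
    rw [hUT, hUT, hTu, hTu, hΦ, hiso, ← hΦ, Φ.apply_symm_apply, Φ.apply_symm_apply]
  have hUun : st hq U * U = 1 := st_of_unitary hq U hUiso
  have hUun' : U * st hq U = 1 := mul_eq_one_comm.mp hUun
  refine ⟨⟨U, st hq U, hUun', hUun⟩, hUiso, ?_⟩
  show U.charpoly = f
  rw [hU, ← Matrix.charpoly_toLin', Matrix.toLin'_toMatrix', hT, LinearEquiv.charpoly_conj]
  exact hc

end Blocks

end Cfsg.Agent.Helper14.PrimeOrdU
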