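import Mathlib
import Cfsg.Prelude.Def_LieClassical
import Cfsg.Agent.Helper14.PrimeOrdU1
import Cfsg.Agent.Helper8.GUConj3
import Cfsg.Agent.Helper14.PrimeOrd

/-!
Classes of elements of prime order `r` in the general unitary group: the abstract count, the
self-dual and the paired case, and the arithmetic deciding which case occurs.
-/

set_option autoImplicit false
open Polynomial
open scoped Matrix

universe u

namespace Cfsg.Agent.Helper14.PrimeOrdU

open Cfsg.Agent.Helper8.SULag (QF frob frob_apply frob_frob qf_of_card)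
open Cfsg.Agent.Helper14.RegUniU (st st_of_unitary unitary_of_st)
open Cfsg.Agent.Helper14.PrimeOrd (PP expo coprime_of_ne eq_one_of_charpoly pow_eq_one_of_charpoly
  PP_single natDegree_PP)
open Cfsg.Agent.Helper14.PrimeOrdSp (exists_m_of_exp PP_inj' PP_dvd single_mem exists_exp_charpoly
  exp_le X_sub_one_irr X_sub_one_monic X_sub_one_dvd coeff_zero_ne eval_one_ne)

section Arith

theorem mod4_of_dvd {q r i a : ℕ} (hr : r.Prime) (hr2 : r ≠ 2) (hi : i = orderOf (q : ZMod r))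
    (ha : r ∣ q ^ (2 * a + 1) + 1) : i % 4 = 2 := by
  haveI : Fact r.Prime := ⟨hr⟩
  have h1 : (q : ZMod r) ^ (2 * a + 1) = -1 := by
    have h := (ZMod.natCast_eq_zero_iff _ r).mpr ha
    push_cast at h
    exact eq_neg_of_add_eq_zero_left h
  have h2 : (q : ZMod r) ^ (2 * (2 * a + 1)) = 1 := by
    rw [mul_comm, pow_mul, h1]
    norm_num
  have hd : i ∣ 2 * (2 * a + 1) := by
    rw [hi]
    exact orderOf_dvd_of_pow_eq_one h2
  have hnd : ¬ i ∣ 2 * a + 1 := by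
    intro h
    rw [hi] at h
    have h3 : (q : ZMod r) ^ (2 * a + 1) = 1 := orderOf_dvd_iff_pow_eq_one.mp h
    rw [h1] at h3
    have h4 : ((2 : ℕ) : ZMod r) = 0 := by
      push_cast
      linear_combination (-1 : ZMod r) * h3
    have h5 := (ZMod.natCast_eq_zero_iff 2 r).mp h4
    exact hr2 ((Nat.prime_dvd_prime_iff_eq hr Nat.prime_two).mp h5)
  obtain ⟨c, hc⟩ := hd
  rcases Nat.even_or_odd i with hev | hod
  · obtain ⟨k, hk⟩ := hev
    have e1 : (k + k) * c = 2 * (k * c) := by ring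
    have hkc : k * c = 2 * a + 1 := by
      rw [hk] at hc
      omega
    have hkodd : k % 2 = 1 := by
      rcases Nat.even_or_odd k with ⟨j, hj⟩ | ⟨j, hj⟩
      · exfalso
        rw [hj] at hkc
        have e2 : (j + j) * c = 2 * (j * c) := by ring
        omega
      · omega
    omega
  · exfalso
    apply hnd
    have hcop : Nat.Coprime i 2 := Nat.coprime_two_right.mpr hod
    exact hcop.dvd_of_dvd_mul_left ⟨c, hc⟩

end Arith

section Frob

variable {K : Type u} [Field K]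

theorem exists_Fr (p : ℕ) [Fact p.Prime] [CharP K p] {q e : ℕ} (hq : QF K q) (hqp : q = p ^ e)
    (φ : K[X]) [Fact (Irreducible φ)] :
    ∃ Fr : AdjoinRoot φ →+* AdjoinRoot φ, ∀ a, Fr a = a ^ q := by
  haveI : CharP (AdjoinRoot φ) p :=
    charP_of_injective_algebraMap (algebraMap K (AdjoinRoot φ)).injective p
  exact ⟨{ toFun := fun a => a ^ q
           map_one' := one_pow q
           map_mul' := fun a b => mul_pow a b q
           map_zero' := zero_pow hq.q0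
           map_add' := fun a b => by
             rw [hqp]
             exact add_pow_char_pow .. }, fun a => rfl⟩

theorem eval₂_frob (p : ℕ) [Fact p.Prime] [CharP K p] {q e : ℕ} (hq : QF K q) (hqp : q = p ^ e)
    (φ : K[X]) [Fact (Irreducible φ)] (f : K[X]) (w : AdjoinRoot φ) :
    eval₂ (AdjoinRoot.of φ) (w ^ q) (f.map (frob hq)) = (eval₂ (AdjoinRoot.of φ) w f) ^ q := by
  obtain ⟨Fr, hFr⟩ := exists_Fr p hq hqp φ
  have h1 := Polynomial.hom_eval₂ f (AdjoinRoot.of φ) Fr w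
  have h2 : Fr.comp (AdjoinRoot.of φ) = (AdjoinRoot.of φ).comp (frob hq) := by
    apply RingHom.ext
    intro c
    show Fr (AdjoinRoot.of φ c) = AdjoinRoot.of φ (frob hq c)
    rw [hFr, frob_apply, map_pow]
  rw [Polynomial.eval₂_map, ← h2, ← hFr w, ← h1, hFr]

/-- the Frobenius conjugates of the root are roots -/
theorem frob_root [Fintype K] (φ : K[X]) [Fact (Irreducible φ)] (a : ℕ) :
    eval₂ (AdjoinRoot.of φ) (AdjoinRoot.root φ ^ (Fintype.card K ^ a)) φ = 0 := by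
  have h : aeval (AdjoinRoot.root φ ^ (Fintype.card K ^ a)) φ = 0 := by
    induction a with
    | zero => rw [pow_zero, pow_one, AdjoinRoot.aeval_eq, AdjoinRoot.mk_self]
    | succ a ih =>
      rw [pow_succ, pow_mul, ← Polynomial.expand_aeval, FiniteField.expand_card, map_pow, ih,
        zero_pow Fintype.card_ne_zero]
  rw [Polynomial.aeval_def, AdjoinRoot.algebraMap_eq] at h
  exact h

theorem root_pow {r : ℕ} (φ : K[X]) (hd : φ ∣ X ^ r - 1) : AdjoinRoot.root φ ^ r = 1 := by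
  have hζ0 : aeval (AdjoinRoot.root φ) φ = 0 := by rw [AdjoinRoot.aeval_eq, AdjoinRoot.mk_self]
  obtain ⟨g, hg⟩ := hd
  have h1 := congrArg (aeval (AdjoinRoot.root φ)) hg
  rw [map_mul, hζ0, zero_mul, map_sub, map_pow, aeval_X, map_one, sub_eq_zero] at h1
  exact h1

/-- if `r` divides an odd power of `q` plus one, the irreducible factors are self-dual -/
theorem sstar_eq_of_dvd [Fintype K] (p : ℕ) [Fact p.Prime] [CharP K p] {q r e a : ℕ}
    (hK : Fintype.card K = q ^ 2) (hq : QF K q) (hqp : q = p ^ e) (hr0 : r ≠ 0)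
    (hra : r ∣ q ^ (2 * a + 1) + 1) (φ : K[X]) (hirr : Irreducible φ) (hmon : φ.Monic)
    (hd : φ ∣ X ^ r - 1) : sstar hq φ = φ := by
  have h0 := coeff_zero_ne hr0 φ hd
  haveI : Fact (Irreducible φ) := ⟨hirr⟩
  obtain ⟨ζ, hζ⟩ : ∃ ζ : AdjoinRoot φ, ζ = AdjoinRoot.root φ := ⟨_, rfl⟩
  have hζr : ζ ^ r = 1 := by
    rw [hζ]
    exact root_pow φ hd
  obtain ⟨w, hw⟩ : ∃ w : AdjoinRoot φ, w = ζ ^ (Fintype.card K ^ a) := ⟨_, rfl⟩
  have hw0 : eval₂ (AdjoinRoot.of φ) w φ = 0 := by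
    rw [hw, hζ]
    exact frob_root φ a
  obtain ⟨s, hs⟩ := hra
  have e1 : Fintype.card K ^ a * q + 1 = r * s := by
    rw [hK, ← hs]
    ring
  have hinv : w ^ q * ζ = 1 := by
    rw [hw, ← pow_mul, ← pow_succ, e1, pow_mul, hζr, one_pow]
  have hinv' : ζ * w ^ q = 1 := by
    rw [mul_comm]
    exact hinv
  have hF : eval₂ (AdjoinRoot.of φ) (w ^ q) (φ.map (frob hq)) = 0 := by
    rw [eval₂_frob p hq hqp φ φ w, hw0, zero_pow hq.q0]
  letI : Invertible (w ^ q) := ⟨ζ, hinv', hinv⟩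
  have h2 : eval₂ (AdjoinRoot.of φ) (⅟(w ^ q)) (φ.map (frob hq)).reverse = 0 :=
    (Polynomial.eval₂_reverse_eq_zero_iff _ _ _).mpr hF
  have h3 : aeval ζ (φ.map (frob hq)).reverse = 0 := by
    rw [Polynomial.aeval_def, AdjoinRoot.algebraMap_eq]
    exact h2
  rw [hζ, AdjoinRoot.aeval_eq, AdjoinRoot.mk_eq_zero] at h3
  have h4 : φ ∣ sstar hq φ := by
    unfold sstar PrimeOrdSp.star
    exact dvd_mul_of_dvd_right h3 _
  exact Polynomial.eq_of_monic_of_dvd_of_natDegree_le hmon (sstar_monic hq φ h0) h4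
    (le_of_eq (sstar_natDegree hq φ h0))

/-- a self-dual irreducible factor forces `r` to divide an odd power of `q` plus one -/
theorem exists_odd_of_sstar_eq [Fintype K] (p : ℕ) [Fact p.Prime] [CharP K p] {q r e b : ℕ}
    (hK : Fintype.card K = q ^ 2) (hq : QF K q) (hqp : q = p ^ e) (hr : r.Prime) (hrp : r ≠ p)
    (φ : K[X]) (hirr : Irreducible φ) (hmon : φ.Monic) (hd : φ ∣ X ^ r - 1)
    (he1 : eval 1 φ ≠ 0) (hdeg : φ.natDegree = b)
    (hbord : orderOf ((q : ZMod r) ^ 2) = b) (hs : sstar hq φ = φ) :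
    ∃ a : ℕ, r ∣ q ^ (2 * a + 1) + 1 := by
  classical
  haveI : Fact r.Prime := ⟨hr⟩
  have h0 := coeff_zero_ne hr.ne_zero φ hd
  haveI : Fact (Irreducible φ) := ⟨hirr⟩
  haveI : Module.Finite K (AdjoinRoot φ) := hmon.finite_adjoinRoot
  haveI : Finite (AdjoinRoot φ) := Module.finite_of_finite K
  obtain ⟨ζ, hζ⟩ : ∃ ζ : AdjoinRoot φ, ζ = AdjoinRoot.root φ := ⟨_, rfl⟩
  have hζr : ζ ^ r = 1 := by
    rw [hζ]
    exact root_pow φ hd
  have hζ0 : eval₂ (AdjoinRoot.of φ) ζ φ = 0 := by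
    rw [hζ]
    exact AdjoinRoot.eval₂_root φ
  have hζne0 : ζ ≠ 0 := by
    intro h
    rw [h, zero_pow hr.ne_zero] at hζr
    exact zero_ne_one hζr
  have hζne1 : ζ ≠ 1 := by
    intro h
    rw [h, Polynomial.eval₂_at_one] at hζ0
    exact he1 ((map_eq_zero (AdjoinRoot.of φ)).mp hζ0)
  have hordζ : orderOf ζ = r := orderOf_eq_prime hζr hζne1
  have hfin : IsOfFinOrder ζ := isOfFinOrder_iff_pow_eq_one.mpr ⟨r, hr.pos, hζr⟩
  -- the conjugate reciprocal vanishes at the root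
  obtain ⟨χ, hχ⟩ : ∃ χ : K[X], χ = φ.map (frob hq) := ⟨_, rfl⟩
  have hχ0 : χ.coeff 0 ≠ 0 := by
    rw [hχ]
    exact map_coeff_zero_ne hq φ h0
  have hrev : χ.reverse = C (χ.coeff 0) * φ := by
    have h1 := PrimeOrdSp.reverse_eq_star χ hχ0
    have h2 : PrimeOrdSp.star χ = φ := by
      rw [hχ]
      exact hs
    rw [h2] at h1
    exact h1
  have h3 : eval₂ (AdjoinRoot.of φ) ζ⁻¹ χ = 0 := by
    letI : Invertible ζ⁻¹ := ⟨ζ, mul_inv_cancel₀ hζne0, inv_mul_cancel₀ hζne0⟩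
    have h4 : eval₂ (AdjoinRoot.of φ) (⅟(ζ⁻¹)) χ.reverse = 0 := by
      show eval₂ (AdjoinRoot.of φ) ζ χ.reverse = 0
      rw [hrev, eval₂_mul, hζ0, mul_zero]
    exact (Polynomial.eval₂_reverse_eq_zero_iff _ _ _).mp h4
  -- a `q`-th root of the inverse of the root
  obtain ⟨Fr, hFr⟩ := exists_Fr p hq hqp φ
  obtain ⟨w, hw⟩ := Finite.surjective_of_injective Fr.injective ζ⁻¹
  rw [hFr] at hw
  have hw0 : eval₂ (AdjoinRoot.of φ) w φ = 0 := by
    have h5 := eval₂_frob p hq hqp φ φ w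
    rw [hw, ← hχ, h3] at h5
    exact pow_eq_zero_iff hq.q0 |>.mp h5.symm
  -- the roots are the Frobenius conjugates
  have hQ0 : (q : ZMod r) ≠ 0 := by
    intro h
    rw [ZMod.natCast_eq_zero_iff, hqp] at h
    have h1 := hr.dvd_of_dvd_pow h
    exact hrp ((Nat.prime_dvd_prime_iff_eq hr Fact.out).mp h1)
  have hinjQ : ∀ a c : ℕ, a < c → c < b →
      ζ ^ (Fintype.card K ^ a) ≠ ζ ^ (Fintype.card K ^ c) := by
    intro a c hac hcb heq
    have h1 : Fintype.card K ^ a ≡ Fintype.card K ^ c [MOD r] := by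
      rw [← hordζ]
      exact hfin.pow_eq_pow_iff_modEq.mp heq
    have h2 : ((q : ZMod r) ^ 2) ^ a = ((q : ZMod r) ^ 2) ^ c := by
      have h3 := (ZMod.natCast_eq_natCast_iff _ _ _).mpr h1
      rw [hK] at h3
      push_cast at h3
      exact h3
    obtain ⟨d, hd'⟩ : ∃ d, c = a + d := ⟨c - a, by omega⟩
    rw [hd', pow_add] at h2
    have h4 : ((q : ZMod r) ^ 2) ^ d = 1 := by
      have hne : ((q : ZMod r) ^ 2) ^ a ≠ 0 := pow_ne_zero _ (pow_ne_zero _ hQ0)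
      apply mul_left_cancel₀ hne
      rw [mul_one]
      exact h2.symm
    have h5 : b ∣ d := by
      rw [← hbord]
      exact orderOf_dvd_of_pow_eq_one h4
    have h6 := Nat.le_of_dvd (by omega) h5
    omega
  obtain ⟨S, hS⟩ : ∃ S : Finset (AdjoinRoot φ),
      S = (Finset.range b).image (fun a => ζ ^ (Fintype.card K ^ a)) := ⟨_, rfl⟩
  have hScard : S.card = b := by
    rw [hS, Finset.card_image_of_injOn, Finset.card_range]
    intro a ha c hc heq
    rw [Finset.coe_range, Set.mem_Iio] at ha hc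
    by_contra hne
    rcases Nat.lt_or_gt_of_ne hne with h | h
    · exact hinjQ a c h hc heq
    · exact hinjQ c a h ha heq.symm
  have hne0 : φ.map (AdjoinRoot.of φ) ≠ 0 := Polynomial.map_monic_ne_zero hmon
  have hSroots : S ⊆ (φ.map (AdjoinRoot.of φ)).roots.toFinset := by
    intro y hy
    rw [hS, Finset.mem_image] at hy
    obtain ⟨a, -, rfl⟩ := hy
    rw [Multiset.mem_toFinset, Polynomial.mem_roots hne0, Polynomial.IsRoot.def,
      Polynomial.eval_map, hζ]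
    exact frob_root φ a
  have hle : (φ.map (AdjoinRoot.of φ)).roots.toFinset.card ≤ b := by
    calc (φ.map (AdjoinRoot.of φ)).roots.toFinset.card
        ≤ Multiset.card (φ.map (AdjoinRoot.of φ)).roots := Multiset.toFinset_card_le _
      _ ≤ (φ.map (AdjoinRoot.of φ)).natDegree := Polynomial.card_roots' _
      _ = b := by rw [Polynomial.natDegree_map, hdeg]
  have hSeq : S = (φ.map (AdjoinRoot.of φ)).roots.toFinset :=
    Finset.eq_of_subset_of_card_le hSroots (by rw [hScard]; exact hle)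
  have hwS : w ∈ S := by
    rw [hSeq, Multiset.mem_toFinset, Polynomial.mem_roots hne0, Polynomial.IsRoot.def,
      Polynomial.eval_map]
    exact hw0
  rw [hS, Finset.mem_image] at hwS
  obtain ⟨a, -, hwa⟩ := hwS
  have h7 : ζ ^ (Fintype.card K ^ a * q + 1) = 1 := by
    rw [pow_succ, pow_mul, hwa, hw, inv_mul_cancel₀ hζne0]
  refine ⟨a, ?_⟩
  have e : q ^ (2 * a + 1) + 1 = Fintype.card K ^ a * q + 1 := by
    rw [hK]
    ring
  rw [e, ← hordζ]
  exact orderOf_dvd_of_pow_eq_one h7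

end Frob

section Count

variable {K : Type u} [Field K] [DecidableEq K]

theorem pow_of_order_gu {n q r : ℕ} (g : ↥(Cfsg.GU n K q)) (hg : orderOf g = r) :
    ((g : Matrix.GeneralLinearGroup (Fin n) K) : Matrix (Fin n) (Fin n) K) ^ r = 1 := by
  rw [← Units.val_pow_eq_pow_val, ← Subgroup.coe_pow, ← hg, pow_orderOf_eq_one]
  rfl

theorem sstar_pow_dvd {q : ℕ} (hq : QF K q) (f g : K[X]) (hf0 : f.coeff 0 ≠ 0)
    (hg0 : g.coeff 0 ≠ 0) (k : ℕ) (h : f ^ k ∣ g) : (sstar hq f) ^ k ∣ sstar hq g := by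
  have h1 := Polynomial.map_dvd (frob hq) h
  rw [Polynomial.map_pow] at h1
  have h2 := _root_.map_dvd (PrimeOrdSp.revHom (F := K)) h1
  rw [map_pow, PrimeOrdSp.revHom_apply, PrimeOrdSp.revHom_apply,
    PrimeOrdSp.reverse_eq_star _ (map_coeff_zero_ne hq f hf0),
    PrimeOrdSp.reverse_eq_star _ (map_coeff_zero_ne hq g hg0)] at h2
  have h3 : (sstar hq f) ^ k ∣ C ((g.map (frob hq)).coeff 0) * sstar hq g :=
    (pow_dvd_pow_of_dvd (dvd_mul_left _ _) _).trans h2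
  exact (IsUnit.dvd_mul_left
    (Polynomial.isUnit_C.mpr (map_coeff_zero_ne hq g hg0).isUnit)).mp h3

theorem sstar_mem {q r b : ℕ} (hq : QF K q) (Φ : Finset K[X]) (hΦ1 : X - 1 ∉ Φ)
    (hirr : ∀ φ ∈ Φ, Irreducible φ) (hmon : ∀ φ ∈ Φ, φ.Monic)
    (hdeg : ∀ φ ∈ Φ, φ.natDegree = b) (hb : 0 < b) (hr0 : r ≠ 0)
    (hdvd : ∀ φ ∈ Φ, φ ∣ X ^ r - 1)
    (hmem : ∀ ψ : K[X], Irreducible ψ → ψ.Monic → ψ ∣ X ^ r - 1 → ψ ∈ insert (X - 1) Φ)
    (φ : K[X]) (hφ : φ ∈ Φ) : sstar hq φ ∈ Φ := by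
  have h0 := coeff_zero_ne hr0 φ (hdvd φ hφ)
  have hsm := sstar_monic hq φ h0
  have hsd : (sstar hq φ).natDegree = b := by rw [sstar_natDegree hq φ h0, hdeg φ hφ]
  have hnu : ¬ IsUnit (sstar hq φ) := by
    intro hu
    have := Polynomial.natDegree_eq_zero_of_isUnit hu
    omega
  obtain ⟨ψ, hψm, hψi, hψd⟩ := Polynomial.exists_monic_irreducible_factor (sstar hq φ) hnu
  have hψr : ψ ∣ X ^ r - 1 := hψd.trans (sstar_dvd hq φ h0 (hdvd φ hφ))
  rcases Finset.mem_insert.mp (hmem ψ hψi hψm hψr) with h | h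
  · exfalso
    rw [h] at hψd
    have h1 := Polynomial.eval_dvd (x := (1 : K)) hψd
    rw [sstar_eval_one, eval_sub, eval_X, eval_one, sub_self, zero_dvd_iff] at h1
    rcases mul_eq_zero.mp h1 with h1 | h1
    · exact h0 ((map_eq_zero (frob hq)).mp (inv_eq_zero.mp h1))
    · exact eval_one_ne Φ hΦ1 hirr hmon φ hφ ((map_eq_zero (frob hq)).mp h1)
  · have h2 := Polynomial.eq_of_monic_of_dvd_of_natDegree_le hψm hsm hψd
      (by rw [hsd, hdeg ψ h])
    rw [h2]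
    exact h

/-- the classes of elements of order `r` of `GU_n(q)` are parametrised by multiplicity vectors -/
theorem card_abs_gu [Fintype K] (p : ℕ) [Fact p.Prime] [CharP K p] {q r j n : ℕ}
    (hK : Fintype.card K = q ^ 2) (hr : r.Prime) (hrp : r ≠ p)
    (Ψ : Finset K[X]) (hΨ1 : X - 1 ∉ Ψ)
    (hmon : ∀ ψ ∈ insert (X - 1) Ψ, ψ.Monic)
    (hu : ∀ ψ ∈ insert (X - 1) Ψ, ¬ IsUnit ψ)
    (hcop : ∀ ψ ∈ insert (X - 1) Ψ, ∀ χ ∈ insert (X - 1) Ψ, ψ ≠ χ → IsCoprime ψ χ)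
    (hdvd : ∀ ψ ∈ insert (X - 1) Ψ, ψ ∣ X ^ r - 1)
    (hdeg : ∀ ψ ∈ Ψ, ψ.natDegree = j) (hj : 0 < j)
    (hB : ∀ g : ↥(Cfsg.GU n K q), orderOf g = r →
      ∃ e : K[X] → ℕ,
        ((g : Matrix.GeneralLinearGroup (Fin n) K) : Matrix (Fin n) (Fin n) K).charpoly =
          ∏ ψ ∈ insert (X - 1) Ψ, ψ ^ e ψ)
    (hE : ∀ mv : K[X] →₀ ℕ, mv ∈ (insert (X - 1) Ψ).finsuppAntidiag (n / j) →
      ∃ G : Matrix.GeneralLinearGroup (Fin n) K, G ∈ Cfsg.GU n K q ∧
        (G : Matrix (Fin n) (Fin n) K).charpoly = PP (insert (X - 1) Ψ) n j mv) :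
    Nat.card {C : ConjClasses ↥(Cfsg.GU n K q) //
      ∃ g : ↥(Cfsg.GU n K q), ConjClasses.mk g = C ∧ orderOf g = r} =
      (((insert (X - 1) Ψ).finsuppAntidiag (n / j)).erase
        (Finsupp.single (X - 1) (n / j))).card := by
  haveI : Fact r.Prime := ⟨hr⟩
  have hrF : (r : K) ≠ 0 := by
    intro h0
    rw [CharP.cast_eq_zero_iff K p] at h0
    exact hrp ((Nat.prime_dvd_prime_iff_eq Fact.out hr).mp h0).symm
  have h0S : ∀ ψ ∈ insert (X - 1) Ψ, ψ ≠ 0 := fun ψ hψ => (hmon ψ hψ).ne_zero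
  have hsemi : ∀ g : ↥(Cfsg.GU n K q), orderOf g = r →
      Module.End.IsSemisimple (Matrix.toLin'
        ((g : Matrix.GeneralLinearGroup (Fin n) K) : Matrix (Fin n) (Fin n) K)) := by
    intro g hg
    exact SemiConj.semisimple_of_pow _ r hrF (pow_of_order_gu g hg)
  have hconj : ∀ g g' : ↥(Cfsg.GU n K q), orderOf g = r → orderOf g' = r →
      ((g : Matrix.GeneralLinearGroup (Fin n) K) : Matrix (Fin n) (Fin n) K).charpoly =
        ((g' : Matrix.GeneralLinearGroup (Fin n) K) : Matrix (Fin n) (Fin n) K).charpoly →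
      IsConj g g' := by
    intro g g' hg hg' hc
    obtain ⟨P, hP⟩ := SemiConj.conj_matrix _ _ (hsemi g hg) (hsemi g' hg') hc
    have hP' : P * (g : Matrix.GeneralLinearGroup (Fin n) K) * P⁻¹ =
        (g' : Matrix.GeneralLinearGroup (Fin n) K) := by
      rw [mul_inv_eq_iff_eq_mul]
      apply Units.ext
      rw [Units.val_mul, Units.val_mul]
      exact hP
    obtain ⟨U, hU, hUc⟩ := Cfsg.Agent.Helper8.GUC.conj_gu hK _ _ g.2 g'.2 P hP'
    rw [isConj_iff]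
    refine ⟨⟨U, hU⟩, ?_⟩
    apply Subtype.ext
    exact hUc
  have hcharconj : ∀ g g' : ↥(Cfsg.GU n K q), IsConj g g' →
      ((g : Matrix.GeneralLinearGroup (Fin n) K) : Matrix (Fin n) (Fin n) K).charpoly =
        ((g' : Matrix.GeneralLinearGroup (Fin n) K) : Matrix (Fin n) (Fin n) K).charpoly := by
    intro g g' h
    obtain ⟨c, hc⟩ := isConj_iff.mp h
    rw [← hc, Subgroup.coe_mul, Subgroup.coe_mul, Subgroup.coe_inv, Units.val_mul, Units.val_mul,
      Matrix.coe_units_inv, Matrix.charpoly_units_conj]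
  rw [← Fintype.card_coe, ← Nat.card_eq_fintype_card]
  apply le_antisymm
  · have hB' : ∀ C : {C : ConjClasses ↥(Cfsg.GU n K q) //
        ∃ g : ↥(Cfsg.GU n K q), ConjClasses.mk g = C ∧ orderOf g = r},
        ∃ mv : K[X] →₀ ℕ, mv ∈ ((insert (X - 1) Ψ).finsuppAntidiag (n / j)).erase
          (Finsupp.single (X - 1) (n / j)) ∧
          ∃ g : ↥(Cfsg.GU n K q), ConjClasses.mk g = C.1 ∧ orderOf g = r ∧
            ((g : Matrix.GeneralLinearGroup (Fin n) K) : Matrix (Fin n) (Fin n) K).charpoly =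
              PP (insert (X - 1) Ψ) n j mv := by
      intro C
      obtain ⟨g, hg1, hg2⟩ := C.2
      obtain ⟨e, he⟩ := hB g hg2
      obtain ⟨mv, hmv, hmc⟩ := exists_m_of_exp Ψ hΨ1 hmon hdeg hj
        ((g : Matrix.GeneralLinearGroup (Fin n) K) : Matrix (Fin n) (Fin n) K).charpoly
        (by rw [Matrix.charpoly_natDegree_eq_dim, Fintype.card_fin]) e he
      refine ⟨mv, Finset.mem_erase.mpr ⟨?_, hmv⟩, g, hg1, hg2, hmc⟩
      intro h0
      rw [h0, PP_single Ψ hΨ1] at hmc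
      have h1 := eq_one_of_charpoly _ r hrF (pow_of_order_gu g hg2) hmc
      have h2 : g = 1 := Subtype.ext (Units.ext h1)
      rw [h2, orderOf_one] at hg2
      exact hr.one_lt.ne hg2
    choose mf hm1 gf hg1 hg2 hg3 using hB'
    apply Nat.card_le_card_of_injective (fun C => (⟨mf C, hm1 C⟩ :
      ↥(((insert (X - 1) Ψ).finsuppAntidiag (n / j)).erase
        (Finsupp.single (X - 1) (n / j)))))
    intro C C' h
    have h1 : mf C = mf C' := congrArg Subtype.val h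
    have h2 : ((gf C : Matrix.GeneralLinearGroup (Fin n) K) :
        Matrix (Fin n) (Fin n) K).charpoly =
        ((gf C' : Matrix.GeneralLinearGroup (Fin n) K) : Matrix (Fin n) (Fin n) K).charpoly := by
      rw [hg3, hg3, h1]
    have h3 := hconj (gf C) (gf C') (hg2 C) (hg2 C') h2
    apply Subtype.ext
    rw [← hg1 C, ← hg1 C']
    exact ConjClasses.mk_eq_mk_iff_isConj.mpr h3
  · have hC : ∀ mv : ↥(((insert (X - 1) Ψ).finsuppAntidiag (n / j)).erase
        (Finsupp.single (X - 1) (n / j))),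
        ∃ g : ↥(Cfsg.GU n K q), orderOf g = r ∧
          ((g : Matrix.GeneralLinearGroup (Fin n) K) : Matrix (Fin n) (Fin n) K).charpoly =
            PP (insert (X - 1) Ψ) n j mv.1 := by
      intro mv
      have hm := Finset.mem_erase.mp mv.2
      have hm2 := Finset.mem_finsuppAntidiag.mp hm.2
      obtain ⟨G, hG, hGc⟩ := hE mv.1 hm.2
      obtain ⟨f, -, hqK⟩ := FiniteField.card K p
      obtain ⟨g₀, hg₀⟩ : ∃ g₀ : ↥(Cfsg.GU n K q), g₀ = ⟨G, hG⟩ := ⟨_, rfl⟩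
      have hNne : orderOf g₀ ≠ 0 := (orderOf_pos g₀).ne'
      obtain ⟨e, m, hm', hNe⟩ :=
        Nat.exists_eq_pow_mul_and_not_dvd hNne p (Fact.out : p.Prime).ne_one
      obtain ⟨h, hh⟩ : ∃ h : ↥(Cfsg.GU n K q), h = g₀ ^ (Fintype.card K ^ e) := ⟨_, rfl⟩
      have hh1 : (orderOf h).Coprime p := by
        have h1 : h ^ m = 1 := by
          have hle : e ≤ (f : ℕ) * e := Nat.le_mul_of_pos_left e f.pos
          obtain ⟨s, hs⟩ : ∃ s, (f : ℕ) * e = e + s := ⟨_, (Nat.add_sub_of_le hle).symm⟩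
          have e1 : Fintype.card K ^ e * m = orderOf g₀ * p ^ s := by
            rw [hqK, ← pow_mul, hs, pow_add, hNe]; ring
          rw [hh, ← pow_mul, e1, pow_mul, pow_orderOf_eq_one, one_pow]
        exact Nat.Coprime.coprime_dvd_left (orderOf_dvd_of_pow_eq_one h1)
          ((Nat.Prime.coprime_iff_not_dvd Fact.out).mpr hm').symm
      have hhc : ((h : Matrix.GeneralLinearGroup (Fin n) K) :
          Matrix (Fin n) (Fin n) K).charpoly = PP (insert (X - 1) Ψ) n j mv.1 := by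
        rw [hh, Subgroup.coe_pow, Units.val_pow_eq_pow_val, SpPal.charpoly_pow_card_pow', hg₀]
        exact hGc
      have hkF : ((orderOf h : ℕ) : K) ≠ 0 := by
        intro h0
        rw [CharP.cast_eq_zero_iff K p] at h0
        have h2 := Nat.Coprime.eq_one_of_dvd hh1.symm h0
        exact (Fact.out : p.Prime).one_lt.ne' h2
      have hhr : ((h : Matrix.GeneralLinearGroup (Fin n) K) : Matrix (Fin n) (Fin n) K) ^ r
          = 1 :=
        pow_eq_one_of_charpoly _ (orderOf h) r hkF (pow_of_order_gu h rfl) _ (Nat.succ_ne_zero _)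
          (by rw [hhc]; exact PP_dvd _ hcop hdvd _)
      refine ⟨h, ?_, hhc⟩
      apply orderOf_eq_prime
      · apply Subtype.ext
        apply Units.ext
        rw [Subgroup.coe_pow, Units.val_pow_eq_pow_val]
        exact hhr
      · intro h1
        apply hm.1
        apply PP_inj' _ h0S hu hcop hj _ _ hm2.2
          (Finsupp.support_single_subset.trans (by
            rw [Finset.singleton_subset_iff]; exact Finset.mem_insert_self _ _))
        rw [PP_single Ψ hΨ1, ← hhc, h1]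
        show (1 : Matrix (Fin n) (Fin n) K).charpoly = _
        rw [Matrix.charpoly_one, Fintype.card_fin]
    choose G hG1 hG2 using hC
    apply Nat.card_le_card_of_injective (fun mv =>
      (⟨ConjClasses.mk (G mv), G mv, rfl, hG1 mv⟩ :
      {C : ConjClasses ↥(Cfsg.GU n K q) //
        ∃ g : ↥(Cfsg.GU n K q), ConjClasses.mk g = C ∧ orderOf g = r}))
    intro mv mv' h
    have h1 : ConjClasses.mk (G mv) = ConjClasses.mk (G mv') := congrArg Subtype.val h
    rw [ConjClasses.mk_eq_mk_iff_isConj] at h1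
    have h2 := hcharconj _ _ h1
    rw [hG2, hG2] at h2
    apply Subtype.ext
    exact PP_inj' _ h0S hu hcop hj _ _
      (Finset.mem_finsuppAntidiag.mp (Finset.mem_erase.mp mv.2).2).2
      (Finset.mem_finsuppAntidiag.mp (Finset.mem_erase.mp mv'.2).2).2 h2

/-- all irreducible factors self-dual -/
theorem card_self [Fintype K] (p : ℕ) [Fact p.Prime] [CharP K p] {q r b n : ℕ}
    (hK : Fintype.card K = q ^ 2) (hq : QF K q) (hr : r.Prime) (hrp : r ≠ p)
    (Φ : Finset K[X]) (hΦ1 : X - 1 ∉ Φ) (hirr : ∀ φ ∈ Φ, Irreducible φ)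
    (hmon : ∀ φ ∈ Φ, φ.Monic) (hdeg : ∀ φ ∈ Φ, φ.natDegree = b) (hb : 0 < b)
    (hdvd : ∀ φ ∈ Φ, φ ∣ X ^ r - 1)
    (hmem : ∀ ψ : K[X], Irreducible ψ → ψ.Monic → ψ ∣ X ^ r - 1 → ψ ∈ insert (X - 1) Φ)
    (hself : ∀ φ ∈ Φ, sstar hq φ = φ) :
    Nat.card {C : ConjClasses ↥(Cfsg.GU n K q) //
      ∃ g : ↥(Cfsg.GU n K q), ConjClasses.mk g = C ∧ orderOf g = r} =
      Nat.choose (n / b + Φ.card) Φ.card - 1 := by
  have hirrS : ∀ ψ ∈ insert (X - 1) Φ, Irreducible ψ := by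
    intro ψ hψ
    rcases Finset.mem_insert.mp hψ with h | h
    · rw [h]; exact X_sub_one_irr
    · exact hirr ψ h
  have hmonS : ∀ ψ ∈ insert (X - 1) Φ, ψ.Monic := by
    intro ψ hψ
    rcases Finset.mem_insert.mp hψ with h | h
    · rw [h]; exact X_sub_one_monic
    · exact hmon ψ h
  have hdvdS : ∀ ψ ∈ insert (X - 1) Φ, ψ ∣ X ^ r - 1 := by
    intro ψ hψ
    rcases Finset.mem_insert.mp hψ with h | h
    · rw [h]; exact X_sub_one_dvd r
    · exact hdvd ψ h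
  have hm0 := single_mem Φ (n / b)
  have hE : ∀ mv : K[X] →₀ ℕ, mv ∈ (insert (X - 1) Φ).finsuppAntidiag (n / b) →
      ∃ G : Matrix.GeneralLinearGroup (Fin n) K, G ∈ Cfsg.GU n K q ∧
        (G : Matrix (Fin n) (Fin n) K).charpoly = PP (insert (X - 1) Φ) n b mv := by
    intro mv hmv
    apply exists_gu_of_QC hq
    · show QC hq (∏ ψ ∈ insert (X - 1) Φ, ψ ^ expo n b mv ψ)
      apply QC_prod hq
      intro ψ hψ
      rcases Finset.mem_insert.mp hψ with h | h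
      · rw [h]; exact QC_X_sub_one hq
      · exact QC_self hq ψ (hirr ψ h) (hmon ψ h) (coeff_zero_ne hr.ne_zero ψ (hdvd ψ h))
          (hself ψ h)
    · exact natDegree_PP Φ hΦ1 hmonS hdeg mv (Finset.mem_finsuppAntidiag.mp hmv).1
  rw [card_abs_gu p hK hr hrp Φ hΦ1 hmonS (fun ψ hψ => (hirrS ψ hψ).not_isUnit)
    (fun ψ hψ χ hχ hne => coprime_of_ne (hirrS ψ hψ) (hirrS χ hχ) (hmonS ψ hψ) (hmonS χ hχ) hne)
    hdvdS hdeg hb (fun g hg => exists_exp_charpoly _ hmem _ (pow_of_order_gu g hg)) hE,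
    Finset.card_erase_of_mem hm0, Finset.card_finsuppAntidiag_nat_eq_choose,
    Finset.card_insert_of_notMem hΦ1]
  have e : ∀ N t : ℕ, t + 1 + N - 1 = N + t := fun N t => by omega
  rw [e, Nat.choose_symm_add]

/-- the irreducible factors pair off -/
theorem card_pair [Fintype K] (p : ℕ) [Fact p.Prime] [CharP K p] {q r b n : ℕ}
    (hK : Fintype.card K = q ^ 2) (hq : QF K q) (hr : r.Prime) (hrp : r ≠ p)
    (Φ : Finset K[X]) (hΦ1 : X - 1 ∉ Φ) (hirr : ∀ φ ∈ Φ, Irreducible φ)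
    (hmon : ∀ φ ∈ Φ, φ.Monic) (hdeg : ∀ φ ∈ Φ, φ.natDegree = b) (hb : 0 < b)
    (hdvd : ∀ φ ∈ Φ, φ ∣ X ^ r - 1)
    (hmem : ∀ ψ : K[X], Irreducible ψ → ψ.Monic → ψ ∣ X ^ r - 1 → ψ ∈ insert (X - 1) Φ)
    (hne : ∀ φ ∈ Φ, sstar hq φ ≠ φ) :
    Nat.card {C : ConjClasses ↥(Cfsg.GU n K q) //
      ∃ g : ↥(Cfsg.GU n K q), ConjClasses.mk g = C ∧ orderOf g = r} =
      Nat.choose (n / (2 * b) + Φ.card / 2) (Φ.card / 2) - 1 := by
  have hstar : ∀ φ ∈ Φ, sstar hq φ ∈ Φ :=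
    sstar_mem hq Φ hΦ1 hirr hmon hdeg hb hr.ne_zero hdvd hmem
  have h0 : ∀ φ ∈ Φ, φ.coeff 0 ≠ 0 := fun φ hφ => coeff_zero_ne hr.ne_zero φ (hdvd φ hφ)
  have he1 : ∀ φ ∈ Φ, eval 1 φ ≠ 0 := eval_one_ne Φ hΦ1 hirr hmon
  have hss : ∀ φ ∈ Φ, sstar hq (sstar hq φ) = φ :=
    fun φ hφ => sstar_sstar hq φ (hmon φ hφ) (h0 φ hφ)
  have hcopΦ : ∀ φ ∈ Φ, ∀ χ ∈ Φ, φ ≠ χ → IsCoprime φ χ := fun φ hφ χ hχ hne' =>
    coprime_of_ne (hirr φ hφ) (hirr χ hχ) (hmon φ hφ) (hmon χ hχ) hne'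
  have hcop1 : ∀ φ ∈ Φ, IsCoprime (X - 1 : K[X]) φ := fun φ hφ =>
    coprime_of_ne X_sub_one_irr (hirr φ hφ) X_sub_one_monic (hmon φ hφ) (fun h => hΦ1 (h ▸ hφ))
  have hirrS' : ∀ ψ ∈ insert (X - 1) Φ, Irreducible ψ := by
    intro ψ hψ
    rcases Finset.mem_insert.mp hψ with h | h
    · rw [h]; exact X_sub_one_irr
    · exact hirr ψ h
  have hmonS' : ∀ ψ ∈ insert (X - 1) Φ, ψ.Monic := by
    intro ψ hψ
    rcases Finset.mem_insert.mp hψ with h | h
    · rw [h]; exact X_sub_one_monic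
    · exact hmon ψ h
  obtain ⟨Ψ, hΨ⟩ : ∃ Ψ : Finset K[X], Ψ = Φ.image (fun φ => φ * sstar hq φ) := ⟨_, rfl⟩
  have hΨmem : ∀ ψ ∈ Ψ, ∃ φ ∈ Φ, φ * sstar hq φ = ψ := by
    intro ψ hψ
    rw [hΨ] at hψ
    exact Finset.mem_image.mp hψ
  have hΨ1 : X - 1 ∉ Ψ := by
    intro h
    obtain ⟨φ, hφ, he⟩ := hΨmem _ h
    have h1 := congrArg (eval 1) he
    rw [eval_mul, sstar_eval_one, eval_sub, eval_X, eval_one, sub_self] at h1
    rcases mul_eq_zero.mp h1 with h2 | h2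
    · exact he1 φ hφ h2
    · rcases mul_eq_zero.mp h2 with h3 | h3
      · exact h0 φ hφ ((map_eq_zero (frob hq)).mp (inv_eq_zero.mp h3))
      · exact he1 φ hφ ((map_eq_zero (frob hq)).mp h3)
  have hfib : ∀ φ ∈ Φ, Φ.filter (fun φ' => φ' * sstar hq φ' = φ * sstar hq φ) =
      {φ, sstar hq φ} := by
    intro φ hφ
    ext φ'
    simp only [Finset.mem_filter, Finset.mem_insert, Finset.mem_singleton]
    constructor
    · rintro ⟨hφ', heq⟩
      have h1 : φ' ∣ φ * sstar hq φ := Dvd.intro _ heq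
      rcases (hirr φ' hφ').prime.dvd_or_dvd h1 with h | h
      · left
        exact Polynomial.eq_of_monic_of_associated (hmon φ' hφ') (hmon φ hφ)
          ((hirr φ' hφ').associated_of_dvd (hirr φ hφ) h)
      · right
        exact Polynomial.eq_of_monic_of_associated (hmon φ' hφ') (hmon _ (hstar φ hφ))
          ((hirr φ' hφ').associated_of_dvd (hirr _ (hstar φ hφ)) h)
    · rintro (h | h)
      · rw [h]; exact ⟨hφ, rfl⟩
      · rw [h, hss φ hφ]; exact ⟨hstar φ hφ, mul_comm _ _⟩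
  have hcard : Φ.card = 2 * Ψ.card := by
    rw [Finset.card_eq_sum_card_image (fun φ => φ * sstar hq φ) Φ, ← hΨ]
    rw [Finset.sum_const_nat (m := 2)]
    · ring
    · intro ψ hψ
      obtain ⟨φ, hφ, he⟩ := hΨmem ψ hψ
      rw [← he, hfib φ hφ]
      exact Finset.card_pair (hne φ hφ).symm
  have hmonS : ∀ ψ ∈ insert (X - 1) Ψ, ψ.Monic := by
    intro ψ hψ
    rcases Finset.mem_insert.mp hψ with h | h
    · rw [h]; exact X_sub_one_monic
    · obtain ⟨φ, hφ, he⟩ := hΨmem ψ h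
      rw [← he]; exact (hmon φ hφ).mul (hmon _ (hstar φ hφ))
  have huS : ∀ ψ ∈ insert (X - 1) Ψ, ¬ IsUnit ψ := by
    intro ψ hψ
    rcases Finset.mem_insert.mp hψ with h | h
    · rw [h]; exact X_sub_one_irr.not_isUnit
    · obtain ⟨φ, hφ, he⟩ := hΨmem ψ h
      rw [← he]
      intro hu
      exact (hirr φ hφ).not_isUnit (isUnit_of_mul_isUnit_left hu)
  have hcopΨ1 : ∀ ψ ∈ Ψ, IsCoprime (X - 1 : K[X]) ψ := by
    intro ψ hψ
    obtain ⟨φ, hφ, he⟩ := hΨmem ψ hψ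
    rw [← he]
    exact IsCoprime.mul_right (hcop1 φ hφ) (hcop1 _ (hstar φ hφ))
  have hcopΨ : ∀ ψ ∈ Ψ, ∀ χ ∈ Ψ, ψ ≠ χ → IsCoprime ψ χ := by
    intro ψ hψ χ hχ hneq
    obtain ⟨φ, hφ, he⟩ := hΨmem ψ hψ
    obtain ⟨φ', hφ', he'⟩ := hΨmem χ hχ
    rw [← he, ← he'] at hneq ⊢
    have n1 : φ ≠ φ' := fun h => hneq (by rw [h])
    have n2 : φ ≠ sstar hq φ' := fun h => hneq (by rw [h, hss φ' hφ', mul_comm])
    have n3 : sstar hq φ ≠ φ' := fun h => n2 (by rw [← h, hss φ hφ])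
    have n4 : sstar hq φ ≠ sstar hq φ' := fun h => n1 (by rw [← hss φ hφ, h, hss φ' hφ'])
    exact IsCoprime.mul_left
      (IsCoprime.mul_right (hcopΦ φ hφ φ' hφ' n1) (hcopΦ φ hφ _ (hstar φ' hφ') n2))
      (IsCoprime.mul_right (hcopΦ _ (hstar φ hφ) φ' hφ' n3)
        (hcopΦ _ (hstar φ hφ) _ (hstar φ' hφ') n4))
  have hcopS : ∀ ψ ∈ insert (X - 1) Ψ, ∀ χ ∈ insert (X - 1) Ψ, ψ ≠ χ → IsCoprime ψ χ := by
    intro ψ hψ χ hχ hneq
    rcases Finset.mem_insert.mp hψ with h | h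
    · rcases Finset.mem_insert.mp hχ with h' | h'
      · exact absurd (h.trans h'.symm) hneq
      · rw [h]; exact hcopΨ1 χ h'
    · rcases Finset.mem_insert.mp hχ with h' | h'
      · rw [h']; exact (hcopΨ1 ψ h).symm
      · exact hcopΨ ψ h χ h' hneq
  have hdvdS : ∀ ψ ∈ insert (X - 1) Ψ, ψ ∣ X ^ r - 1 := by
    intro ψ hψ
    rcases Finset.mem_insert.mp hψ with h | h
    · rw [h]; exact X_sub_one_dvd r
    · obtain ⟨φ, hφ, he⟩ := hΨmem ψ h
      rw [← he]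
      exact IsCoprime.mul_dvd (hcopΦ φ hφ _ (hstar φ hφ) (hne φ hφ).symm) (hdvd φ hφ)
        (hdvd _ (hstar φ hφ))
  have hdegΨ : ∀ ψ ∈ Ψ, ψ.natDegree = 2 * b := by
    intro ψ hψ
    obtain ⟨φ, hφ, he⟩ := hΨmem ψ hψ
    rw [← he, (hmon φ hφ).natDegree_mul (hmon _ (hstar φ hφ)), hdeg φ hφ, hdeg _ (hstar φ hφ)]
    ring
  have hB : ∀ g : ↥(Cfsg.GU n K q), orderOf g = r →
      ∃ e : K[X] → ℕ,
        ((g : Matrix.GeneralLinearGroup (Fin n) K) : Matrix (Fin n) (Fin n) K).charpoly =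
          ∏ ψ ∈ insert (X - 1) Ψ, ψ ^ e ψ := by
    intro g hg
    obtain ⟨e, he⟩ := exists_exp_charpoly (insert (X - 1) Φ) hmem
      ((g : Matrix.GeneralLinearGroup (Fin n) K) : Matrix (Fin n) (Fin n) K)
      (pow_of_order_gu g hg)
    have hg2 : ∀ x y, Cfsg.hermForm n K q
        (((g : Matrix.GeneralLinearGroup (Fin n) K) : Matrix (Fin n) (Fin n) K) *ᵥ x)
        (((g : Matrix.GeneralLinearGroup (Fin n) K) : Matrix (Fin n) (Fin n) K) *ᵥ y) =
        Cfsg.hermForm n K q x y := g.2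
    have hun := st_of_unitary hq _ hg2
    have hpal := sstar_charpoly_unitary hq _ hun
    have hc0 : ((g : Matrix.GeneralLinearGroup (Fin n) K) :
        Matrix (Fin n) (Fin n) K).charpoly.coeff 0 ≠ 0 := by
      intro h
      have hd := Matrix.det_eq_sign_charpoly_coeff
        ((g : Matrix.GeneralLinearGroup (Fin n) K) : Matrix (Fin n) (Fin n) K)
      rw [h, mul_zero] at hd
      have hu : IsUnit ((g : Matrix.GeneralLinearGroup (Fin n) K) :
          Matrix (Fin n) (Fin n) K).det := Matrix.isUnit_det_of_left_inverse hun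
      rw [hd] at hu
      exact not_isUnit_zero hu
    have hle : ∀ φ ∈ Φ, e φ ≤ e (sstar hq φ) := by
      intro φ hφ
      have h1 : φ ^ e φ ∣ ((g : Matrix.GeneralLinearGroup (Fin n) K) :
          Matrix (Fin n) (Fin n) K).charpoly := by
        rw [he]
        exact Finset.dvd_prod_of_mem (fun ψ => ψ ^ e ψ) (Finset.mem_insert_of_mem hφ)
      have h3 := sstar_pow_dvd hq φ _ (h0 φ hφ) hc0 (e φ) h1
      rw [hpal, he] at h3
      exact exp_le (insert (X - 1) Φ) (fun ψ hψ => (hirrS' ψ hψ).ne_zero)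
        (fun ψ hψ => (hirrS' ψ hψ).not_isUnit)
        (fun ψ hψ χ hχ hne' =>
          coprime_of_ne (hirrS' ψ hψ) (hirrS' χ hχ) (hmonS' ψ hψ) (hmonS' χ hχ) hne')
        e (sstar hq φ) (Finset.mem_insert_of_mem (hstar φ hφ)) _ h3
    have hsym : ∀ φ ∈ Φ, e (sstar hq φ) = e φ := by
      intro φ hφ
      apply le_antisymm
      · have h := hle (sstar hq φ) (hstar φ hφ)
        rwa [hss φ hφ] at h
      · exact hle φ hφ
    refine ⟨fun ψ => if ψ = X - 1 then e (X - 1) else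
      (∑ φ' ∈ Φ.filter (fun φ' => φ' * sstar hq φ' = ψ), e φ') / 2, ?_⟩
    beta_reduce
    rw [he, Finset.prod_insert hΦ1, Finset.prod_insert hΨ1, if_pos rfl]
    congr 1
    rw [hΨ]
    symm
    refine Finset.prod_image' (fun φ => φ ^ e φ) ?_
    intro φ hφ
    beta_reduce
    have hne1 : φ * sstar hq φ ≠ X - 1 := fun h =>
      hΨ1 (by rw [hΨ, ← h]; exact Finset.mem_image_of_mem _ hφ)
    rw [if_neg hne1, hfib φ hφ, Finset.sum_pair (hne φ hφ).symm,
      Finset.prod_pair (hne φ hφ).symm, hsym φ hφ, mul_pow]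
    have h2 : (e φ + e φ) / 2 = e φ := by omega
    rw [h2]
  have hE : ∀ mv : K[X] →₀ ℕ, mv ∈ (insert (X - 1) Ψ).finsuppAntidiag (n / (2 * b)) →
      ∃ G : Matrix.GeneralLinearGroup (Fin n) K, G ∈ Cfsg.GU n K q ∧
        (G : Matrix (Fin n) (Fin n) K).charpoly = PP (insert (X - 1) Ψ) n (2 * b) mv := by
    intro mv hmv
    apply exists_gu_of_QC hq
    · show QC hq (∏ ψ ∈ insert (X - 1) Ψ, ψ ^ expo n (2 * b) mv ψ)
      apply QC_prod hq
      intro ψ hψ
      rcases Finset.mem_insert.mp hψ with h | h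
      · rw [h]; exact QC_X_sub_one hq
      · obtain ⟨φ, hφ, he⟩ := hΨmem ψ h
        rw [← he]
        exact QC_pair hq φ (hmon φ hφ) (h0 φ hφ)
    · exact natDegree_PP Ψ hΨ1 hmonS hdegΨ mv (Finset.mem_finsuppAntidiag.mp hmv).1
  have hm0 := single_mem Ψ (n / (2 * b))
  have hΨc : Ψ.card = Φ.card / 2 := by omega
  rw [card_abs_gu p hK hr hrp Ψ hΨ1 hmonS huS hcopS hdvdS hdegΨ (by omega) hB hE,
    Finset.card_erase_of_mem hm0, Finset.card_finsuppAntidiag_nat_eq_choose,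
    Finset.card_insert_of_notMem hΨ1, hΨc]
  have e : ∀ N t : ℕ, t + 1 + N - 1 = N + t := fun N t => by omega
  rw [e, Nat.choose_symm_add]

end Count

end Cfsg.Agent.Helper14.PrimeOrdU
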