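import Mathlib
import Cfsg.Prelude.Def_Classical
import Cfsg.Agent.S0279
import Cfsg.Agent.Helper8.SUBasic

set_option autoImplicit false

namespace Cfsg.Agent.Helper14.Psu3a

open Matrix Polynomial

theorem q_pow {F : Type*} [Field F] [Fintype F] (p : ℕ) [Fact p.Prime] [CharP F p] (q : ℕ)
    (hF : Fintype.card F = q ^ 2) : ∃ m : ℕ, q = p ^ m := by
  have hpp : p.Prime := Fact.out
  obtain ⟨n', -, hn'⟩ := FiniteField.card F p
  obtain ⟨m, -, hm⟩ := (Nat.dvd_prime_pow hpp).mp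
    (show q ∣ p ^ (n' : ℕ) by rw [← hn', hF]; exact Dvd.intro_left q (by ring))
  exact ⟨m, hm⟩

theorem root_closed {F : Type*} [Field F] [Fintype F] (p : ℕ) [Fact p.Prime] [CharP F p] (q : ℕ)
    (hF : Fintype.card F = q ^ 2) (M : Matrix (Fin 3) (Fin 3) F)
    (hU : Mᵀ * M.map (fun x => x ^ q) = 1) {K : Type*} [Field K] [Algebra F K] (r : K)
    (hr : Polynomial.aeval r M.charpoly = 0) : Polynomial.aeval ((r ^ q)⁻¹) M.charpoly = 0 := by
  classical
  obtain ⟨m, hm⟩ := q_pow p q hF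
  haveI : CharP K p := charP_of_injective_algebraMap (algebraMap F K).injective p
  obtain ⟨φ, hφ⟩ : ∃ φ : K →+* K, ∀ x, φ x = x ^ q :=
    ⟨iterateFrobenius K p m, fun x => by rw [iterateFrobenius_def, hm]⟩
  obtain ⟨MK, hMK⟩ : ∃ MK : Matrix (Fin 3) (Fin 3) K, MK = M.map (algebraMap F K) := ⟨_, rfl⟩
  have hUK : MKᵀ * MK.map φ = 1 := by
    ext i j
    have h1 := congrFun (congrFun hU i) j
    rw [Matrix.mul_apply] at h1
    rw [Matrix.mul_apply, hMK]
    have h3 : ∀ k : Fin 3, (M.map (algebraMap F K))ᵀ i k * ((M.map (algebraMap F K)).map φ) k j =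
        algebraMap F K (Mᵀ i k * (M.map (fun x => x ^ q)) k j) := by
      intro k
      rw [Matrix.transpose_apply, Matrix.map_apply, Matrix.map_apply, Matrix.map_apply, hφ,
        Matrix.transpose_apply, Matrix.map_apply, map_mul, map_pow]
    rw [Finset.sum_congr rfl (fun k _ => h3 k), ← map_sum, h1, Matrix.one_apply, Matrix.one_apply]
    split_ifs <;> simp
  have hdetMK : MK.det * (MK.map φ).det = 1 := by
    have h1 := congrArg Matrix.det hUK
    rw [Matrix.det_mul, Matrix.det_transpose, Matrix.det_one] at h1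
    exact h1
  have hchar : ∀ t : K, Polynomial.aeval t M.charpoly = (Matrix.scalar (Fin 3) t - MK).det := by
    intro t
    rw [← Matrix.eval_charpoly, hMK, Matrix.charpoly_map, Polynomial.eval_map,
      Polynomial.aeval_def]
  rw [hchar] at hr ⊢
  have hr0 : r ≠ 0 := by
    intro h0
    rw [h0, map_zero, zero_sub, Matrix.det_neg, Fintype.card_fin] at hr
    have h1 : MK.det = 0 := by
      rcases mul_eq_zero.mp hr with h | h
      · exact absurd h (pow_ne_zero 3 (neg_ne_zero.mpr one_ne_zero))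
      · exact h
    rw [h1, zero_mul] at hdetMK
    exact zero_ne_one hdetMK
  have h2 : ((Matrix.scalar (Fin 3) r - MK).map φ).det = 0 := by
    have h1 := RingHom.map_det φ (Matrix.scalar (Fin 3) r - MK)
    rw [hr, map_zero, RingHom.mapMatrix_apply] at h1
    exact h1.symm
  have h3 : (Matrix.scalar (Fin 3) r - MK).map φ = Matrix.scalar (Fin 3) (r ^ q) - MK.map φ := by
    ext i j
    rw [Matrix.map_apply, Matrix.sub_apply, Matrix.sub_apply, Matrix.map_apply, map_sub,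
      Matrix.scalar_apply, Matrix.scalar_apply, Matrix.diagonal_apply, Matrix.diagonal_apply]
    split_ifs
    · rw [hφ]
    · rw [map_zero]
  rw [h3] at h2
  have h4 : (MKᵀ * (Matrix.scalar (Fin 3) (r ^ q) - MK.map φ)).det = 0 := by
    rw [Matrix.det_mul, h2, mul_zero]
  have h5 : MKᵀ * (Matrix.scalar (Fin 3) (r ^ q) - MK.map φ) = (r ^ q) • MKᵀ - 1 := by
    rw [Matrix.mul_sub, hUK]
    congr 1
    rw [Matrix.scalar_apply, ← Matrix.smul_one_eq_diagonal, Matrix.mul_smul, Matrix.mul_one]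
  rw [h5] at h4
  have h6 : (r ^ q) • MKᵀ - 1 = (-(r ^ q)) • (Matrix.scalar (Fin 3) ((r ^ q)⁻¹) - MK)ᵀ := by
    rw [Matrix.transpose_sub, Matrix.scalar_apply, Matrix.diagonal_transpose,
      ← Matrix.smul_one_eq_diagonal, smul_sub, smul_smul, neg_mul,
      mul_inv_cancel₀ (pow_ne_zero q hr0), neg_smul, neg_smul, one_smul, sub_neg_eq_add,
      neg_add_eq_sub]
  rw [h6, Matrix.det_smul, Matrix.det_transpose] at h4
  rcases mul_eq_zero.mp h4 with h | h
  · exact absurd h (pow_ne_zero _ (neg_ne_zero.mpr (pow_ne_zero q hr0)))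
  · exact h

theorem herm_iff {F : Type*} [Field F] {q : ℕ} (hq : Cfsg.Agent.Helper8.SULag.QF F q)
    (M : Matrix (Fin 3) (Fin 3) F) :
    (∀ u v, Cfsg.hermForm 3 F q (M *ᵥ u) (M *ᵥ v) = Cfsg.hermForm 3 F q u v) ↔
      Mᵀ * M.map (fun x => x ^ q) = 1 := by
  classical
  constructor
  · intro h
    ext i j
    have h1 := h (Pi.single i 1) (Pi.single j 1)
    rw [Matrix.mulVec_single_one, Matrix.mulVec_single_one] at h1
    unfold Cfsg.hermForm at h1
    have hR : ∑ k, (Pi.single i (1 : F) : Fin 3 → F) k * ((Pi.single j (1 : F) : Fin 3 → F) k) ^ q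
        = (1 : Matrix (Fin 3) (Fin 3) F) i j := by
      rw [Finset.sum_eq_single i]
      · rw [Pi.single_eq_same, one_mul, Matrix.one_apply]
        by_cases hij : i = j
        · rw [if_pos hij, hij, Pi.single_eq_same, one_pow]
        · rw [if_neg hij, Pi.single_eq_of_ne hij, zero_pow hq.q0]
      · intro k _ hk
        rw [Pi.single_eq_of_ne hk, zero_mul]
      · intro h'
        exact absurd (Finset.mem_univ i) h'
    rw [hR] at h1
    rw [Matrix.mul_apply, ← h1]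
    exact Finset.sum_congr rfl (fun k _ => rfl)
  · intro hU u v
    have e1 : ∀ k, ((M *ᵥ v) k) ^ q = ((M.map (fun x => x ^ q)) *ᵥ (fun j => (v j) ^ q)) k := by
      intro k
      rw [← Cfsg.Agent.Helper8.SULag.frob_apply hq, Matrix.mulVec, dotProduct, map_sum,
        Matrix.mulVec, dotProduct]
      apply Finset.sum_congr rfl
      intro j _
      rw [map_mul, Cfsg.Agent.Helper8.SULag.frob_apply, Cfsg.Agent.Helper8.SULag.frob_apply,
        Matrix.map_apply]
    have e2 : Cfsg.hermForm 3 F q (M *ᵥ u) (M *ᵥ v) =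
        (M *ᵥ u) ⬝ᵥ ((M.map (fun x => x ^ q)) *ᵥ (fun j => (v j) ^ q)) := by
      unfold Cfsg.hermForm dotProduct
      exact Finset.sum_congr rfl (fun k _ => by rw [e1 k])
    have e3 : Cfsg.hermForm 3 F q u v = u ⬝ᵥ (fun j => (v j) ^ q) := by
      unfold Cfsg.hermForm dotProduct
      rfl
    rw [e2, e3, ← Matrix.vecMul_transpose, ← Matrix.dotProduct_mulVec, Matrix.mulVec_mulVec, hU,
      Matrix.one_mulVec]

theorem pow_iff {F : Type*} [Field F] [Fintype F] {q : ℕ} (hF : Fintype.card F = q ^ 2)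
    (A : Cfsg.SU 3 F q) (j : ℕ) :
    (QuotientGroup.mk A : Cfsg.PSU 3 F q) ^ j = 1 ↔
      ∃ c : F, ((A : Matrix.SpecialLinearGroup (Fin 3) F) : Matrix (Fin 3) (Fin 3) F) ^ j =
        c • (1 : Matrix (Fin 3) (Fin 3) F) := by
  classical
  have hcoe : (((A ^ j : Cfsg.SU 3 F q) : Matrix.SpecialLinearGroup (Fin 3) F) :
      Matrix (Fin 3) (Fin 3) F) =
      ((A : Matrix.SpecialLinearGroup (Fin 3) F) : Matrix (Fin 3) (Fin 3) F) ^ j := by
    rw [Subgroup.coe_pow, Matrix.SpecialLinearGroup.coe_pow]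
  rw [← QuotientGroup.mk_pow, QuotientGroup.eq_one_iff, ← hcoe]
  constructor
  · intro h
    obtain ⟨μ, hμ, -, -⟩ := Cfsg.Agent.S0279.center_scalar hF 3 (by norm_num) (A ^ j) h
    exact ⟨μ, by rw [hμ, Matrix.smul_one_eq_diagonal]⟩
  · rintro ⟨c, hc⟩
    rw [Subgroup.mem_center_iff]
    intro g
    apply Subtype.ext
    apply Subtype.ext
    show ((g : Matrix.SpecialLinearGroup (Fin 3) F) : Matrix (Fin 3) (Fin 3) F) *
        (((A ^ j : Cfsg.SU 3 F q) : Matrix.SpecialLinearGroup (Fin 3) F) :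
          Matrix (Fin 3) (Fin 3) F) =
      (((A ^ j : Cfsg.SU 3 F q) : Matrix.SpecialLinearGroup (Fin 3) F) :
          Matrix (Fin 3) (Fin 3) F) *
        ((g : Matrix.SpecialLinearGroup (Fin 3) F) : Matrix (Fin 3) (Fin 3) F)
    rw [hc, Matrix.mul_smul, Matrix.smul_mul, Matrix.mul_one, Matrix.one_mul]

theorem sub {F : Type*} [Field F] [Fintype F] {q : ℕ} (hF : Fintype.card F = q ^ 2)
    (N1 N2 N3 N4 : ℕ)
    (hT1 : ∀ M : Matrix (Fin 3) (Fin 3) F, M.det = 1 → Mᵀ * M.map (fun x => x ^ q) = 1 →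
      Irreducible M.charpoly → ∃ c : F, M ^ N4 = c • (1 : Matrix (Fin 3) (Fin 3) F))
    (hT2 : ∀ M : Matrix (Fin 3) (Fin 3) F, M.det = 1 → Mᵀ * M.map (fun x => x ^ q) = 1 →
      ∀ (lam : F) (ψ : Polynomial F), ψ.Monic → ψ.natDegree = 2 → Irreducible ψ →
      M.charpoly = (X - C lam) * ψ → False)
    (hT3 : ∀ M : Matrix (Fin 3) (Fin 3) F, M.det = 1 → Mᵀ * M.map (fun x => x ^ q) = 1 →
      ∀ (lam mu nu : F), M.charpoly = (X - C lam) * ((X - C mu) * (X - C nu)) →
      (∃ c : F, M ^ N1 = c • (1 : Matrix (Fin 3) (Fin 3) F)) ∨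
      (∃ c : F, M ^ N2 = c • (1 : Matrix (Fin 3) (Fin 3) F)) ∨
      (∃ c : F, M ^ N3 = c • (1 : Matrix (Fin 3) (Fin 3) F)))
    (g : Cfsg.PSU 3 F q) :
    orderOf g ∣ N1 ∨ orderOf g ∣ N2 ∨ orderOf g ∣ N3 ∨ orderOf g ∣ N4 := by
  classical
  have hq := Cfsg.Agent.Helper8.SULag.qf_of_card hF
  obtain ⟨A, rfl⟩ := QuotientGroup.mk_surjective g
  obtain ⟨M, hM⟩ : ∃ M : Matrix (Fin 3) (Fin 3) F,
      M = ((A : Matrix.SpecialLinearGroup (Fin 3) F) : Matrix (Fin 3) (Fin 3) F) := ⟨_, rfl⟩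
  have hdet : M.det = 1 := by
    rw [hM]; exact (A : Matrix.SpecialLinearGroup (Fin 3) F).det_coe
  have hU : Mᵀ * M.map (fun x => x ^ q) = 1 := by
    apply (herm_iff hq M).mp
    rw [hM]
    exact A.2
  have hord : ∀ N : ℕ, (∃ c : F, M ^ N = c • (1 : Matrix (Fin 3) (Fin 3) F)) →
      orderOf (QuotientGroup.mk A : Cfsg.PSU 3 F q) ∣ N := by
    intro N h
    rw [hM] at h
    exact orderOf_dvd_of_pow_eq_one ((pow_iff hF A N).mpr h)
  have hmon : M.charpoly.Monic := Matrix.charpoly_monic M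
  have hdeg : M.charpoly.natDegree = 3 := by
    rw [Matrix.charpoly_natDegree_eq_dim, Fintype.card_fin]
  by_cases hroot : ∃ lam : F, M.charpoly.IsRoot lam
  · obtain ⟨lam, hlam⟩ := hroot
    obtain ⟨ψ, hψ⟩ := Polynomial.dvd_iff_isRoot.mpr hlam
    have hψm : ψ.Monic := by
      apply Polynomial.Monic.of_mul_monic_left (monic_X_sub_C lam)
      rw [← hψ]; exact hmon
    have hψd : ψ.natDegree = 2 := by
      have h1 := Polynomial.Monic.natDegree_mul (monic_X_sub_C lam) hψm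
      rw [← hψ, hdeg, natDegree_X_sub_C] at h1
      omega
    by_cases hroot2 : ∃ mu : F, ψ.IsRoot mu
    · obtain ⟨mu, hmu⟩ := hroot2
      obtain ⟨φ, hφ⟩ := Polynomial.dvd_iff_isRoot.mpr hmu
      have hφm : φ.Monic := by
        apply Polynomial.Monic.of_mul_monic_left (monic_X_sub_C mu)
        rw [← hφ]; exact hψm
      have hφd : φ.natDegree = 1 := by
        have h1 := Polynomial.Monic.natDegree_mul (monic_X_sub_C mu) hφm
        rw [← hφ, hψd, natDegree_X_sub_C] at h1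
        omega
      obtain ⟨nu, hnu⟩ : ∃ nu : F, nu = -(φ.coeff 0) := ⟨_, rfl⟩
      have hφe : φ = X - C nu := by
        rw [hnu, C_neg, sub_neg_eq_add]
        exact Polynomial.Monic.eq_X_add_C hφm hφd
      have hchar : M.charpoly = (X - C lam) * ((X - C mu) * (X - C nu)) := by
        rw [← hφe, ← hφ, ← hψ]
      rcases hT3 M hdet hU lam mu nu hchar with h | h | h
      · exact Or.inl (hord _ h)
      · exact Or.inr (Or.inl (hord _ h))
      · exact Or.inr (Or.inr (Or.inl (hord _ h)))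
    · have hirr : Irreducible ψ :=
        Polynomial.irreducible_of_degree_le_three_of_not_isRoot (by rw [hψd]; decide)
          (fun x hx => hroot2 ⟨x, hx⟩)
      exact (hT2 M hdet hU lam ψ hψm hψd hirr hψ).elim
  · have hirr : Irreducible M.charpoly :=
      Polynomial.irreducible_of_degree_le_three_of_not_isRoot (by rw [hdeg]; decide)
        (fun x hx => hroot ⟨x, hx⟩)
    exact Or.inr (Or.inr (Or.inr (hord _ (hT1 M hdet hU hirr))))

theorem sup {F : Type*} [Field F] [Fintype F] {q : ℕ} (hF : Fintype.card F = q ^ 2) (N : ℕ)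
    (hN : 0 < N)
    (hE : ∃ M : Matrix (Fin 3) (Fin 3) F, Mᵀ * M.map (fun x => x ^ q) = 1 ∧ M.det = 1 ∧
      (∃ c : F, M ^ N = c • (1 : Matrix (Fin 3) (Fin 3) F)) ∧
      ∀ j : ℕ, (∃ c : F, M ^ j = c • (1 : Matrix (Fin 3) (Fin 3) F)) → N ∣ j)
    (m : ℕ) (hm : m ∣ N) :
    m ∈ Set.range (orderOf : Cfsg.PSU 3 F q → ℕ) := by
  classical
  have hq := Cfsg.Agent.Helper8.SULag.qf_of_card hF
  obtain ⟨M, hU, hdet, h1, h2⟩ := hE
  have hmem : (⟨M, hdet⟩ : Matrix.SpecialLinearGroup (Fin 3) F) ∈ Cfsg.SU 3 F q := by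
    intro u v
    show Cfsg.hermForm 3 F q (M *ᵥ u) (M *ᵥ v) = Cfsg.hermForm 3 F q u v
    exact (herm_iff hq M).mpr hU u v
  obtain ⟨A, hA⟩ : ∃ A : Cfsg.SU 3 F q, A = ⟨⟨M, hdet⟩, hmem⟩ := ⟨_, rfl⟩
  have hAM : ((A : Matrix.SpecialLinearGroup (Fin 3) F) : Matrix (Fin 3) (Fin 3) F) = M := by
    rw [hA]
  obtain ⟨g, hg⟩ : ∃ g : Cfsg.PSU 3 F q, g = QuotientGroup.mk A := ⟨_, rfl⟩
  have hpow : ∀ j : ℕ, g ^ j = 1 ↔ ∃ c : F, M ^ j = c • (1 : Matrix (Fin 3) (Fin 3) F) := by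
    intro j
    rw [hg, pow_iff hF A j, hAM]
  have hord : orderOf g = N :=
    Nat.dvd_antisymm (orderOf_dvd_of_pow_eq_one ((hpow N).mpr h1))
      (h2 _ ((hpow _).mp (pow_orderOf_eq_one g)))
  obtain ⟨e, he⟩ := hm
  have he0 : e ≠ 0 := by
    intro h0
    rw [h0, mul_zero] at he
    omega
  refine ⟨g ^ e, ?_⟩
  have hdv : e ∣ orderOf g := by
    rw [hord, he]
    exact Dvd.intro_left m rfl
  rw [orderOf_pow_of_dvd he0 hdv, hord, he, Nat.mul_div_cancel m (Nat.pos_of_ne_zero he0)]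

end Cfsg.Agent.Helper14.Psu3a
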