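import Mathlib
import Cfsg.Prelude.Def_LieClassical
import Cfsg.Agent.Helper14.RegUniU2
import Cfsg.Agent.Helper14.JordO

/-!
Regular unipotent classes of the special unitary group: there are exactly `gcd n (q + 1)` of them.
-/

set_option autoImplicit false
open Polynomial
open scoped Matrix

namespace Cfsg.Agent.Helper14.RegUniU

open Cfsg.Agent.Helper8.SULag (QF frob frob_apply frob_frob qf_of_card exists_tr h_nondeg h_conj
  h_sub_right)

section Diag

variable {K : Type*} [Field K] {n q : ℕ}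

/-- the diagonal matrix with a single non-trivial entry -/
def dg1 (i₀ : Fin n) (δ : K) : Matrix (Fin n) (Fin n) K :=
  Matrix.diagonal (Function.update (fun _ => (1 : K)) i₀ δ)

theorem dg1_mul (i₀ : Fin n) (a b : K) : dg1 i₀ a * dg1 i₀ b = dg1 i₀ (a * b) := by
  unfold dg1
  rw [Matrix.diagonal_mul_diagonal]
  congr 1
  funext i
  by_cases h : i = i₀
  · subst h
    rw [Function.update_self, Function.update_self, Function.update_self]
  · rw [Function.update_of_ne h, Function.update_of_ne h, Function.update_of_ne h, mul_one]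

theorem dg1_one (i₀ : Fin n) : dg1 i₀ (1 : K) = 1 := by
  unfold dg1
  have h : Function.update (fun _ : Fin n => (1 : K)) i₀ 1 = fun _ => 1 := by
    funext i
    by_cases h : i = i₀
    · subst h
      rw [Function.update_self]
    · rw [Function.update_of_ne h]
  rw [h]
  exact Matrix.diagonal_one

theorem st_dg1 (hq : QF K q) (i₀ : Fin n) (δ : K) :
    st hq (dg1 i₀ δ) = dg1 i₀ (frob hq δ) := by
  ext i j
  show frob hq (dg1 i₀ δ j i) = dg1 i₀ (frob hq δ) i j
  unfold dg1
  by_cases hij : i = j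
  · subst hij
    rw [Matrix.diagonal_apply_eq, Matrix.diagonal_apply_eq]
    by_cases h : i = i₀
    · subst h
      rw [Function.update_self, Function.update_self]
    · rw [Function.update_of_ne h, Function.update_of_ne h, map_one]
  · rw [Matrix.diagonal_apply_ne _ (Ne.symm hij), Matrix.diagonal_apply_ne _ hij, map_zero]

theorem det_dg1 (i₀ : Fin n) (δ : K) : (dg1 i₀ δ).det = δ := by
  unfold dg1
  rw [Matrix.det_diagonal, Finset.prod_update_of_mem (Finset.mem_univ i₀)]
  simp

end Diag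

section Count

/-- the norm-one elements of the field with `q ^ 2` elements form a cyclic group of order
`q + 1` -/
theorem exists_omega {K : Type*} [Field K] [Fintype K] {q : ℕ} (hK : Fintype.card K = q ^ 2) :
    ∃ ω : Kˣ, orderOf ω = q + 1 ∧
      ∀ x : K, x ^ (q + 1) = 1 → ∃ i : ℕ, x = ((ω ^ i : Kˣ) : K) := by
  classical
  have hq2 : 2 ≤ q := by
    have h1 : 1 < Fintype.card K := Fintype.one_lt_card
    rw [hK] at h1
    by_contra h
    have h3 : q ≤ 1 := by omega
    have h4 : q ^ 2 ≤ 1 ^ 2 := Nat.pow_le_pow_left h3 2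
    rw [one_pow] at h4
    omega
  obtain ⟨γ, hγ⟩ := IsCyclic.exists_generator (α := Kˣ)
  have hord : orderOf γ = q ^ 2 - 1 := by
    rw [orderOf_eq_card_of_forall_mem_zpowers hγ, Nat.card_units, Nat.card_eq_fintype_card, hK]
  have hfac : q ^ 2 - 1 = (q + 1) * (q - 1) := by
    obtain ⟨r, rfl⟩ : ∃ r, q = r + 2 := ⟨q - 2, by omega⟩
    apply Nat.sub_eq_of_eq_add
    have h : r + 2 - 1 = r + 1 := by omega
    rw [h]
    ring
  have hq1 : 0 < q - 1 := by omega
  have hq1' : q - 1 ≠ 0 := by omega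
  have hdvd : (q - 1) ∣ orderOf γ := by
    rw [hord, hfac]
    exact dvd_mul_left (q - 1) (q + 1)
  refine ⟨γ ^ (q - 1), ?_, ?_⟩
  · rw [orderOf_pow_of_dvd hq1' hdvd, hord, hfac, Nat.mul_div_cancel _ hq1]
  · intro x hx
    have hx0 : x ≠ 0 := by
      rintro rfl
      rw [zero_pow (by omega)] at hx
      exact zero_ne_one hx
    obtain ⟨k, hk⟩ := (Submonoid.mem_powers_iff _ _).mp
      ((isOfFinOrder_of_finite γ).mem_powers_iff_mem_zpowers.mpr (hγ (Units.mk0 x hx0)))
    have h1 : γ ^ (k * (q + 1)) = 1 := by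
      rw [pow_mul, hk]
      apply Units.ext
      rw [Units.val_pow_eq_pow_val, Units.val_mk0, hx, Units.val_one]
    have h2 : (q + 1) * (q - 1) ∣ k * (q + 1) := by
      rw [← hfac, ← hord]
      exact orderOf_dvd_of_pow_eq_one h1
    rw [mul_comm (q + 1) (q - 1)] at h2
    have h3 : (q - 1) ∣ k := Nat.dvd_of_mul_dvd_mul_right (by omega) h2
    obtain ⟨t, ht⟩ := h3
    refine ⟨t, ?_⟩
    rw [← pow_mul, ← ht, hk, Units.val_mk0]

/-- the regular unipotent elements of `SU_n(q)` form exactly `gcd n (q + 1)` classes -/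
theorem card_reg_classes_su {K : Type*} [Field K] [Fintype K] {q n : ℕ}
    (hK : Fintype.card K = q ^ 2) (hn : 2 ≤ n) :
    Nat.card {C : ConjClasses ↥(Cfsg.SU n K q) //
      ∃ u : ↥(Cfsg.SU n K q), ConjClasses.mk u = C ∧
        ((u.1.1 : Matrix (Fin n) (Fin n) K) - 1) ^ n = 0 ∧
        ((u.1.1 : Matrix (Fin n) (Fin n) K) - 1).rank = n - 1} = Nat.gcd n (q + 1) := by
  classical
  have hq : QF K q := qf_of_card hK
  have hn1 : 1 ≤ n := by omega
  obtain ⟨U₀, hU₀un, hU₀det, hU₀nil, hU₀reg⟩ := exists_regU hq hn1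
  obtain ⟨T₀, d₀⟩ := regU hq hn1 U₀ hU₀un hU₀nil hU₀reg
  obtain ⟨ω, hωord, hωgen⟩ := exists_omega hK
  obtain ⟨d, hd⟩ : ∃ d, d = Nat.gcd n (q + 1) := ⟨_, rfl⟩
  have hdpos : 0 < d := by
    rw [hd]
    exact Nat.gcd_pos_of_pos_left _ (by omega)
  have hdn : d ∣ n := by
    rw [hd]
    exact Nat.gcd_dvd_left _ _
  have hdq : d ∣ q + 1 := by
    rw [hd]
    exact Nat.gcd_dvd_right _ _
  obtain ⟨δ, hδdef⟩ : ∃ δ : ℕ → K, ∀ i, δ i = ((ω ^ i : Kˣ) : K) :=
    ⟨fun i => ((ω ^ i : Kˣ) : K), fun _ => rfl⟩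
  have hδmul : ∀ i j, δ i * δ j = δ (i + j) := by
    intro i j
    rw [hδdef, hδdef, hδdef, pow_add, Units.val_mul]
  have hδpow : ∀ k m, δ k ^ m = δ (k * m) := by
    intro k m
    rw [hδdef, hδdef, pow_mul]
    simp only [Units.val_pow_eq_pow_val]
  have hδfrob : ∀ i, frob hq (δ i) = δ (i * q) := by
    intro i
    rw [frob_apply, hδpow]
  have hδone : ∀ i, (q + 1) ∣ i → δ i = 1 := by
    intro i hi
    have h1 : ω ^ i = 1 := orderOf_dvd_iff_pow_eq_one.mp (by rw [hωord]; exact hi)
    rw [hδdef, h1, Units.val_one]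
  have hδinj : ∀ i j, δ i = δ j → i ≡ j [MOD q + 1] := by
    intro i j h
    rw [hδdef, hδdef] at h
    have h' : ω ^ i = ω ^ j := Units.ext h
    rw [← hωord]
    exact pow_eq_pow_iff_modEq.mp h'
  have hδnorm : ∀ i, frob hq (δ i) * δ i = 1 := by
    intro i
    rw [hδfrob, hδmul]
    apply hδone
    exact ⟨i, by ring⟩
  have hn0 : 0 < n := by omega
  obtain ⟨i₀⟩ : Nonempty (Fin n) := ⟨⟨0, hn0⟩⟩
  obtain ⟨D, hDdef⟩ : ∃ D : ℕ → Matrix (Fin n) (Fin n) K, ∀ i, D i = dg1 i₀ (δ i) :=
    ⟨fun i => dg1 i₀ (δ i), fun _ => rfl⟩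
  have hDst : ∀ i, st hq (D i) = D (i * q) := by
    intro i
    rw [hDdef, hDdef, st_dg1, hδfrob]
  have hDmul : ∀ i j, D i * D j = D (i + j) := by
    intro i j
    rw [hDdef, hDdef, hDdef, dg1_mul, hδmul]
  have hDone : ∀ i, (q + 1) ∣ i → D i = 1 := by
    intro i hi
    rw [hDdef, hδone i hi, dg1_one]
  have hDdet : ∀ i, (D i).det = δ i := by
    intro i
    rw [hDdef, det_dg1]
  have hDun : ∀ i, st hq (D i) * D i = 1 := by
    intro i
    rw [hDst, hDmul]
    apply hDone
    exact ⟨i, by ring⟩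
  have hDun' : ∀ i, D i * st hq (D i) = 1 := by
    intro i
    rw [hDst, hDmul]
    apply hDone
    exact ⟨i, by ring⟩
  have hFun : ∀ i, st hq (D i * U₀ * st hq (D i)) * (D i * U₀ * st hq (D i)) = 1 := by
    intro i
    rw [st_mul, st_mul, st_st]
    calc D i * (st hq U₀ * st hq (D i)) * (D i * U₀ * st hq (D i))
        = D i * (st hq U₀ * (st hq (D i) * D i) * U₀) * st hq (D i) := by
          simp only [Matrix.mul_assoc]
      _ = 1 := by
          rw [hDun, Matrix.mul_one, hU₀un, Matrix.mul_one, hDun']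
  have hFdet : ∀ i, (D i * U₀ * st hq (D i)).det = 1 := by
    intro i
    rw [Matrix.det_mul, Matrix.det_mul, hU₀det, mul_one, ← Matrix.det_mul, hDun', Matrix.det_one]
  have hFrel : ∀ i, D i * U₀ = (D i * U₀ * st hq (D i)) * D i := by
    intro i
    rw [Matrix.mul_assoc (D i * U₀), hDun, Matrix.mul_one]
  have hFrank : ∀ i j, (((D i * U₀ * st hq (D i)) - 1) ^ j).rank = ((U₀ - 1) ^ j).rank := by
    intro i j
    exact Cfsg.Agent.Helper14.JordSp.rank_pow_conj U₀ _ (D i) (st hq (D i)) (hDun' i) (hFrel i) j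
  have hFnil : ∀ i, ((D i * U₀ * st hq (D i)) - 1) ^ n = 0 := by
    intro i
    apply Cfsg.Agent.Helper14.JordO.eq_zero_of_rank_eq_zero
    rw [hFrank, hU₀nil, Matrix.rank_zero]
  have hFreg : ∀ i, ((D i * U₀ * st hq (D i)) - 1).rank = n - 1 := by
    intro i
    have h := hFrank i 1
    rw [pow_one, pow_one] at h
    rw [h, hU₀reg]
  have hFex : ∀ i, ∃ u : ↥(Cfsg.SU n K q),
      (u.1.1 : Matrix (Fin n) (Fin n) K) = D i * U₀ * st hq (D i) := by
    intro i
    exact ⟨⟨⟨D i * U₀ * st hq (D i), hFdet i⟩, fun x y => unitary_of_st hq _ (hFun i) x y⟩, rfl⟩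
  choose F hF using hFex
  have hconjSU : ∀ (u u' : ↥(Cfsg.SU n K q)) (s : Matrix (Fin n) (Fin n) K), s.det = 1 →
      st hq s * s = 1 →
      s * (u.1.1 : Matrix (Fin n) (Fin n) K) = (u'.1.1 : Matrix (Fin n) (Fin n) K) * s →
      ConjClasses.mk u = ConjClasses.mk u' := by
    intro u u' s hs1 hs2 hs3
    rw [ConjClasses.mk_eq_mk_iff_isConj, isConj_iff]
    refine ⟨⟨⟨s, hs1⟩, fun x y => unitary_of_st hq _ hs2 x y⟩, ?_⟩
    rw [mul_inv_eq_iff_eq_mul]
    apply Subtype.ext
    apply Subtype.ext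
    exact hs3
  have hFmem : ∀ i, ∃ u : ↥(Cfsg.SU n K q), ConjClasses.mk u = ConjClasses.mk (F i) ∧
      ((u.1.1 : Matrix (Fin n) (Fin n) K) - 1) ^ n = 0 ∧
      ((u.1.1 : Matrix (Fin n) (Fin n) K) - 1).rank = n - 1 := by
    intro i
    refine ⟨F i, rfl, ?_, ?_⟩
    · rw [hF]
      exact hFnil i
    · rw [hF]
      exact hFreg i
  have hbij : Function.Bijective (fun i : Fin d => (⟨ConjClasses.mk (F i.1), hFmem i.1⟩ :
      {C : ConjClasses ↥(Cfsg.SU n K q) // ∃ u : ↥(Cfsg.SU n K q), ConjClasses.mk u = C ∧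
        ((u.1.1 : Matrix (Fin n) (Fin n) K) - 1) ^ n = 0 ∧
        ((u.1.1 : Matrix (Fin n) (Fin n) K) - 1).rank = n - 1})) := by
    constructor
    · rintro ⟨i, hi⟩ ⟨j, hj⟩ hij
      have hij' : ConjClasses.mk (F i) = ConjClasses.mk (F j) := congrArg Subtype.val hij
      rw [ConjClasses.mk_eq_mk_iff_isConj, isConj_iff] at hij'
      obtain ⟨c, hc⟩ := hij'
      rw [mul_inv_eq_iff_eq_mul] at hc
      have hcm : (c.1.1 : Matrix (Fin n) (Fin n) K) * (F i).1.1 = (F j).1.1 * c.1.1 := by
        have h := congrArg (fun z : ↥(Cfsg.SU n K q) => (z.1.1 : Matrix (Fin n) (Fin n) K)) hc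
        exact h
      have hc2 : ∀ x y, Cfsg.hermForm n K q ((c.1.1 : Matrix (Fin n) (Fin n) K) *ᵥ x)
          ((c.1.1 : Matrix (Fin n) (Fin n) K) *ᵥ y) = Cfsg.hermForm n K q x y := c.2
      have hcun : st hq (c.1.1 : Matrix (Fin n) (Fin n) K) * c.1.1 = 1 := st_of_unitary hq _ hc2
      have hcdet : (c.1.1 : Matrix (Fin n) (Fin n) K).det = 1 := c.1.2
      rw [hF, hF] at hcm
      obtain ⟨cm, hcmdef⟩ : ∃ cm : Matrix (Fin n) (Fin n) K, cm = c.1.1 := ⟨_, rfl⟩
      rw [← hcmdef] at hcm hcun hcdet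
      have hrel_j : st hq (D j) * (D j * U₀ * st hq (D j)) = U₀ * st hq (D j) := by
        rw [← Matrix.mul_assoc, ← Matrix.mul_assoc, hDun, Matrix.one_mul]
      have hcomm : (st hq (D j) * cm * D i) * U₀ = U₀ * (st hq (D j) * cm * D i) := by
        calc (st hq (D j) * cm * D i) * U₀ = st hq (D j) * cm * (D i * U₀) := by
              rw [Matrix.mul_assoc]
          _ = st hq (D j) * cm * ((D i * U₀ * st hq (D i)) * D i) := by rw [← hFrel i]
          _ = st hq (D j) * (cm * (D i * U₀ * st hq (D i))) * D i := by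
              simp only [Matrix.mul_assoc]
          _ = st hq (D j) * ((D j * U₀ * st hq (D j)) * cm) * D i := by rw [hcm]
          _ = (st hq (D j) * (D j * U₀ * st hq (D j))) * cm * D i := by
              simp only [Matrix.mul_assoc]
          _ = U₀ * (st hq (D j) * cm * D i) := by
              rw [hrel_j]
              simp only [Matrix.mul_assoc]
      have hc'un : st hq (st hq (D j) * cm * D i) * (st hq (D j) * cm * D i) = 1 := by
        rw [st_mul, st_mul, st_st]
        calc st hq (D i) * (st hq cm * D j) * (st hq (D j) * cm * D i)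
            = st hq (D i) * (st hq cm * (D j * st hq (D j)) * cm) * D i := by
              simp only [Matrix.mul_assoc]
          _ = 1 := by
              rw [hDun', Matrix.mul_one, hcun, Matrix.mul_one, hDun]
      have hc'det : (st hq (D j) * cm * D i).det = δ (j * q + i) := by
        rw [Matrix.det_mul, Matrix.det_mul, hcdet, mul_one, det_st, hDdet, hDdet, hδfrob, hδmul]
      obtain ⟨α, hα1, hα2⟩ := det_centralizer hq hn1 d₀ _ hc'un hcomm
      obtain ⟨k, hk⟩ := hωgen α hα1
      have hk' : α = δ k := by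
        rw [hδdef]
        exact hk
      rw [hc'det, hk', hδpow] at hα2
      have h1 : j * q + i ≡ k * n [MOD q + 1] := hδinj _ _ hα2
      have h2 : j * q + i ≡ k * n [MOD d] := Nat.ModEq.of_dvd hdq h1
      have h3 : k * n ≡ 0 [MOD d] := (Nat.modEq_zero_iff_dvd).mpr (Dvd.dvd.mul_left hdn k)
      have h5 : j * q + j ≡ 0 [MOD d] := by
        apply (Nat.modEq_zero_iff_dvd).mpr
        have h : j * q + j = j * (q + 1) := by ring
        rw [h]
        exact Dvd.dvd.mul_left hdq j
      have h6 : j * q + i ≡ j * q + j [MOD d] := (h2.trans h3).trans h5.symm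
      have h7 : i ≡ j [MOD d] := Nat.ModEq.add_left_cancel' (j * q) h6
      have h8 : i = j := by
        have h := h7
        unfold Nat.ModEq at h
        rw [Nat.mod_eq_of_lt hi, Nat.mod_eq_of_lt hj] at h
        exact h
      exact Fin.ext h8
    · rintro ⟨C, u, rfl, hunil, hureg⟩
      have hu2 : ∀ x y, Cfsg.hermForm n K q ((u.1.1 : Matrix (Fin n) (Fin n) K) *ᵥ x)
          ((u.1.1 : Matrix (Fin n) (Fin n) K) *ᵥ y) = Cfsg.hermForm n K q x y := u.2
      have huun : st hq (u.1.1 : Matrix (Fin n) (Fin n) K) * u.1.1 = 1 := st_of_unitary hq _ hu2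
      obtain ⟨g, hgun, hgU⟩ := conj_of_reg hq hn1 U₀ (u.1.1 : Matrix (Fin n) (Fin n) K)
        hU₀un huun hU₀nil hU₀reg hunil hureg
      have hgdet : frob hq g.det * g.det = 1 := by
        have h := congrArg Matrix.det hgun
        rw [Matrix.det_mul, det_st, Matrix.det_one] at h
        exact h
      obtain ⟨m, hm⟩ := hωgen g.det (by rw [pow_succ]; exact hgdet)
      have hm' : g.det = δ m := by
        rw [hδdef]
        exact hm
      obtain ⟨x, hx⟩ : ∃ x : ℕ, n * x ≡ d [MOD q + 1] := by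
        by_cases hlt : Nat.gcd n (q + 1) < q + 1
        · obtain ⟨x, -, hx⟩ := Nat.exists_mul_mod_eq_gcd hlt
          refine ⟨x, ?_⟩
          rw [hd]
          unfold Nat.ModEq
          rw [hx, Nat.mod_eq_of_lt hlt]
        · refine ⟨0, ?_⟩
          have hle : Nat.gcd n (q + 1) ≤ q + 1 :=
            Nat.le_of_dvd (by omega) (Nat.gcd_dvd_right _ _)
          have heq : d = q + 1 := by
            rw [hd]
            omega
          rw [heq, mul_zero]
          unfold Nat.ModEq
          rw [Nat.mod_self, Nat.zero_mod]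
      have hmdiv : m = d * (m / d) + m % d := (Nat.div_add_mod m d).symm
      obtain ⟨t, ht⟩ : ∃ t, t = m / d := ⟨_, rfl⟩
      have hilt : m % d < d := Nat.mod_lt _ hdpos
      obtain ⟨i, hi⟩ : ∃ i, i = m % d := ⟨_, rfl⟩
      rw [← ht, ← hi] at hmdiv
      rw [← hi] at hilt
      have hE : (q + 1) ∣ q * (x * t) * n + m + i * q := by
        have h1 : q * (n * x) + d ≡ q * d + d [MOD q + 1] := (hx.mul_left q).add_right d
        have h2 : q * d + d ≡ 0 [MOD q + 1] := (Nat.modEq_zero_iff_dvd).mpr ⟨d, by ring⟩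
        have h3 : (q + 1) ∣ q * (n * x) + d := (Nat.modEq_zero_iff_dvd).mp (h1.trans h2)
        have h4 : q * (x * t) * n + m + i * q = t * (q * (n * x) + d) + (q + 1) * i := by
          rw [hmdiv]
          ring
        rw [h4]
        exact dvd_add (Dvd.dvd.mul_left h3 t) (dvd_mul_right _ _)
      refine ⟨⟨i, hilt⟩, ?_⟩
      apply Subtype.ext
      show ConjClasses.mk (F i) = ConjClasses.mk u
      apply hconjSU (F i) u (δ (q * (x * t)) • (g * st hq (D i)))
      · rw [Matrix.det_smul, Fintype.card_fin, Matrix.det_mul, det_st, hDdet, hδfrob, hm', hδpow,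
          hδmul, hδmul]
        apply hδone
        rw [← add_assoc]
        exact hE
      · rw [st_smul, st_mul, st_st, smul_mul_smul_comm, hδnorm, one_smul]
        calc D i * st hq g * (g * st hq (D i)) = D i * (st hq g * g) * st hq (D i) := by
              simp only [Matrix.mul_assoc]
          _ = 1 := by
              rw [hgun, Matrix.mul_one, hDun']
      · rw [hF, Matrix.smul_mul, Matrix.mul_smul]
        congr 1
        calc g * st hq (D i) * (D i * U₀ * st hq (D i))
            = g * (st hq (D i) * D i) * U₀ * st hq (D i) := by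
              simp only [Matrix.mul_assoc]
          _ = (g * U₀) * st hq (D i) := by
              rw [hDun, Matrix.mul_one]
          _ = (u.1.1 : Matrix (Fin n) (Fin n) K) * (g * st hq (D i)) := by
              rw [hgU, Matrix.mul_assoc]
  have hcard : Nat.card (Fin d) = d := by
    rw [Nat.card_eq_fintype_card, Fintype.card_fin]
  exact ((Nat.card_eq_of_bijective _ hbij).symm.trans hcard).trans hd

end Count

end Cfsg.Agent.Helper14.RegUniU
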