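import Mathlib
import Cfsg.Prelude.Def_LieClassical
import Cfsg.Agent.Helper14.RegUniU1
import Cfsg.Agent.S2569
import Cfsg.Agent.S2670
import Cfsg.Agent.S0783

/-!
Semisimple elements of unitary groups: the centraliser in `GU_n(q)` of a semisimple element
contains elements of every determinant of norm one.
-/

set_option autoImplicit false
open scoped Matrix

namespace Cfsg.Agent.Helper14.SemiU

open Cfsg.Agent.Helper8.SULag (QF frob frob_apply frob_frob qf_of_card h_nondeg h_conj
  h_sub_right h_sub_left h_add_left h_add_right h_smul_left h_smul_right h_zero_left h_zero_right)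
open Cfsg.Agent.Helper14.RegUniU (st st_mul st_one st_add st_st hh_adj unitary_of_st
  st_of_unitary det_st)

section Abstract

/-- A minimal nonzero invariant subspace inside a given invariant subspace. -/
theorem exists_min_inv_le {F V : Type*} [Field F] [AddCommGroup V] [Module F V]
    [FiniteDimensional F V] (X : Module.End F V) (Z : Submodule F V) (hZ0 : Z ≠ ⊥)
    (hZinv : ∀ z ∈ Z, X z ∈ Z) :
    ∃ W : Submodule F V, W ≤ Z ∧ W ≠ ⊥ ∧ (∀ w ∈ W, X w ∈ W) ∧
      ∀ U : Submodule F V, U ≤ W → (∀ u ∈ U, X u ∈ U) → U = ⊥ ∨ U = W := by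
  classical
  have hex : ∃ d, ∃ W : Submodule F V, W ≤ Z ∧ W ≠ ⊥ ∧ (∀ w ∈ W, X w ∈ W) ∧
      Module.finrank F W = d := ⟨_, Z, le_rfl, hZ0, hZinv, rfl⟩
  obtain ⟨W, hWZ, hW0, hWinv, hWd⟩ := Nat.find_spec hex
  refine ⟨W, hWZ, hW0, hWinv, fun U hU hUinv => ?_⟩
  by_cases hU0 : U = ⊥
  · exact Or.inl hU0
  · right
    have h1 : Nat.find hex ≤ Module.finrank F U :=
      Nat.find_min' hex ⟨U, hU.trans hWZ, hU0, hUinv, rfl⟩
    exact Submodule.eq_of_le_of_finrank_le hU (by rw [hWd]; exact h1)

/-- An equivariant projection onto `W` along an invariant complement `C`. -/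
theorem exists_proj {F V : Type*} [Field F] [AddCommGroup V] [Module F V]
    [FiniteDimensional F V] (X : Module.End F V) (W C : Submodule F V)
    (hWinv : ∀ w ∈ W, X w ∈ W) (hCinv : ∀ c ∈ C, X c ∈ C) (hdisj : W ⊓ C = ⊥)
    (hdim : Module.finrank F V ≤ Module.finrank F W + Module.finrank F C) :
    ∃ π : Module.End F V, (∀ v, π v ∈ W) ∧ (∀ w ∈ W, π w = w) ∧ X * π = π * X ∧
      (∀ v, v - π v ∈ C) ∧ (∀ c ∈ C, π c = 0) := by
  have hsup : W ⊔ C = ⊤ := by
    apply Submodule.eq_top_of_finrank_eq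
    have h1 := Submodule.finrank_sup_add_finrank_inf_eq W C
    rw [hdisj, finrank_bot, add_zero] at h1
    have h2 := Submodule.finrank_le (W ⊔ C)
    omega
  have hcompl : IsCompl W C := ⟨disjoint_iff.2 hdisj, codisjoint_iff.2 hsup⟩
  obtain ⟨P, hP⟩ : ∃ P : V →ₗ[F] W, P = Submodule.linearProjOfIsCompl W C hcompl := ⟨_, rfl⟩
  have hPW : ∀ w : W, P (w : V) = w := fun w => by
    rw [hP]; exact Submodule.linearProjOfIsCompl_apply_left hcompl w
  have hP0 : ∀ v, P v = 0 ↔ v ∈ C := fun v => by
    rw [hP]; exact Submodule.linearProjOfIsCompl_apply_eq_zero_iff hcompl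
  have hres : ∀ v, v - (P v : V) ∈ C := by
    intro v
    rw [← hP0, map_sub, hPW, sub_self]
  refine ⟨W.subtype ∘ₗ P, fun v => (P v).2, fun w hw => ?_, ?_, hres, fun c hc => ?_⟩
  · exact congrArg Subtype.val (hPW ⟨w, hw⟩)
  · apply LinearMap.ext
    intro v
    show X ((P v : W) : V) = ((P (X v) : W) : V)
    have h1 : X v = X (P v : V) + X (v - (P v : V)) := by
      rw [← map_add]; congr 1; abel
    have h2 : P (X (P v : V)) = ⟨X (P v : V), hWinv _ (P v).2⟩ :=
      hPW ⟨X (P v : V), hWinv _ (P v).2⟩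
    have h3 : P (X (v - (P v : V))) = 0 := (hP0 _).2 (hCinv _ (hres v))
    rw [h1, map_add, h2, h3, add_zero]
  · show ((P c : W) : V) = 0
    rw [(hP0 c).2 hc]
    rfl

/-- For a semisimple `X`, an irreducible invariant subspace `W` and an equivariant projection
onto it, there are centralising maps `1 + a` of every nonzero determinant with `a` supported on
`W`; such `a` commute with all centralising maps supported on `W`. -/
theorem exists_cent_det' {F V : Type*} [Field F] [Fintype F] [AddCommGroup V] [Module F V]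
    [Finite V] (X : Module.End F V) (W : Submodule F V) (hW0 : W ≠ ⊥)
    (hWinv : ∀ w ∈ W, X w ∈ W)
    (hWmin : ∀ U : Submodule F V, U ≤ W → (∀ u ∈ U, X u ∈ U) → U = ⊥ ∨ U = W)
    (π : Module.End F V) (hπW : ∀ v, π v ∈ W) (hπid : ∀ w ∈ W, π w = w) (hπX : X * π = π * X)
    (δ : F) (hδ : δ ≠ 0) :
    ∃ a : Module.End F V, X * a = a * X ∧ (∀ v, a v ∈ W) ∧ (∀ v, π v = 0 → a v = 0) ∧
      LinearMap.det (1 + a) = δ ∧
      ∀ a' : Module.End F V, X * a' = a' * X → (∀ v, a' v ∈ W) → (∀ v, π v = 0 → a' v = 0) →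
        a * a' = a' * a := by
  classical
  obtain ⟨XW, hXW⟩ : ∃ XW : Module.End F W, ∀ w : W, (XW w : V) = X w :=
    ⟨X.restrict hWinv, fun w => rfl⟩
  have hirr : ∀ U : Submodule F W, (∀ u ∈ U, XW u ∈ U) → U = ⊥ ∨ U = ⊤ := by
    intro U hU
    have hU' : ∀ u ∈ U.map W.subtype, X u ∈ U.map W.subtype := by
      rintro u ⟨u', hu', rfl⟩
      exact ⟨XW u', hU u' hu', hXW u'⟩
    have hle : U.map W.subtype ≤ W := by
      rintro u ⟨u', _, rfl⟩
      exact u'.2
    rcases hWmin _ hle hU' with h | h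
    · left
      rw [eq_bot_iff]
      intro u hu
      have h1 : (u : V) ∈ U.map W.subtype := ⟨u, hu, rfl⟩
      rw [h] at h1
      rw [Submodule.mem_bot]
      exact Subtype.ext ((Submodule.mem_bot F).mp h1)
    · right
      rw [eq_top_iff]
      intro w _
      have h1 : (w : V) ∈ U.map W.subtype := by rw [h]; exact w.2
      obtain ⟨u', hu', hu'w⟩ := h1
      have : u' = w := Subtype.ext hu'w
      rw [← this]; exact hu'
  obtain ⟨w₀, hw₀⟩ : ∃ w₀ : W, w₀ ≠ 0 := by
    by_contra hcon
    push_neg at hcon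
    apply hW0
    rw [eq_bot_iff]
    intro w hw
    have := hcon ⟨w, hw⟩
    rw [Submodule.mem_bot]
    exact congrArg Subtype.val this
  obtain ⟨D, hD⟩ : ∃ D : Subalgebra F (Module.End F W), D = Subalgebra.centralizer F {XW} :=
    ⟨_, rfl⟩
  have hDmem : ∀ d : Module.End F W, d ∈ D ↔ XW * d = d * XW := by
    intro d; rw [hD, Subalgebra.mem_centralizer_iff]; simp
  have hXWD : XW ∈ D := (hDmem XW).mpr rfl
  have hinj : ∀ d : Module.End F W, d ∈ D → d ≠ 0 → Function.Injective d := by
    intro d hd hd0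
    rw [← LinearMap.ker_eq_bot]
    rcases hirr (LinearMap.ker d) (fun u hu => by
        rw [LinearMap.mem_ker] at hu ⊢
        have h1 : d (XW u) = XW (d u) := by
          have := congrArg (fun f : Module.End F W => f u) ((hDmem d).mp hd)
          exact this.symm
        rw [h1, hu, map_zero]) with h | h
    · exact h
    · exact absurd (LinearMap.ker_eq_top.mp h) hd0
  have hunit : ∀ d : Module.End F W, d ∈ D → d ≠ 0 →
      ∃ u : (Module.End F W)ˣ, (u : Module.End F W) = d := by
    intro d hd hd0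
    have h1 : IsUnit d := by
      rw [LinearMap.isUnit_iff_ker_eq_bot, LinearMap.ker_eq_bot]
      exact hinj d hd hd0
    obtain ⟨u, hu⟩ := h1
    exact ⟨u, hu⟩
  have hinvmem : ∀ u : (Module.End F W)ˣ, (u : Module.End F W) ∈ D →
      ((u⁻¹ : (Module.End F W)ˣ) : Module.End F W) ∈ D := by
    intro u hu
    rw [hDmem] at hu ⊢
    calc XW * ((u⁻¹ : (Module.End F W)ˣ) : Module.End F W)
        = ((u⁻¹ : (Module.End F W)ˣ) : Module.End F W) *
            ((u : Module.End F W) * XW) *
            ((u⁻¹ : (Module.End F W)ˣ) : Module.End F W) := by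
          rw [← mul_assoc, Units.inv_mul, one_mul]
      _ = ((u⁻¹ : (Module.End F W)ˣ) : Module.End F W) *
            (XW * (u : Module.End F W)) *
            ((u⁻¹ : (Module.End F W)ˣ) : Module.End F W) := by rw [hu]
      _ = ((u⁻¹ : (Module.End F W)ˣ) : Module.End F W) * XW := by
          rw [mul_assoc, mul_assoc, Units.mul_inv, mul_one]
  have h01 : (0 : Module.End F W) ≠ 1 := by
    intro h
    have := congrArg (fun f : Module.End F W => f w₀) h
    exact hw₀ this.symm
  let ev : D →ₗ[F] W :=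
    { toFun := fun d => (d : Module.End F W) w₀
      map_add' := fun a b => rfl
      map_smul' := fun c a => rfl }
  have hevinj : Function.Injective ev := by
    intro a b hab
    by_contra hne
    have hsub : ((a - b : D) : Module.End F W) ≠ 0 := by
      intro h0
      apply hne
      apply Subtype.ext
      have : (a : Module.End F W) - (b : Module.End F W) = 0 := h0
      exact sub_eq_zero.mp this
    have h1 := hinj _ (a - b).2 hsub
    have h2 : ((a - b : D) : Module.End F W) w₀ = ((a - b : D) : Module.End F W) 0 := by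
      rw [map_zero]
      show ((a : Module.End F W) - (b : Module.End F W)) w₀ = 0
      rw [LinearMap.sub_apply, sub_eq_zero]; exact hab
    exact hw₀ (h1 h2)
  have hevsurj : Function.Surjective ev := by
    rw [← LinearMap.range_eq_top]
    rcases hirr (LinearMap.range ev) (by
        rintro u ⟨d, rfl⟩
        exact ⟨⟨XW * d.1, D.mul_mem hXWD d.2⟩, rfl⟩) with h | h
    · exfalso
      have h1 : w₀ ∈ LinearMap.range ev := ⟨1, rfl⟩
      rw [h] at h1
      exact hw₀ ((Submodule.mem_bot F).mp h1)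
    · exact h
  have hDunit : ∀ a : D, IsUnit a ∨ a = 0 := by
    intro a
    by_cases ha : a = 0
    · exact Or.inr ha
    · left
      have ha' : (a : Module.End F W) ≠ 0 := fun h => ha (Subtype.ext h)
      obtain ⟨u, hu⟩ := hunit a.1 a.2 ha'
      have hmem := hinvmem u (by rw [hu]; exact a.2)
      refine ⟨⟨a, ⟨_, hmem⟩, ?_, ?_⟩, rfl⟩
      · apply Subtype.ext
        show (a : Module.End F W) * ((u⁻¹ : (Module.End F W)ˣ) : Module.End F W) = 1
        rw [← hu, Units.mul_inv]
      · apply Subtype.ext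
        show ((u⁻¹ : (Module.End F W)ˣ) : Module.End F W) * (a : Module.End F W) = 1
        rw [← hu, Units.inv_mul]
  haveI : Finite (Module.End F W) :=
    Finite.of_injective (fun f : Module.End F W => (f : W → W)) DFunLike.coe_injective
  haveI : Nontrivial D := ⟨⟨0, 1, fun h => h01 (congrArg Subtype.val h)⟩⟩
  letI : DivisionRing D := DivisionRing.ofIsUnitOrEqZero hDunit
  letI : Field D := littleWedderburn D
  let evE : D ≃ₗ[F] W := LinearEquiv.ofBijective ev ⟨hevinj, hevsurj⟩
  have hevE : ∀ d : D, evE d = (d : Module.End F W) w₀ := fun d => rfl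
  have hdet : ∀ d : D, LinearMap.det (d : Module.End F W) = Algebra.norm F d := by
    intro d
    rw [Algebra.norm_apply, ← LinearMap.det_conj (Algebra.lmul F D d) evE]
    congr 1
    apply LinearMap.ext
    intro w
    show (d : Module.End F W) w = evE (d * evE.symm w)
    rw [hevE]
    have h1 : ((d * evE.symm w : D) : Module.End F W) w₀
        = (d : Module.End F W) (((evE.symm w : D) : Module.End F W) w₀) := rfl
    rw [h1, ← hevE, LinearEquiv.apply_symm_apply]
  obtain ⟨d, hd⟩ := FiniteField.norm_surjective F D δ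
  have hdd : LinearMap.det (d : Module.End F W) = δ := by rw [hdet, hd]
  have hdD : XW * (d : Module.End F W) = (d : Module.End F W) * XW := (hDmem _).mp d.2
  have hDcomm : ∀ d' : Module.End F W, d' ∈ D →
      (d : Module.End F W) * d' = d' * (d : Module.End F W) := by
    intro d' hd'
    have h1 : d * (⟨d', hd'⟩ : D) = ⟨d', hd'⟩ * d := mul_comm _ _
    exact congrArg Subtype.val h1
  obtain ⟨W', hW'⟩ : ∃ W' : Submodule F V, W' = LinearMap.ker π := ⟨_, rfl⟩
  have hcompl : IsCompl W W' := by
    constructor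
    · rw [Submodule.disjoint_def]
      intro x hx hx'
      rw [hW', LinearMap.mem_ker] at hx'
      rw [← hπid x hx, hx']
    · rw [codisjoint_iff, eq_top_iff]
      intro v _
      rw [Submodule.mem_sup]
      refine ⟨π v, hπW v, v - π v, ?_, by abel⟩
      rw [hW', LinearMap.mem_ker, map_sub, hπid _ (hπW v), sub_self]
  let πW : V →ₗ[F] W := π.codRestrict W hπW
  have hπWapp : ∀ v, (πW v : V) = π v := fun v => rfl
  let a : Module.End F V := W.subtype ∘ₗ ((d : Module.End F W) - 1) ∘ₗ πW
  have haapp : ∀ v, a v = ((((d : Module.End F W) - 1) (πW v) : W) : V) := fun v => rfl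
  let c : Module.End F V := 1 + a
  have hcapp : ∀ v, c v = v + (((d : Module.End F W) (πW v) : W) : V) - π v := by
    intro v
    show v + ((((d : Module.End F W) - 1) (πW v) : W) : V) = _
    rw [LinearMap.sub_apply, Submodule.coe_sub]
    show v + ((((d : Module.End F W) (πW v) : W) : V) - (πW v : V)) = _
    rw [hπWapp]; abel
  have hπWX : ∀ v, πW (X v) = XW (πW v) := by
    intro v
    apply Subtype.ext
    rw [hXW, hπWapp, hπWapp]
    have := congrArg (fun f : Module.End F V => f v) hπX
    exact this.symm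
  have hcX : X * c = c * X := by
    apply LinearMap.ext
    intro v
    show X (c v) = c (X v)
    rw [hcapp, hcapp, map_sub, map_add, hπWX]
    have h1 : X (((d : Module.End F W) (πW v) : W) : V)
        = (((d : Module.End F W) (XW (πW v)) : W) : V) := by
      rw [← hXW]
      have := congrArg (fun f : Module.End F W => (f (πW v) : V)) hdD
      exact this
    have h2 : X (π v) = π (X v) := by
      have := congrArg (fun f : Module.End F V => f v) hπX
      exact this
    rw [h1, h2]
  refine ⟨a, ?_, ?_, ?_, ?_, ?_⟩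
  · have h1 : X * (1 + a) = (1 + a) * X := hcX
    rw [mul_add, add_mul, mul_one, one_mul] at h1
    exact add_left_cancel h1
  · intro v
    rw [haapp]
    exact (((d : Module.End F W) - 1) (πW v)).2
  · intro v hv
    have h1 : πW v = 0 := Subtype.ext hv
    rw [haapp, h1, map_zero]
    rfl
  · let e := Submodule.prodEquivOfIsCompl W W' hcompl
    have he : ∀ (w : W) (w' : W'), e (w, w') = (w : V) + (w' : V) := fun w w' => by
      simp [e, Submodule.coe_prodEquivOfIsCompl']
    have hce : ∀ y : W × W',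
        c (e y) = e (LinearMap.prodMap (d : Module.End F W) LinearMap.id y) := by
      rintro ⟨w, w'⟩
      rw [LinearMap.prodMap_apply, he, he, hcapp]
      have h1 : π ((w : V) + (w' : V)) = w := by
        rw [map_add, hπid _ w.2]
        have : (w' : V) ∈ LinearMap.ker π := by rw [← hW']; exact w'.2
        rw [LinearMap.mem_ker.mp this, add_zero]
      have h2 : πW ((w : V) + (w' : V)) = w := Subtype.ext (by rw [hπWapp, h1])
      rw [h1, h2]
      simp only [LinearMap.id_coe, id_eq]
      abel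
    have hc : c = (e : (W × W') →ₗ[F] V) ∘ₗ
        (LinearMap.prodMap (d : Module.End F W) LinearMap.id) ∘ₗ
          (e.symm : V →ₗ[F] (W × W')) := by
      apply LinearMap.ext
      intro v
      show c v = e (LinearMap.prodMap (d : Module.End F W) LinearMap.id (e.symm v))
      rw [← hce, LinearEquiv.apply_symm_apply]
    show LinearMap.det c = δ
    rw [hc, LinearMap.det_conj, LinearMap.det_prodMap, hdd, LinearMap.det_id, mul_one]
  · intro a' ha'X ha'W ha'π
    obtain ⟨aW, haW⟩ : ∃ aW : Module.End F W, ∀ w : W, (aW w : V) = a' w :=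
      ⟨a'.restrict (fun w _ => ha'W w), fun w => rfl⟩
    have haWD : aW ∈ D := by
      rw [hDmem]
      apply LinearMap.ext
      intro w
      apply Subtype.ext
      show (XW (aW w) : V) = (aW (XW w) : V)
      rw [hXW, haW, haW, hXW]
      have := congrArg (fun f : Module.End F V => f (w : V)) ha'X
      exact this
    have hcommD := hDcomm aW haWD
    have hπz : ∀ v, a' v = a' (π v) := by
      intro v
      have h1 : π (v - π v) = 0 := by rw [map_sub, hπid _ (hπW v), sub_self]
      have h2 := ha'π _ h1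
      rw [map_sub, sub_eq_zero] at h2
      exact h2
    apply LinearMap.ext
    intro v
    show a (a' v) = a' (a v)
    have h3 : πW (a' v) = aW (πW v) := by
      apply Subtype.ext
      rw [hπWapp, hπid _ (ha'W v), haW, hπWapp]
      exact hπz v
    have h6 : (d : Module.End F W) (aW (πW v)) = aW ((d : Module.End F W) (πW v)) := by
      have := congrArg (fun f : Module.End F W => f (πW v)) hcommD
      exact this
    rw [haapp, haapp, h3, ← haW]
    congr 1
    rw [LinearMap.sub_apply, LinearMap.sub_apply, map_sub, h6]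
    rfl

end Abstract

section Herm

variable {K : Type*} [Field K] {n q : ℕ}

/-- the left orthogonal complement for the Hermitian form -/
def perp (n q : ℕ) (W : Submodule K (Fin n → K)) : Submodule K (Fin n → K) where
  carrier := {u | ∀ w ∈ W, Cfsg.hermForm n K q u w = 0}
  add_mem' := by
    intro a b ha hb w hw
    rw [h_add_left, ha w hw, hb w hw, add_zero]
  zero_mem' := by
    intro w _
    exact h_zero_left w
  smul_mem' := by
    intro c u hu w hw
    rw [h_smul_left, hu w hw, mul_zero]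

theorem nondeg_right (hq : QF K q) (z : Fin n → K)
    (h : ∀ x, Cfsg.hermForm n K q x z = 0) : z = 0 := by
  apply h_nondeg hq
  intro y
  rw [← h_conj hq y z, h y, map_zero]

theorem h_symm_zero (hq : QF K q) {x y : Fin n → K} (h : Cfsg.hermForm n K q x y = 0) :
    Cfsg.hermForm n K q y x = 0 := by
  rw [← h_conj hq x y, h, map_zero]

theorem finrank_perp_ge (hq : QF K q) (W : Submodule K (Fin n → K)) :
    n ≤ Module.finrank K W + Module.finrank K (perp n q W) := by
  classical
  obtain ⟨k, hk⟩ : ∃ k, k = Module.finrank K W := ⟨_, rfl⟩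
  let b : Module.Basis (Fin k) K W := Module.finBasisOfFinrankEq K W hk.symm
  let Ψ : (Fin n → K) →ₗ[K] (Fin k → K) :=
    { toFun := fun u j => Cfsg.hermForm n K q u (b j : Fin n → K)
      map_add' := fun x y => by funext j; exact h_add_left x y _
      map_smul' := fun c x => by funext j; exact h_smul_left c x _ }
  have hker : LinearMap.ker Ψ ≤ perp n q W := by
    intro u hu w hw
    have hu' : ∀ j, Cfsg.hermForm n K q u (b j : Fin n → K) = 0 :=
      fun j => congrFun (LinearMap.mem_ker.1 hu) j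
    have hQ : ∀ (s : Finset (Fin k)) (c : Fin k → K),
        Cfsg.hermForm n K q u (∑ j ∈ s, c j • ((b j : W) : Fin n → K)) = 0 := by
      intro s c
      induction s using Finset.induction_on with
      | empty => rw [Finset.sum_empty]; exact h_zero_right hq u
      | insert j s hj ih =>
        rw [Finset.sum_insert hj, h_add_right hq, h_smul_right hq, hu' j, mul_zero, ih,
          add_zero]
    have h2 : (∑ j, b.repr ⟨w, hw⟩ j • b j : W) = ⟨w, hw⟩ := b.sum_repr _
    have h3 := congrArg Subtype.val h2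
    rw [Submodule.coe_sum] at h3
    have h4 : w = ∑ j, b.repr ⟨w, hw⟩ j • ((b j : W) : Fin n → K) := h3.symm
    rw [h4]
    exact hQ Finset.univ _
  have h1 := LinearMap.finrank_range_add_finrank_ker Ψ
  rw [Module.finrank_fin_fun] at h1
  have h2 : Module.finrank K (LinearMap.range Ψ) ≤ k := by
    have := Submodule.finrank_le (LinearMap.range Ψ)
    rw [Module.finrank_fin_fun] at this
    exact this
  have h3 : Module.finrank K (LinearMap.ker Ψ) ≤ Module.finrank K (perp n q W) :=
    Submodule.finrank_mono hker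
  omega

theorem perp_inv (hq : QF K q) (X : Module.End K (Fin n → K)) (N : ℕ) (hN : X ^ N = 1)
    (hN0 : N ≠ 0)
    (hX : ∀ x y, Cfsg.hermForm n K q (X x) (X y) = Cfsg.hermForm n K q x y)
    (W : Submodule K (Fin n → K)) (hW : ∀ w ∈ W, X w ∈ W) :
    ∀ u ∈ perp n q W, X u ∈ perp n q W := by
  have hpow : ∀ k : ℕ, ∀ v ∈ W, (X ^ k) v ∈ W := by
    intro k
    induction k with
    | zero => intro v hv; simpa using hv
    | succ k ih => intro v hv; rw [pow_succ, Module.End.mul_apply]; exact ih _ (hW v hv)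
  intro u hu w hw
  have h1 : X ((X ^ (N - 1)) w) = w := by
    have h2 : X * X ^ (N - 1) = 1 := by
      rw [← pow_succ', Nat.sub_add_cancel (Nat.pos_of_ne_zero hN0), hN]
    have := congrArg (fun f : Module.End K (Fin n → K) => f w) h2
    exact this
  have h3 : Cfsg.hermForm n K q (X u) (X ((X ^ (N - 1)) w)) = 0 := by
    rw [hX]
    exact hu _ (hpow (N - 1) w hw)
  rw [h1] at h3
  exact h3

/-- The block decomposition needed for the determinant lemma. -/
theorem exists_block (hq : QF K q) [Finite K] (hn : 0 < n) (X : Module.End K (Fin n → K))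
    (N : ℕ) (hN : X ^ N = 1) (hNK : (N : K) ≠ 0)
    (hX : ∀ x y, Cfsg.hermForm n K q (X x) (X y) = Cfsg.hermForm n K q x y) :
    ∃ (W : Submodule K (Fin n → K)) (π : Module.End K (Fin n → K)),
      W ≠ ⊥ ∧ (∀ w ∈ W, X w ∈ W) ∧
      (∀ U : Submodule K (Fin n → K), U ≤ W → (∀ u ∈ U, X u ∈ U) → U = ⊥ ∨ U = W) ∧
      (∀ v, π v ∈ W) ∧ (∀ w ∈ W, π w = w) ∧ X * π = π * X ∧
      ((∀ v, ∀ w ∈ W, Cfsg.hermForm n K q (v - π v) w = 0) ∨
       ((∀ w ∈ W, ∀ w' ∈ W, Cfsg.hermForm n K q w w' = 0) ∧
        ∀ z, (∀ v, Cfsg.hermForm n K q z (v - π v) = 0) → π z = 0)) := by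
  classical
  haveI : Nonempty (Fin n) := ⟨⟨0, hn⟩⟩
  have hN0 : N ≠ 0 := by rintro rfl; simp at hNK
  have hfr : Module.finrank K (Fin n → K) = n := Module.finrank_fin_fun K
  have hnd : ∀ W : Submodule K (Fin n → K), (∀ w ∈ W, X w ∈ W) →
      W ⊓ perp n q W = ⊥ →
      ∃ π : Module.End K (Fin n → K), (∀ v, π v ∈ W) ∧ (∀ w ∈ W, π w = w) ∧ X * π = π * X ∧
        (∀ v, ∀ w ∈ W, Cfsg.hermForm n K q (v - π v) w = 0) := by
    intro W hWinv hdisj
    obtain ⟨π, h1, h2, h3, h4, -⟩ := exists_proj X W (perp n q W) hWinv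
      (perp_inv hq X N hN hN0 hX W hWinv) hdisj (by rw [hfr]; exact finrank_perp_ge hq W)
    exact ⟨π, h1, h2, h3, fun v w hw => h4 v w hw⟩
  have hrad : ∀ W : Submodule K (Fin n → K), (∀ w ∈ W, X w ∈ W) →
      (∀ U : Submodule K (Fin n → K), U ≤ W → (∀ u ∈ U, X u ∈ U) → U = ⊥ ∨ U = W) →
      W ⊓ perp n q W = ⊥ ∨ W ≤ perp n q W := by
    intro W hWinv hWmin
    rcases hWmin (W ⊓ perp n q W) inf_le_left (fun u hu =>
      ⟨hWinv u hu.1, perp_inv hq X N hN hN0 hX W hWinv u hu.2⟩) with h | h
    · exact Or.inl h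
    · exact Or.inr (inf_eq_left.1 h)
  obtain ⟨W₁, -, hW0, hWinv, hWmin⟩ :=
    exists_min_inv_le X ⊤ top_ne_bot (fun _ _ => Submodule.mem_top)
  rcases hrad W₁ hWinv hWmin with hd | hiso
  · obtain ⟨π, h1, h2, h3, h4⟩ := hnd W₁ hWinv hd
    exact ⟨W₁, π, hW0, hWinv, hWmin, h1, h2, h3, Or.inl h4⟩
  obtain ⟨π₁, hπ₁P, hπ₁id, hπ₁X⟩ := Cfsg.Agent.S2569.maschke X N hN hNK (perp n q W₁)
    (perp_inv hq X N hN hN0 hX W₁ hWinv)
  obtain ⟨Z, hZ⟩ : ∃ Z : Submodule K (Fin n → K), Z = LinearMap.ker π₁ := ⟨_, rfl⟩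
  have hZinv : ∀ z ∈ Z, X z ∈ Z := by
    intro z hz
    rw [hZ, LinearMap.mem_ker] at hz ⊢
    have h1 : π₁ (X z) = X (π₁ z) := by
      have := congrArg (fun f : Module.End K (Fin n → K) => f z) hπ₁X
      exact this.symm
    rw [h1, hz, map_zero]
  have hZP : ∀ z ∈ Z, z ∈ perp n q W₁ → z = 0 := by
    intro z hz hzP
    rw [hZ, LinearMap.mem_ker] at hz
    have h1 := hπ₁id z hzP
    rw [hz] at h1
    exact h1.symm
  have hZ0 : Z ≠ ⊥ := by
    intro hbot
    apply hW0
    rw [eq_bot_iff]
    intro w hw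
    rw [Submodule.mem_bot]
    apply nondeg_right hq
    intro v
    have h1 : v - π₁ v ∈ Z := by
      rw [hZ, LinearMap.mem_ker, map_sub, hπ₁id _ (hπ₁P v), sub_self]
    rw [hbot, Submodule.mem_bot, sub_eq_zero] at h1
    have h2 := hπ₁P v w hw
    rw [← h1] at h2
    exact h2
  obtain ⟨Z₁, hZ₁Z, hZ₁0, hZ₁inv, hZ₁min⟩ := exists_min_inv_le X Z hZ0 hZinv
  rcases hrad Z₁ hZ₁inv hZ₁min with hd | hiso₁
  · obtain ⟨π, h1, h2, h3, h4⟩ := hnd Z₁ hZ₁inv hd
    exact ⟨Z₁, π, hZ₁0, hZ₁inv, hZ₁min, h1, h2, h3, Or.inl h4⟩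
  have hdisj1 : Z₁ ⊓ perp n q W₁ = ⊥ := by
    rw [eq_bot_iff]
    intro z hz
    rw [Submodule.mem_bot]
    exact hZP z (hZ₁Z hz.1) hz.2
  have hdisj2 : W₁ ⊓ perp n q Z₁ = ⊥ := by
    rcases hWmin (W₁ ⊓ perp n q Z₁) inf_le_left (fun u hu =>
      ⟨hWinv u hu.1, perp_inv hq X N hN hN0 hX Z₁ hZ₁inv u hu.2⟩) with h | h
    · exact h
    · exfalso
      apply hZ₁0
      rw [eq_bot_iff]
      intro z hz
      rw [Submodule.mem_bot]
      apply hZP z (hZ₁Z hz)
      intro w hw
      have hw' : w ∈ W₁ ⊓ perp n q Z₁ := by rw [h]; exact hw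
      exact h_symm_zero hq (hw'.2 z hz)
  have hdim1 : Module.finrank K Z₁ ≤ Module.finrank K W₁ := by
    have h1 := Submodule.finrank_sup_add_finrank_inf_eq Z₁ (perp n q W₁)
    rw [hdisj1, finrank_bot, add_zero] at h1
    have h2 := Submodule.finrank_le (Z₁ ⊔ perp n q W₁)
    rw [hfr] at h2
    have h3 := finrank_perp_ge hq W₁
    omega
  obtain ⟨π, h1, h2, h3, h4, h5⟩ := exists_proj X W₁ (perp n q Z₁) hWinv
    (perp_inv hq X N hN hN0 hX Z₁ hZ₁inv) hdisj2 (by
      rw [hfr]
      have := finrank_perp_ge hq Z₁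
      omega)
  refine ⟨W₁, π, hW0, hWinv, hWmin, h1, h2, h3,
    Or.inr ⟨fun w hw w' hw' => hiso hw w' hw', ?_⟩⟩
  intro z hz
  apply h5
  intro z₁ hz₁
  have h6 := hz z₁
  rw [h5 z₁ (hiso₁ hz₁), sub_zero] at h6
  exact h6

/-- A unitary matrix commuting with a semisimple unitary matrix with prescribed determinant
`b⁻¹ b^q`. -/
theorem exists_cent_gu [Fintype K] (hq : QF K q) (hn : 0 < n) (X : Matrix (Fin n) (Fin n) K)
    (hXu : st hq X * X = 1) (N : ℕ) (hN : X ^ N = 1) (hNK : (N : K) ≠ 0) (b : K)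
    (hb : b ≠ 0) :
    ∃ c : Matrix (Fin n) (Fin n) K, st hq c * c = 1 ∧ c * X = X * c ∧
      c.det = b⁻¹ * frob hq b := by
  classical
  obtain ⟨XL, hXL⟩ : ∃ XL : Module.End K (Fin n → K), XL = Matrix.toLin' X := ⟨_, rfl⟩
  have hXLN : XL ^ N = 1 := by
    have h1 : Matrix.toLin' (X ^ N) = Matrix.toLin' (1 : Matrix (Fin n) (Fin n) K) := by
      rw [hN]
    rw [Matrix.toLin'_pow, Matrix.toLin'_one] at h1
    rw [hXL]
    exact h1
  have hXLu : ∀ x y, Cfsg.hermForm n K q (XL x) (XL y) = Cfsg.hermForm n K q x y := by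
    intro x y
    rw [hXL, Matrix.toLin'_apply, Matrix.toLin'_apply]
    exact unitary_of_st hq X hXu x y
  obtain ⟨W, π, hW0, hWinv, hWmin, hπW, hπid, hπX, hcase⟩ :=
    exists_block hq hn XL N hXLN hNK hXLu
  obtain ⟨a, haX, haW, haπ, hdet, hacomm⟩ :=
    exists_cent_det' XL W hW0 hWinv hWmin π hπW hπid hπX b hb
  obtain ⟨A, hA⟩ : ∃ A : Matrix (Fin n) (Fin n) K, A = LinearMap.toMatrix' a := ⟨_, rfl⟩
  have hAv : ∀ v, A *ᵥ v = a v := by
    intro v
    rw [hA, ← Matrix.toLin'_apply, Matrix.toLin'_toMatrix']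
  have hadj : ∀ x y,
      Cfsg.hermForm n K q (a x) y = Cfsg.hermForm n K q x (st hq A *ᵥ y) := by
    intro x y
    rw [← hAv]
    exact hh_adj hq A x y
  have hXLm : LinearMap.toMatrix' XL = X := by rw [hXL, LinearMap.toMatrix'_toLin']
  have hAX : A * X = X * A := by
    have h1 := congrArg LinearMap.toMatrix' haX
    rw [LinearMap.toMatrix'_mul, LinearMap.toMatrix'_mul, hXLm, ← hA] at h1
    exact h1.symm
  have hXst : X * st hq X = 1 := mul_eq_one_comm.1 hXu
  have hstcomm : ∀ M : Matrix (Fin n) (Fin n) K, M * X = X * M →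
      st hq M * X = X * st hq M := by
    intro M hM
    have h1 : st hq X * st hq M = st hq M * st hq X := by
      rw [← st_mul, ← st_mul, hM]
    calc st hq M * X = (X * st hq X) * st hq M * X := by rw [hXst, Matrix.one_mul]
      _ = X * (st hq X * st hq M) * X := by simp only [Matrix.mul_assoc]
      _ = X * (st hq M * st hq X) * X := by rw [h1]
      _ = X * st hq M * (st hq X * X) := by simp only [Matrix.mul_assoc]
      _ = X * st hq M := by rw [hXu, Matrix.mul_one]
  have hnorm : A * st hq A = st hq A * A := by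
    rcases hcase with ha | ⟨hiso, hco⟩
    · obtain ⟨a', ha'⟩ : ∃ a' : Module.End K (Fin n → K), a' = Matrix.toLin' (st hq A) :=
        ⟨_, rfl⟩
      have ha'v : ∀ v, a' v = st hq A *ᵥ v := fun v => by rw [ha', Matrix.toLin'_apply]
      have hadj' : ∀ x y,
          Cfsg.hermForm n K q (a x) y = Cfsg.hermForm n K q x (a' y) := by
        intro x y
        rw [ha'v]
        exact hadj x y
      have ha'm : LinearMap.toMatrix' a' = st hq A := by
        rw [ha', LinearMap.toMatrix'_toLin']
      have h1 : XL * a' = a' * XL := by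
        apply LinearMap.toMatrix'.injective
        rw [LinearMap.toMatrix'_mul, LinearMap.toMatrix'_mul, hXLm, ha'm]
        exact (hstcomm A hAX).symm
      have hker : ∀ c, π c = 0 → ∀ v, Cfsg.hermForm n K q (a' v) c = 0 := by
        intro c hc v
        apply h_symm_zero hq
        rw [← hadj', haπ c hc]
        exact h_zero_left _
      have h2 : ∀ v, a' v ∈ W := by
        intro v
        have hu : a' v - π (a' v) = 0 := by
          apply h_nondeg hq
          intro y
          have hπy : π (y - π y) = 0 := by rw [map_sub, hπid _ (hπW y), sub_self]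
          have e1 : Cfsg.hermForm n K q (a' v - π (a' v)) (π y) = 0 :=
            ha (a' v) (π y) (hπW y)
          have e2 : Cfsg.hermForm n K q (a' v - π (a' v)) (y - π y) = 0 := by
            rw [h_sub_left, hker _ hπy v, zero_sub, neg_eq_zero]
            apply h_symm_zero hq
            exact ha y (π (a' v)) (hπW _)
          have hy : y = π y + (y - π y) := by abel
          rw [hy, h_add_right hq, e1, e2, add_zero]
        rw [sub_eq_zero] at hu
        rw [hu]
        exact hπW _
      have h3 : ∀ v, π v = 0 → a' v = 0 := by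
        intro v hv
        apply h_nondeg hq
        intro y
        apply h_symm_zero hq
        rw [← hadj']
        apply h_symm_zero hq
        have h4 := ha v (a y) (haW y)
        rw [hv, sub_zero] at h4
        exact h4
      have h5 := hacomm a' h1 h2 h3
      have h6 := congrArg LinearMap.toMatrix' h5
      rw [LinearMap.toMatrix'_mul, LinearMap.toMatrix'_mul, ha'm, ← hA] at h6
      exact h6
    · have h1 : st hq A * A = 0 := by
        apply Matrix.toLin'.injective
        apply LinearMap.ext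
        intro y
        rw [map_zero, LinearMap.zero_apply, Matrix.toLin'_apply]
        apply nondeg_right hq
        intro x
        rw [← Matrix.mulVec_mulVec, ← hadj, hAv]
        exact hiso _ (haW x) _ (haW y)
      have h2 : A * st hq A = 0 := by
        apply Matrix.toLin'.injective
        apply LinearMap.ext
        intro y
        rw [map_zero, LinearMap.zero_apply, Matrix.toLin'_apply, ← Matrix.mulVec_mulVec, hAv]
        apply haπ
        apply hco
        intro v
        apply h_symm_zero hq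
        rw [← hadj]
        have hπv : π (v - π v) = 0 := by rw [map_sub, hπid _ (hπW v), sub_self]
        rw [haπ _ hπv]
        exact h_zero_left _
      rw [h1, h2]
  obtain ⟨E, hE⟩ : ∃ E : Matrix (Fin n) (Fin n) K, E = 1 + A := ⟨_, rfl⟩
  have hEdet : E.det = b := by
    have h1 : LinearMap.toMatrix' (1 + a) = 1 + A := by
      rw [map_add, hA]
      congr 1
      exact LinearMap.toMatrix'_one
    rw [hE, ← h1, LinearMap.det_toMatrix', hdet]
  have hEX : E * X = X * E := by
    rw [hE, Matrix.add_mul, Matrix.mul_add, Matrix.one_mul, Matrix.mul_one, hAX]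
  have hEn : E * st hq E = st hq E * E := by
    rw [hE, st_add, st_one]
    simp only [Matrix.add_mul, Matrix.mul_add, Matrix.one_mul, Matrix.mul_one, hnorm]
    abel
  have hEu : IsUnit E.det := by rw [hEdet]; exact isUnit_iff_ne_zero.2 hb
  obtain ⟨F, hF⟩ : ∃ F : Matrix (Fin n) (Fin n) K, F = E⁻¹ := ⟨_, rfl⟩
  have hEF : E * F = 1 := by rw [hF]; exact Matrix.mul_nonsing_inv E hEu
  have hFE : F * E = 1 := by rw [hF]; exact Matrix.nonsing_inv_mul E hEu
  have hFX : F * X = X * F := by
    calc F * X = F * X * (E * F) := by rw [hEF, Matrix.mul_one]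
      _ = F * (X * E) * F := by simp only [Matrix.mul_assoc]
      _ = F * (E * X) * F := by rw [hEX]
      _ = (F * E) * X * F := by simp only [Matrix.mul_assoc]
      _ = X * F := by rw [hFE, Matrix.one_mul]
  have hFs : F * st hq E = st hq E * F := by
    calc F * st hq E = F * st hq E * (E * F) := by rw [hEF, Matrix.mul_one]
      _ = F * (st hq E * E) * F := by simp only [Matrix.mul_assoc]
      _ = F * (E * st hq E) * F := by rw [hEn]
      _ = (F * E) * st hq E * F := by simp only [Matrix.mul_assoc]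
      _ = st hq E * F := by rw [hFE, Matrix.one_mul]
  refine ⟨F * st hq E, ?_, ?_, ?_⟩
  · calc st hq (F * st hq E) * (F * st hq E)
        = st hq (st hq E * F) * (F * st hq E) := by rw [hFs]
      _ = st hq F * E * (F * st hq E) := by rw [st_mul, st_st]
      _ = st hq F * (E * F) * st hq E := by simp only [Matrix.mul_assoc]
      _ = st hq F * st hq E := by rw [hEF, Matrix.mul_one]
      _ = st hq (E * F) := (st_mul hq E F).symm
      _ = 1 := by rw [hEF, st_one]
  · calc F * st hq E * X = F * (st hq E * X) := by rw [Matrix.mul_assoc]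
      _ = F * (X * st hq E) := by rw [hstcomm E hEX]
      _ = (F * X) * st hq E := by rw [Matrix.mul_assoc]
      _ = X * (F * st hq E) := by rw [hFX, Matrix.mul_assoc]
  · rw [Matrix.det_mul, det_st, hEdet]
    congr 1
    have h1 : F.det * E.det = 1 := by rw [← Matrix.det_mul, hFE, Matrix.det_one]
    rw [hEdet] at h1
    exact eq_inv_of_mul_eq_one_left h1

theorem exists_norm_root [Fintype K] (hK : Fintype.card K = q ^ 2) (hq : QF K q) (u : K)
    (hu : u ^ (q + 1) = 1) : ∃ b : K, b ≠ 0 ∧ b⁻¹ * frob hq b = u := by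
  have hq1 : 1 ≤ q := Nat.one_le_iff_ne_zero.2 hq.q0
  obtain ⟨γ, hγ0, hγord, hγgen⟩ := Cfsg.Agent.S2670.exists_gen K
  rw [hK, Cfsg.Agent.S0783.sq_sub_one hq1] at hγord
  have hu0 : u ≠ 0 := by
    rintro rfl
    rw [zero_pow (Nat.succ_ne_zero q)] at hu
    exact zero_ne_one hu
  obtain ⟨s, hs⟩ := hγgen u hu0
  have h1 : γ ^ (s * (q + 1)) = 1 := by rw [pow_mul, hs, hu]
  have h2 := orderOf_dvd_of_pow_eq_one h1
  rw [hγord, mul_comm s] at h2
  have h3 : (q - 1) ∣ s := Nat.dvd_of_mul_dvd_mul_left (by omega : 0 < q + 1) h2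
  obtain ⟨t, ht⟩ := h3
  have hb0 : γ ^ t ≠ 0 := pow_ne_zero _ hγ0
  refine ⟨γ ^ t, hb0, ?_⟩
  have h4 : (γ ^ t) ^ q = γ ^ t * (γ ^ t) ^ (q - 1) := by
    rw [← pow_succ', Nat.sub_add_cancel hq1]
  rw [frob_apply, h4, ← mul_assoc, inv_mul_cancel₀ hb0, one_mul, ← pow_mul, mul_comm t, ← ht,
    hs]

/-- The centraliser in the unitary group of a semisimple unitary matrix contains elements of
every determinant of norm one. -/
theorem cent_det_gu [Fintype K] (hK : Fintype.card K = q ^ 2) (hq : QF K q) (hn : 0 < n)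
    (X : Matrix (Fin n) (Fin n) K) (hXu : st hq X * X = 1) (N : ℕ) (hN : X ^ N = 1)
    (hNK : (N : K) ≠ 0) (u : K) (hu : u ^ (q + 1) = 1) :
    ∃ c : Matrix (Fin n) (Fin n) K, st hq c * c = 1 ∧ c * X = X * c ∧ c.det = u := by
  obtain ⟨b, hb0, hb⟩ := exists_norm_root hK hq u hu
  obtain ⟨c, h1, h2, h3⟩ := exists_cent_gu hq hn X hXu N hN hNK b hb0
  exact ⟨c, h1, h2, h3.trans hb⟩

end Herm

end Cfsg.Agent.Helper14.SemiU
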