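import Mathlib
import Cfsg.Prelude.Def_LieClassical
import Cfsg.Agent.Helper14.PrimeOrdU1
import Cfsg.Agent.Helper14.SpPal

/-!
Characteristic polynomials of semisimple elements of special unitary groups: every monic
conjugate-self-reciprocal polynomial occurs, and a count of the fixed points of a semilinear
involution.
-/

set_option autoImplicit false
open Polynomial
open scoped Matrix

universe u

namespace Cfsg.Agent.Helper14.SemiU

open Cfsg.Agent.Helper8.SULag (QF frob frob_apply frob_frob qf_of_card)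
open Cfsg.Agent.Helper14.RegUniU (st st_of_unitary unitary_of_st)
open Cfsg.Agent.Helper14.PrimeOrdU (sstar sstar_monic sstar_natDegree sstar_sstar
  sstar_coeff_zero QC QC_id QC_mul QC_self QC_pair exists_gu_of_QC)

section Poly

variable {K : Type u} [Field K] {q : ℕ}

theorem star_mul' (a b : K[X]) :
    PrimeOrdSp.star (a * b) = PrimeOrdSp.star a * PrimeOrdSp.star b := by
  unfold PrimeOrdSp.star
  rw [Polynomial.mul_coeff_zero, mul_inv, C_mul, Polynomial.reverse_mul_of_domain]
  ring

theorem sstar_mul (hq : QF K q) (a b : K[X]) :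
    sstar hq (a * b) = sstar hq a * sstar hq b := by
  unfold sstar
  rw [Polynomial.map_mul, star_mul']

theorem sstar_coeff (hq : QF K q) (f : K[X]) (k : ℕ) (hk : k ≤ f.natDegree) :
    (sstar hq f).coeff k
      = (frob hq (f.coeff 0))⁻¹ * frob hq (f.coeff (f.natDegree - k)) := by
  unfold sstar PrimeOrdSp.star
  rw [Polynomial.coeff_C_mul, Polynomial.coeff_map, Polynomial.coeff_reverse,
    Polynomial.natDegree_map, Polynomial.revAt_le hk, Polynomial.coeff_map]

/-- Every monic conjugate-self-reciprocal polynomial is the characteristic polynomial of an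
isometry of a Hermitian space. -/
theorem QC_of_sstar (hq : QF K q) : ∀ (d : ℕ) (f : K[X]), f.natDegree = d → f.Monic →
    f.coeff 0 ≠ 0 → sstar hq f = f → QC hq f := by
  intro d
  induction d using Nat.strong_induction_on with
  | _ d ih =>
    intro f hd hm h0 hs
    by_cases hu : IsUnit f
    · have h1 : f = 1 := hm.eq_one_of_isUnit hu
      have h2 := QC_id hq 0
      rw [pow_zero] at h2
      rw [h1]
      exact h2
    · obtain ⟨φ, hφm, hφirr, g, hg⟩ := Polynomial.exists_monic_irreducible_factor f hu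
      have hφ0 : φ.coeff 0 ≠ 0 := by
        intro h
        apply h0
        rw [hg, Polynomial.mul_coeff_zero, h, zero_mul]
      have hφpos : 0 < φ.natDegree :=
        Polynomial.natDegree_pos_iff_degree_pos.mpr (Polynomial.degree_pos_of_irreducible hφirr)
      by_cases hself : sstar hq φ = φ
      · have hg0 : g.coeff 0 ≠ 0 := by
          intro h
          apply h0
          rw [hg, Polynomial.mul_coeff_zero, h, mul_zero]
        have hgm : g.Monic := hφm.of_mul_monic_left (by rw [← hg]; exact hm)
        have hdeg : f.natDegree = φ.natDegree + g.natDegree := by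
          rw [hg]; exact hφm.natDegree_mul hgm
        have hgs : sstar hq g = g := by
          have h1 : φ * sstar hq g = φ * g := by
            have h2 := hs
            rw [hg, sstar_mul, hself] at h2
            exact h2
          exact mul_left_cancel₀ hφm.ne_zero h1
        have hQg := ih g.natDegree (by omega) g rfl hgm hg0 hgs
        rw [hg]
        exact QC_mul hq (QC_self hq φ hφirr hφm hφ0 hself) hQg
      · have hsφm := sstar_monic hq φ hφ0
        have hcop : IsCoprime φ (sstar hq φ) := by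
          rcases EuclideanDomain.dvd_or_coprime φ (sstar hq φ) hφirr with h | h
          · exfalso
            apply hself
            exact Polynomial.eq_of_monic_of_dvd_of_natDegree_le hφm hsφm h
              (by rw [sstar_natDegree hq φ hφ0])
          · exact h
        have hsdvd : sstar hq φ ∣ f := by
          have h2 : sstar hq f = sstar hq φ * sstar hq g := by rw [hg, sstar_mul]
          rw [← hs, h2]
          exact dvd_mul_right _ _
        obtain ⟨g₂, hg₂⟩ := hcop.mul_dvd ⟨g, hg⟩ hsdvd
        have hψm : (φ * sstar hq φ).Monic := hφm.mul hsφm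
        have hg0 : g₂.coeff 0 ≠ 0 := by
          intro h
          apply h0
          rw [hg₂, Polynomial.mul_coeff_zero, h, mul_zero]
        have hgm : g₂.Monic := hψm.of_mul_monic_left (by rw [← hg₂]; exact hm)
        have hdeg : f.natDegree = (φ * sstar hq φ).natDegree + g₂.natDegree := by
          rw [hg₂]; exact hψm.natDegree_mul hgm
        have hψdeg : (φ * sstar hq φ).natDegree = φ.natDegree + (sstar hq φ).natDegree :=
          hφm.natDegree_mul hsφm
        have hψs : sstar hq (φ * sstar hq φ) = φ * sstar hq φ := by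
          rw [sstar_mul, sstar_sstar hq φ hφm hφ0, mul_comm]
        have hgs : sstar hq g₂ = g₂ := by
          have h1 : (φ * sstar hq φ) * sstar hq g₂ = (φ * sstar hq φ) * g₂ := by
            have h2 := hs
            rw [hg₂, sstar_mul, hψs] at h2
            exact h2
          exact mul_left_cancel₀ hψm.ne_zero h1
        have hQg := ih g₂.natDegree (by omega) g₂ rfl hgm hg0 hgs
        rw [hg₂]
        exact QC_mul hq (QC_pair hq φ hφm hφ0) hQg

end Poly

section Fix

variable {K : Type u} [Field K] {q : ℕ}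

/-- The fixed points of a conjugate-semilinear involution of `K^d` number `q^d`. -/
theorem card_fix [Fintype K] (hK : Fintype.card K = q ^ 2) (hq : QF K q) {d : ℕ}
    (θ : (Fin d → K) → (Fin d → K)) (hadd : ∀ x y, θ (x + y) = θ x + θ y)
    (hsm : ∀ (c : K) x, θ (c • x) = frob hq c • θ x) (hinv : ∀ x, θ (θ x) = x) :
    Nat.card {v : Fin d → K // θ v = v} = q ^ d := by
  classical
  obtain ⟨η, hη⟩ := hq.ex
  have hη' : η - frob hq η ≠ 0 := by
    rw [frob_apply]
    exact sub_ne_zero.2 (Ne.symm hη)
  have hneg : ∀ x, θ (-x) = - θ x := by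
    intro x
    have h := hsm (-1) x
    rw [neg_one_smul, map_neg, map_one, neg_one_smul] at h
    exact h
  have hsub : ∀ x y, θ (x - y) = θ x - θ y := by
    intro x y
    rw [sub_eq_add_neg, hadd, hneg, ← sub_eq_add_neg]
  obtain ⟨Φ, hΦ⟩ : ∃ Φ : {v : Fin d → K // θ v = v} × {v : Fin d → K // θ v = v} →
      (Fin d → K), ∀ xy, Φ xy = xy.1.1 + η • xy.2.1 := ⟨fun xy => xy.1.1 + η • xy.2.1,
    fun _ => rfl⟩
  have hbij : Function.Bijective Φ := by
    constructor
    · rintro ⟨⟨x, hx⟩, ⟨y, hy⟩⟩ ⟨⟨x', hx'⟩, ⟨y', hy'⟩⟩ h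
      rw [hΦ, hΦ] at h
      have h1 : x + η • y = x' + η • y' := h
      have h2 : x + frob hq η • y = x' + frob hq η • y' := by
        have h3 := congrArg θ h1
        rw [hadd, hadd, hsm, hsm, hx, hy, hx', hy'] at h3
        exact h3
      have e1 : η • y - frob hq η • y = η • y' - frob hq η • y' := by
        have e2 : (x + η • y) - (x + frob hq η • y) = η • y - frob hq η • y := by abel
        have e3 : (x' + η • y') - (x' + frob hq η • y') = η • y' - frob hq η • y' := by abel
        rw [← e2, ← e3, h1, h2]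
      have h3 : (η - frob hq η) • (y - y') = 0 := by
        rw [sub_smul, smul_sub, smul_sub]
        have e4 : η • y - η • y' - (frob hq η • y - frob hq η • y')
            = (η • y - frob hq η • y) - (η • y' - frob hq η • y') := by abel
        rw [e4, e1, sub_self]
      have hyy : y = y' := sub_eq_zero.1 ((smul_eq_zero.1 h3).resolve_left hη')
      have hxx : x = x' := by
        rw [hyy] at h1
        exact add_right_cancel h1
      exact Prod.ext (Subtype.ext hxx) (Subtype.ext hyy)
    · intro v
      obtain ⟨y, hydef⟩ : ∃ y : Fin d → K, y = (η - frob hq η)⁻¹ • (v - θ v) := ⟨_, rfl⟩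
      have hy : θ y = y := by
        rw [hydef, hsm, hsub, hinv, map_inv₀, map_sub, frob_frob]
        have e : (frob hq η - η)⁻¹ = -(η - frob hq η)⁻¹ := by
          rw [← neg_sub η (frob hq η), inv_neg]
        rw [e, neg_smul, ← smul_neg, neg_sub]
      have e : η • y - frob hq η • y = v - θ v := by
        rw [← sub_smul, hydef, smul_smul, mul_inv_cancel₀ hη', one_smul]
      have hx : θ (v - η • y) = v - η • y := by
        rw [hsub, hsm, hy]
        have e5 : θ v - frob hq η • y - (v - η • y)
            = (η • y - frob hq η • y) - (v - θ v) := by abel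
        rw [← sub_eq_zero, e5, e, sub_self]
      refine ⟨(⟨v - η • y, hx⟩, ⟨y, hy⟩), ?_⟩
      rw [hΦ]
      show v - η • y + η • y = v
      rw [sub_add_cancel]
  have hcard : Nat.card {v : Fin d → K // θ v = v} ^ 2 = (q ^ d) ^ 2 := by
    rw [sq, ← Nat.card_prod, Nat.card_congr (Equiv.ofBijective Φ hbij),
      Nat.card_eq_fintype_card, Fintype.card_fun, Fintype.card_fin, hK]
    ring
  exact Nat.pow_left_injective (by norm_num : (2 : ℕ) ≠ 0) hcard

end Fix

section SU

variable {K : Type u} [Field K] {q : ℕ}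

theorem charpoly_isConj_su {n : ℕ} (x y : ↥(Cfsg.SU n K q)) (h : IsConj x y) :
    (x.1.1 : Matrix (Fin n) (Fin n) K).charpoly = (y.1.1 : Matrix (Fin n) (Fin n) K).charpoly := by
  rw [isConj_iff] at h
  obtain ⟨c, hc⟩ := h
  rw [mul_inv_eq_iff_eq_mul] at hc
  have hcm : (c.1.1 : Matrix (Fin n) (Fin n) K) * x.1.1 = y.1.1 * c.1.1 :=
    congrArg (fun z : ↥(Cfsg.SU n K q) => (z.1.1 : Matrix (Fin n) (Fin n) K)) hc
  have hdet : IsUnit (c.1.1 : Matrix (Fin n) (Fin n) K).det := by
    rw [c.1.2]; exact isUnit_one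
  have hy : (y.1.1 : Matrix (Fin n) (Fin n) K)
      = (c.1.1 : Matrix (Fin n) (Fin n) K) * x.1.1 * (c.1.1 : Matrix (Fin n) (Fin n) K)⁻¹ := by
    rw [hcm, Matrix.mul_assoc, Matrix.mul_nonsing_inv _ hdet, Matrix.mul_one]
  rw [hy]
  exact (Matrix.charpoly_units_conj (Matrix.nonsingInvUnit _ hdet) _).symm

theorem exists_pprime_su [Fintype K] (p : ℕ) [Fact p.Prime] [CharP K p] {n : ℕ}
    (g : ↥(Cfsg.SU n K q)) :
    ∃ h : ↥(Cfsg.SU n K q), (orderOf h).Coprime p ∧
      (h.1.1 : Matrix (Fin n) (Fin n) K).charpoly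
        = (g.1.1 : Matrix (Fin n) (Fin n) K).charpoly := by
  haveI : Finite (Matrix.SpecialLinearGroup (Fin n) K) :=
    Finite.of_injective (fun A : Matrix.SpecialLinearGroup (Fin n) K =>
      (A : Matrix (Fin n) (Fin n) K)) (fun a b h => Subtype.ext h)
  obtain ⟨r, -, hqc⟩ := FiniteField.card K p
  have hN : orderOf g ≠ 0 := (orderOf_pos g).ne'
  obtain ⟨e, m, hm, hNe⟩ := Nat.exists_eq_pow_mul_and_not_dvd hN p (Fact.out : p.Prime).ne_one
  refine ⟨g ^ (Fintype.card K ^ e), ?_, ?_⟩
  · have h1 : (g ^ (Fintype.card K ^ e)) ^ m = 1 := by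
      have hle : e ≤ (r : ℕ) * e := Nat.le_mul_of_pos_left e r.pos
      obtain ⟨s, hs⟩ : ∃ s, (r : ℕ) * e = e + s := ⟨_, (Nat.add_sub_of_le hle).symm⟩
      have e1 : Fintype.card K ^ e * m = orderOf g * p ^ s := by
        rw [hqc, ← pow_mul, hs, pow_add, hNe]; ring
      rw [← pow_mul, e1, pow_mul, pow_orderOf_eq_one, one_pow]
    exact Nat.Coprime.coprime_dvd_left (orderOf_dvd_of_pow_eq_one h1)
      ((Nat.Prime.coprime_iff_not_dvd Fact.out).mpr hm).symm
  · rw [Subgroup.coe_pow, Matrix.SpecialLinearGroup.coe_pow]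
    exact Cfsg.Agent.Helper14.SpPal.charpoly_pow_card_pow' _ e

/-- Every characteristic polynomial of a Hermitian isometry with determinant one is the
characteristic polynomial of an element of `SU_n(q)` of order prime to `p`. -/
theorem exists_su_charpoly [Fintype K] (hq : QF K q) (p : ℕ) [Fact p.Prime] [CharP K p]
    {n : ℕ} (f : K[X]) (hQC : QC hq f) (hdeg : f.natDegree = n)
    (h0 : (-1 : K) ^ n * f.coeff 0 = 1) :
    ∃ x : ↥(Cfsg.SU n K q), (orderOf x).Coprime p ∧
      (x.1.1 : Matrix (Fin n) (Fin n) K).charpoly = f := by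
  obtain ⟨G, hG, hGc⟩ := exists_gu_of_QC hq f hQC hdeg
  have hdet : (G : Matrix (Fin n) (Fin n) K).det = 1 := by
    rw [Matrix.det_eq_sign_charpoly_coeff, hGc, Fintype.card_fin]
    exact h0
  obtain ⟨x₀, hx₀⟩ : ∃ x₀ : ↥(Cfsg.SU n K q),
      (x₀.1.1 : Matrix (Fin n) (Fin n) K) = (G : Matrix (Fin n) (Fin n) K) :=
    ⟨⟨⟨(G : Matrix (Fin n) (Fin n) K), hdet⟩, fun u v => hG u v⟩, rfl⟩
  obtain ⟨x, hx1, hx2⟩ := exists_pprime_su p x₀
  exact ⟨x, hx1, by rw [hx2, hx₀, hGc]⟩

end SU

end Cfsg.Agent.Helper14.SemiU
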